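import Mathlib
import Cfsg.Agent.Lib.Helper80.BTStmt

set_option autoImplicit false

universe u

namespace Cfsg.Agent.Lib.Helper28.BTTYPES

open Cfsg Cfsg.Agent.Lib.Helper80.BTStmt

/-- `|N_G(P) : C_G(P)|` divides `p - 1` (as in `Helper80.FTRES.relIndex_dvd`). -/
theorem relIndex_dvd' {G : Type u} [Group G] [Finite G] {p : ℕ} [Fact p.Prime] (P : Sylow p G)
    (hP : Nat.card P = p) :
    (Subgroup.centralizer ((P : Subgroup G) : Set G)).relIndex
      (Subgroup.normalizer ((P : Subgroup G) : Set G)) ∣ p - 1 := by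
  have hp : p.Prime := Fact.out
  have hP' : Nat.card ↥(P : Subgroup G) = p := hP
  have hcyc : IsCyclic ↥(P : Subgroup G) := isCyclic_of_prime_card hP'
  have h1 : Nat.card (MulAut ↥(P : Subgroup G)) = p - 1 := by
    rw [IsCyclic.card_mulAut, hP', Nat.totient_prime hp]
  have hker := Subgroup.normalizerMonoidHom_ker (P : Subgroup G)
  rw [Subgroup.relIndex, ← hker, Subgroup.index_ker, ← h1]
  exact Subgroup.card_subgroup_dvd_card _

theorem eq_one_of_bounds (x d y : ℕ) (hy : y = x * d) (hy0 : 0 < y) (hlt : y < x * 2) : d = 1 := by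
  have hd0 : d ≠ 0 := by
    rintro rfl
    rw [mul_zero] at hy; omega
  have hd2 : d < 2 := by
    by_contra h
    have h' : 2 ≤ d := by omega
    have := Nat.mul_le_mul_left x h'
    omega
  omega

theorem main : Cfsg.Agent.Lib.Helper80.BTStmt.TYPES.{u} := by
  intro G _ _ p q b g₀ hyp c hY
  obtain ⟨hsimple, hncyc, hp, hq, hpq, hcard, hg⟩ := hyp
  have hfact : Fact p.Prime := ⟨hp⟩
  have he_dvd : c.e ∣ p - 1 := by rw [← c.he]; exact relIndex_dvd' c.P c.hP
  have hp2 : 2 ≤ p := hp.two_le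
  have he1 : 1 ≤ c.e := Nat.pos_of_dvd_of_pos he_dvd (by omega)
  have hele : c.e ≤ p - 1 := Nat.le_of_dvd (by omega) he_dvd
  have hg0 : 0 < g₀ := by
    rcases Nat.eq_zero_or_pos g₀ with h | h
    · subst h
      rw [mul_zero] at hcard
      have := Nat.card_pos (α := G)
      omega
    · exact h
  have key : ∀ θ ∈ c.Y, 2 ≤ charDegree (θ : G → ℂ) ∧ charDegree (θ : G → ℂ) < p - 1 := by
    intro θ hθ
    obtain ⟨-, hdvd, h2, -⟩ := hY.2 θ hθ
    exact ⟨h2, lt_of_le_of_lt (Nat.le_of_dvd hg0 hdvd) hg⟩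
  rcases c.hε with hε | hε
  · left
    refine ⟨hε, fun θ hθ => ?_⟩
    obtain ⟨h2, hlt⟩ := key θ hθ
    have hmod := c.hYdeg θ hθ
    rw [hε, one_mul] at hmod
    unfold Int.ModEq at hmod
    rw [Int.emod_eq_of_lt (by positivity) (by omega), Int.emod_eq_of_lt (by positivity) (by omega)]
      at hmod
    exact_mod_cast hmod
  · right
    refine ⟨hε, fun θ hθ => ?_⟩
    obtain ⟨h2, hlt⟩ := key θ hθ
    have hmod := c.hYdeg θ hθ
    rw [hε] at hmod
    have hd := Int.ModEq.dvd hmod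
    have hd2 : (p : ℤ) ∣ ((charDegree (θ : G → ℂ) + c.e : ℕ) : ℤ) := by
      have e : ((charDegree (θ : G → ℂ) + c.e : ℕ) : ℤ)
          = -(-1 * (c.e : ℤ) - (charDegree (θ : G → ℂ) : ℤ)) := by push_cast; ring
      rw [e]; exact (dvd_neg).2 hd
    have hd3 : p ∣ charDegree (θ : G → ℂ) + c.e := Int.natCast_dvd_natCast.1 hd2
    obtain ⟨k, hk⟩ := hd3
    have hk1 : k = 1 := eq_one_of_bounds p k _ hk (by omega) (by omega)
    rw [hk1, mul_one] at hk
    exact hk

end Cfsg.Agent.Lib.Helper28.BTTYPES
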