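import Mathlib

/-!
The action of a simple group on the cosets of a subgroup of index `n`, as a subgroup of the
symmetric group on `Fin n` in which the subgroup is the stabiliser of the point `0`; transport of
a subgroup of index two of the subgroup.
-/

set_option autoImplicit false

namespace Cfsg.Agent.Lib.Helper28.CosetRep

variable {G : Type} [Group G]

/-- the coset action on `Fin n`, the base coset being the point `0`. -/
theorem exists_rep (Hs : Subgroup G) (n : Nat) [NeZero n] (hidx : Hs.index = n) :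
    ∃ ρ : G →* Equiv.Perm (Fin n), (∀ a b : Fin n, ∃ g, ρ g a = b) ∧
      (∀ g, ρ g 0 = 0 ↔ g ∈ Hs) := by
  classical
  have hcard : Nat.card (G ⧸ Hs) = n := by rw [← Subgroup.index_eq_card]; exact hidx
  have hfin : Finite (G ⧸ Hs) := Nat.finite_of_card_ne_zero (by rw [hcard]; exact NeZero.ne n)
  let _ : Fintype (G ⧸ Hs) := Fintype.ofFinite _
  have hcard' : Fintype.card (G ⧸ Hs) = n := by rw [← Nat.card_eq_fintype_card]; exact hcard
  let e0 : (G ⧸ Hs) ≃ Fin n := Fintype.equivFinOfCardEq hcard'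
  let e : (G ⧸ Hs) ≃ Fin n := e0.trans (Equiv.swap (e0 ((1 : G) : G ⧸ Hs)) 0)
  have he : e ((1 : G) : G ⧸ Hs) = 0 := by
    show Equiv.swap (e0 ((1 : G) : G ⧸ Hs)) 0 (e0 ((1 : G) : G ⧸ Hs)) = 0
    exact Equiv.swap_apply_left _ _
  have he' : e.symm 0 = ((1 : G) : G ⧸ Hs) := by rw [← he, Equiv.symm_apply_apply]
  let ρ : G →* Equiv.Perm (Fin n) :=
    (e.permCongrHom : Equiv.Perm (G ⧸ Hs) ≃* Equiv.Perm (Fin n)).toMonoidHom.comp
      (MulAction.toPermHom G (G ⧸ Hs))
  have hρ : ∀ (g : G) (a : Fin n), ρ g a = e (g • e.symm a) := fun g a => rfl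
  refine ⟨ρ, ?_, ?_⟩
  · intro a b
    obtain ⟨g, hg⟩ := MulAction.exists_smul_eq G (e.symm a) (e.symm b)
    exact ⟨g, by rw [hρ, hg, Equiv.apply_symm_apply]⟩
  · intro g
    rw [hρ, he']
    constructor
    · intro h
      have h2 : g • ((1 : G) : G ⧸ Hs) = ((1 : G) : G ⧸ Hs) := by
        apply e.injective
        rw [h, he]
      have h3 : g ∈ MulAction.stabilizer G ((1 : G) : G ⧸ Hs) := h2
      rw [MulAction.stabilizer_quotient] at h3
      exact h3
    · intro h
      have h3 : g ∈ MulAction.stabilizer G ((1 : G) : G ⧸ Hs) := by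
        rw [MulAction.stabilizer_quotient]; exact h
      have h2 : g • ((1 : G) : G ⧸ Hs) = ((1 : G) : G ⧸ Hs) := h3
      rw [h2, he]

/-- a simple group with a subgroup of index `n > 1` as a transitive group on `n` points. -/
theorem assemble (Hs : Subgroup G) (n : Nat) [NeZero n] (hn : 1 < n) (hidx : Hs.index = n)
    (hs : IsSimpleGroup G) (c : Nat) (hc : Nat.card G = c)
    {S : Type} [Group S] (N : Subgroup Hs) (hN : N.index = 2) (iso : N ≃* S) :
    ∃ H : Subgroup (Equiv.Perm (Fin n)), (IsSimpleGroup H ∧ Nat.card H = c) ∧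
      MulAction.IsPretransitive H (Fin n) ∧
      ∃ N' : Subgroup (MulAction.stabilizer H (0 : Fin n)), N'.index = 2 ∧ Nonempty (N' ≃* S) := by
  classical
  obtain ⟨ρ, htr, hst⟩ := exists_rep Hs n hidx
  have hinj : Function.Injective ρ := by
    rw [← MonoidHom.ker_eq_bot_iff]
    rcases hs.eq_bot_or_eq_top_of_normal ρ.ker (MonoidHom.normal_ker ρ) with h | h
    · exact h
    · exfalso
      obtain ⟨g, hg⟩ := htr 0 ⟨1, hn⟩
      have hg1 : g ∈ ρ.ker := by rw [h]; exact Subgroup.mem_top g
      rw [MonoidHom.mem_ker] at hg1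
      rw [hg1] at hg
      have h0 : (0 : Fin n) = ⟨1, hn⟩ := hg
      have h1 : ((0 : Fin n) : Nat) = 1 := congrArg Fin.val h0
      rw [Fin.val_zero] at h1
      exact absurd h1 (by decide)
  let φ : G ≃* ρ.range := MonoidHom.ofInjective hinj
  have hφ : ∀ g : G, ((φ g : ρ.range) : Equiv.Perm (Fin n)) = ρ g := fun g => rfl
  refine ⟨ρ.range, ⟨?_, ?_⟩, ?_, ?_⟩
  · have := hs
    exact φ.symm.isSimpleGroup
  · rw [← hc]
    exact (Nat.card_congr φ.toEquiv).symm
  · constructor
    intro a b
    obtain ⟨g, hg⟩ := htr a b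
    exact ⟨φ g, hg⟩
  · -- the stabiliser of the point 0
    have hmem : ∀ x : Hs, φ x.1 ∈ MulAction.stabilizer ρ.range (0 : Fin n) := by
      intro x
      rw [MulAction.mem_stabilizer_iff]
      show ρ x.1 0 = 0
      exact (hst x.1).mpr x.2
    let f : Hs →* MulAction.stabilizer ρ.range (0 : Fin n) :=
      { toFun := fun x => ⟨φ x.1, hmem x⟩
        map_one' := Subtype.ext (map_one φ)
        map_mul' := fun x y => Subtype.ext (map_mul φ x.1 y.1) }
    have hf : Function.Bijective f := by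
      constructor
      · intro x y hxy
        have h1 : φ x.1 = φ y.1 := congrArg Subtype.val hxy
        exact Subtype.ext (φ.injective h1)
      · rintro ⟨h, hh⟩
        obtain ⟨g, hg⟩ := φ.surjective h
        have hg0 : ρ g 0 = 0 := by
          rw [MulAction.mem_stabilizer_iff, ← hg] at hh
          exact hh
        exact ⟨⟨g, (hst g).mp hg0⟩, Subtype.ext hg⟩
    let ψ : Hs ≃* MulAction.stabilizer ρ.range (0 : Fin n) := MulEquiv.ofBijective f hf
    refine ⟨N.map (ψ : Hs →* MulAction.stabilizer ρ.range (0 : Fin n)), ?_, ⟨?_⟩⟩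
    · rw [Subgroup.index_map_equiv]
      exact hN
    · exact (ψ.subgroupMap N).symm.trans iso

end Cfsg.Agent.Lib.Helper28.CosetRep
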