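import Cfsg.Agent.Lib.Helper28.CosetRep

/-!
The action of a simple group on the cosets of a subgroup of index `n`, as a subgroup of the
symmetric group on `Fin n` isomorphic to the group, the stabiliser of the point `0` having the
order of the subgroup.
-/

set_option autoImplicit false

namespace Cfsg.Agent.Lib.Helper28.CosetRep2

variable {G : Type} [Group G]

theorem assemble2 (Hs : Subgroup G) (n : Nat) [NeZero n] (hn : 1 < n) (hidx : Hs.index = n)
    (hs : IsSimpleGroup G) :
    ∃ (H : Subgroup (Equiv.Perm (Fin n))) (_ : G ≃* H),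
      MulAction.IsPretransitive H (Fin n) ∧
      Nat.card (MulAction.stabilizer H (0 : Fin n)) = Nat.card Hs := by
  classical
  obtain ⟨ρ, htr, hst⟩ := CosetRep.exists_rep Hs n hidx
  have hinj : Function.Injective ρ := by
    rw [← MonoidHom.ker_eq_bot_iff]
    rcases hs.eq_bot_or_eq_top_of_normal ρ.ker (MonoidHom.normal_ker ρ) with h | h
    · exact h
    · exfalso
      obtain ⟨g, hg⟩ := htr 0 ⟨1, hn⟩
      have hg1 : g ∈ ρ.ker := by rw [h]; exact Subgroup.mem_top g
      rw [MonoidHom.mem_ker] at hg1
      rw [hg1] at hg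
      have h0 : (0 : Fin n) = ⟨1, hn⟩ := hg
      have h1 : ((0 : Fin n) : Nat) = 1 := congrArg Fin.val h0
      rw [Fin.val_zero] at h1
      exact absurd h1 (by decide)
  let φ : G ≃* ρ.range := MonoidHom.ofInjective hinj
  refine ⟨ρ.range, φ, ?_, ?_⟩
  · constructor
    intro a b
    obtain ⟨g, hg⟩ := htr a b
    exact ⟨φ g, hg⟩
  · have hmem : ∀ x : Hs, φ x.1 ∈ MulAction.stabilizer ρ.range (0 : Fin n) := by
      intro x
      rw [MulAction.mem_stabilizer_iff]
      show ρ x.1 0 = 0
      exact (hst x.1).mpr x.2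
    let f : Hs →* MulAction.stabilizer ρ.range (0 : Fin n) :=
      { toFun := fun x => ⟨φ x.1, hmem x⟩
        map_one' := Subtype.ext (map_one φ)
        map_mul' := fun x y => Subtype.ext (map_mul φ x.1 y.1) }
    have hf : Function.Bijective f := by
      constructor
      · intro x y hxy
        have h1 : φ x.1 = φ y.1 := congrArg Subtype.val hxy
        exact Subtype.ext (φ.injective h1)
      · rintro ⟨h, hh⟩
        obtain ⟨g, hg⟩ := φ.surjective h
        have hg0 : ρ g 0 = 0 := by
          rw [MulAction.mem_stabilizer_iff, ← hg] at hh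
          exact hh
        exact ⟨⟨g, (hst g).mp hg0⟩, Subtype.ext hg⟩
    exact (Nat.card_congr (Equiv.ofBijective f hf)).symm

end Cfsg.Agent.Lib.Helper28.CosetRep2
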