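import Mathlib
import Cfsg.Agent.Lib.Helper89.DSStmt

/-! # S0508 piece KMEM -/

set_option autoImplicit false

namespace Cfsg.Agent.Lib.Helper28.DSKMEM

universe u

theorem main : Cfsg.Agent.Lib.Helper89.DSStmt.KMem.{u} := by
  intro G _ O A hA
  have hc : ∀ o ∈ O, ∀ a ∈ A, o * a = a * o := fun o ho a ha =>
    (Subgroup.mem_centralizer_iff.mp (hA ha)) o ho
  let C : Subgroup G :=
    { carrier := {x | ∃ o ∈ O, ∃ a ∈ A, x = o * a}
      one_mem' := ⟨1, O.one_mem, 1, A.one_mem, by simp⟩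
      mul_mem' := by
        rintro _ _ ⟨o, ho, a, ha, rfl⟩ ⟨o', ho', a', ha', rfl⟩
        refine ⟨o * o', O.mul_mem ho ho', a * a', A.mul_mem ha ha', ?_⟩
        calc o * a * (o' * a') = o * (a * o') * a' := by group
          _ = o * (o' * a) * a' := by rw [hc o' ho' a ha]
          _ = o * o' * (a * a') := by group
      inv_mem' := by
        rintro _ ⟨o, ho, a, ha, rfl⟩
        refine ⟨o⁻¹, O.inv_mem ho, a⁻¹, A.inv_mem ha, ?_⟩
        have := hc o⁻¹ (O.inv_mem ho) a⁻¹ (A.inv_mem ha)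
        rw [mul_inv_rev]
        exact this.symm }
  have hle : O ⊔ A ≤ C :=
    sup_le (fun o ho => ⟨o, ho, 1, A.one_mem, by simp⟩) (fun a ha => ⟨1, O.one_mem, a, ha, by simp⟩)
  intro x hx
  exact hle hx

end Cfsg.Agent.Lib.Helper28.DSKMEM
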