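import Mathlib
import Cfsg.Agent.Lib.Helper89.DSStmt

/-! # S0508 piece NONAB -/

set_option autoImplicit false
set_option linter.style.haveILetI false

namespace Cfsg.Agent.Lib.Helper28.DSNONAB

universe u

theorem main : Cfsg.Agent.Lib.Helper89.DSStmt.NonAb.{u} := by
  intro G _ _ _ S n hn ⟨e⟩ hcomm
  have hcard : Nat.card ↥(S : Subgroup G) = 2 * n := by
    rw [Nat.card_congr e.toEquiv, DihedralGroup.nat_card]
  have hdvd : 2 * n ∣ Nat.card G := hcard ▸ Subgroup.card_subgroup_dvd_card (S : Subgroup G)
  have hprime : (Nat.card G).Prime := by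
    letI : CommGroup G := { (inferInstance : Group G) with mul_comm := fun a b => hcomm.is_comm.comm a b }
    exact IsSimpleGroup.prime_card
  rcases (Nat.dvd_prime hprime).mp hdvd with h1 | h2
  · omega
  · rw [← h2] at hprime
    have : (2 : ℕ) ∣ 2 * n := Dvd.intro _ rfl
    rcases (Nat.dvd_prime hprime).mp this with h | h <;> omega

end Cfsg.Agent.Lib.Helper28.DSNONAB
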