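import Mathlib
import Cfsg.Agent.Lib.Helper89.DSStmt

/-! # S0508 piece NOT12: a nonabelian simple group with `4 ∣ |S|` does not have order 12
(it would embed in the symmetric group on the three cosets of `S`). -/

set_option autoImplicit false

namespace Cfsg.Agent.Lib.Helper28.DSNOT12

universe u

theorem main : Cfsg.Agent.Lib.Helper89.DSStmt.Not12.{u} := by
  intro G _ _ _ hnc t S O h4 _ _ _ _ h12
  obtain ⟨k, hk⟩ := (IsPGroup.iff_card (p := 2) (G := ↥(S : Subgroup G))).mp S.isPGroup'
  have hdvd : Nat.card ↥(S : Subgroup G) ∣ 12 := h12 ▸ Subgroup.card_subgroup_dvd_card (S : Subgroup G)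
  have hS4 : Nat.card ↥(S : Subgroup G) = 4 := by
    rw [hk] at hdvd h4 ⊢
    have hle : 2 ^ k ≤ 12 := Nat.le_of_dvd (by norm_num) hdvd
    have hk4 : k < 4 := by
      by_contra hge
      have : 2 ^ 4 ≤ 2 ^ k := Nat.pow_le_pow_right (by norm_num) (by omega)
      omega
    interval_cases k <;> omega
  have hidx : (S : Subgroup G).index = 3 := by
    have := Subgroup.card_mul_index (S : Subgroup G)
    rw [hS4, h12] at this
    omega
  have hker : (MulAction.toPermHom G (G ⧸ (S : Subgroup G))).ker ≤ (S : Subgroup G) := by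
    rw [← Subgroup.normalCore_eq_ker]
    exact Subgroup.normalCore_le _
  rcases (MonoidHom.normal_ker (MulAction.toPermHom G (G ⧸ (S : Subgroup G)))).eq_bot_or_eq_top
    with hb | ht
  · have hinj : Function.Injective (MulAction.toPermHom G (G ⧸ (S : Subgroup G))) :=
      (MonoidHom.ker_eq_bot_iff _).mp hb
    have hle := Nat.card_le_card_of_injective _ hinj
    rw [Nat.card_perm, ← Subgroup.index_eq_card, hidx, h12] at hle
    norm_num [Nat.factorial] at hle
  · have hST : (S : Subgroup G) = ⊤ := top_le_iff.mp (ht ▸ hker)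
    have : Nat.card ↥(S : Subgroup G) = Nat.card G := by
      rw [hST]
      exact Subgroup.card_top
    omega

end Cfsg.Agent.Lib.Helper28.DSNOT12
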