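import Mathlib
import Cfsg.Agent.Lib.Helper89.DSStmt

/-! # S0508 piece NPOW -/

set_option autoImplicit false

namespace Cfsg.Agent.Lib.Helper28.DSNPOW

universe u

theorem main : Cfsg.Agent.Lib.Helper89.DSStmt.NPow.{u} := by
  intro G _ _ S n hn ⟨e⟩
  have hcard : Nat.card ↥(S : Subgroup G) = 2 * n := by
    rw [Nat.card_congr e.toEquiv, DihedralGroup.nat_card]
  obtain ⟨k, hk⟩ := (IsPGroup.iff_card (p := 2) (G := ↥(S : Subgroup G))).mp S.isPGroup'
  have h2n : 2 * n = 2 ^ k := by rw [← hcard, hk]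
  rcases k with _ | _ | j
  · exfalso
    simp at h2n
  · exfalso
    simp at h2n
    omega
  · have h4 : 2 ^ (j + 1 + 1) = 4 * 2 ^ j := by ring
    rw [h4] at h2n
    have hjpos : 0 < 2 ^ j := Nat.pos_of_ne_zero (by positivity)
    generalize 2 ^ j = m at h2n hjpos
    refine ⟨?_, ?_⟩
    · rw [hcard, h2n]
      exact Dvd.intro _ rfl
    · omega

end Cfsg.Agent.Lib.Helper28.DSNPOW
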