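import Cfsg.Agent.Lib.Helper28.DefF24q
import Cfsg.Agent.Lib.Helper28.OrdChain

set_option autoImplicit false

namespace Cfsg.Agent.Lib.Helper28.F24r

open Cfsg.Spor

/-- the generators -/
inductive Gen
  | k
  | a
  | b
  | c
  | d
  | e
  | f
  deriving DecidableEq

abbrev k : FreeGroup Gen := FreeGroup.of Gen.k
abbrev a : FreeGroup Gen := FreeGroup.of Gen.a
abbrev b : FreeGroup Gen := FreeGroup.of Gen.b
abbrev c : FreeGroup Gen := FreeGroup.of Gen.c
abbrev d : FreeGroup Gen := FreeGroup.of Gen.d
abbrev e : FreeGroup Gen := FreeGroup.of Gen.e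
abbrev f : FreeGroup Gen := FreeGroup.of Gen.f

/-- the sub-diagram -/
def edges : List (Gen × ℕ × Gen) :=
  [(.k, 3, .a), (.a, 3, .b), (.b, 3, .c), (.c, 3, .d), (.d, 3, .e), (.e, 3, .f)]

/-- the further relators -/
def extra : List (FreeGroup Gen) := []

/-- the generators in the bigger group -/
def iota : Gen → F24q.Gen
  | .k => .k
  | .a => .a
  | .b => .b
  | .c => .c
  | .d => .d
  | .e => .e
  | .f => .f

def gensL : List Gen := [.k, .a, .b, .c, .d, .e, .f]

theorem hom : ∃ F : CoxPresented Gen edges extra →* CoxPresented F24q.Gen F24q.edges F24q.extra,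
    F.range = (Subgroup.closure {s | s ∈ gensL.map (fun x => FreeGroup.of (iota x))}).map
      (PresentedGroup.mk (coxRelators F24q.edges ∪ {r | r ∈ F24q.extra})) :=
  OrdChain.sub_hom F24q.edges F24q.extra edges extra iota gensL (by intro x; cases x <;> decide)
    (by decide +kernel) (by decide +kernel)

end Cfsg.Agent.Lib.Helper28.F24r
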