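import Cfsg.Prelude.Def_SporCoxeter

set_option autoImplicit false

namespace Cfsg.Agent.Lib.Helper28.M11p

open Cfsg.Spor

/-- the generators -/
inductive Gen
  | a
  | b
  deriving DecidableEq

abbrev a : FreeGroup Gen := FreeGroup.of Gen.a
abbrev b : FreeGroup Gen := FreeGroup.of Gen.b

/-- the diagram: the single node `a`, an involution -/
def edges : List (Gen × ℕ × Gen) :=
  [(.a, 1, .a)]

/-- the further relators -/
def extra : List (FreeGroup Gen) := [b ^ 4,
  (a * b) ^ 11,
  (a * b * b) ^ 6,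
  a * b * a * b * a * b⁻¹ * a * b * a * b * b * a * b⁻¹ * a * b * a * b⁻¹ * a * b⁻¹]

end Cfsg.Agent.Lib.Helper28.M11p
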