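import Cfsg.Agent.Lib.Helper28.DxMOD

/-!
The piece `KPowPiece` of `DxStmt`: the number of commuting partners of a member is a power of 3.
-/

set_option autoImplicit false

namespace Cfsg.Agent.Lib.Helper28.DxKPOW

open Cfsg Cfsg.Agent.Lib.Helper21.W3Class Cfsg.Agent.Lib.Helper28 Cfsg.Agent.Lib.Helper28.DxStmt

universe u
variable {G : Type u} [Group G]

theorem Pt_ncard_conj [Finite G] {D : Set G} (T : FR3.TT D) (g p0 : G) :
    (Pt D (g * p0 * g⁻¹)).ncard = (Pt D p0).ncard := by
  have h1 : Pt D (g * p0 * g⁻¹) = (fun d => g * d * g⁻¹) '' Pt D p0 := by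
    apply FR3.image_conj_eq
    intro d
    rw [Pt_eq_Da, Pt_eq_Da]
    constructor
    · intro hd
      have h2 := FR3b.Da_conj T g⁻¹ hd
      rw [inv_inv] at h2
      rw [show g⁻¹ * (g * p0 * g⁻¹) * g = p0 by group] at h2
      exact h2
    · intro hd
      have h2 := FR3b.Da_conj T g hd
      rw [show g * (g⁻¹ * d * g) * g⁻¹ = d by group] at h2
      exact h2
  rw [h1, FR3.ncard_conj]

theorem main : KPowPiece.{u} := by
  intro pPow3 G _ _ D K T kd hall
  obtain ⟨p0, hp0, -⟩ := T.w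
  obtain ⟨y, hy, y', hy', hyy', hyK⟩ := kd.ne p0 hp0
  have htri : ∀ u ∈ Pt D p0, ∀ v ∈ Pt D p0, u ≠ v → ¬ Commute u v := fun u hu v hv huv =>
    kd.tw p0 hp0 u hu v hv (hall p0 hp0 u hu v hv) huv
  have hycl : y ∈ Subgroup.closure (Pt D p0) := Subgroup.subset_closure hy
  obtain ⟨j, hj⟩ := pPow3 (K p0) y (Pt D p0) (kd.odd p0 hp0) (T.sq y hy.1)
    (fun l hl => kd.nrm p0 hp0 y hycl l hl)
    (by
      intro u hu
      refine ⟨y * u, hall p0 hp0 y hy u hu, ?_⟩
      rw [eq_mul_inv_iff_mul_eq]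
      by_cases huy : u = y
      · rw [huy, mul_assoc]
      · have hbr := T.br u hu.1 y hy.1 (fun h => htri u hu y hy huy h)
        rw [← mul_assoc]
        exact hbr)
    (fun l hl => DxMOD.conj_mem_Pt T (DxMOD.comm_of_mem_closure (kd.le p0 hp0 hl)) hy)
    (by
      intro u hu
      by_cases huy : u = y
      · rw [huy, T.sq y hy.1, one_pow]
      · have hbr := T.br u hu.1 y hy.1 (fun h => htri u hu y hy huy h)
        calc (u * y) ^ 3 = (u * y * u) * (y * u * y) := by
              rw [pow_succ, pow_succ, pow_one]; simp only [mul_assoc]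
          _ = (y * u * y) * (y * u * y) := by rw [hbr]
          _ = y * u * (y * y) * u * y := by group
          _ = y * (u * u) * y := by rw [T.sq y hy.1]; group
          _ = 1 := by rw [T.sq u hu.1, mul_one, T.sq y hy.1])
  have hj1 : 1 ≤ j := by
    by_contra hcon
    have hj0 : j = 0 := by omega
    rw [hj0, pow_zero, Set.ncard_eq_one] at hj
    obtain ⟨a, ha⟩ := hj
    rw [ha] at hy hy'
    exact hyy' ((Set.mem_singleton_iff.mp hy).trans (Set.mem_singleton_iff.mp hy').symm)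
  refine ⟨j, hj1, ?_⟩
  intro p hp
  obtain ⟨g, hg⟩ := T.trans p0 hp0 p hp
  rw [← hg, Pt_ncard_conj T g p0, hj]

end Cfsg.Agent.Lib.Helper28.DxKPOW
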