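import Cfsg.Agent.Lib.Helper28.DxStmt

/-!
The piece `ModPiece` of `DxStmt`: non-commuting commuting-partners of a member are twins (the
orbit of one of them under the group generated by the products in the other twin class would be a
module of the commuting graph).
-/

set_option autoImplicit false

namespace Cfsg.Agent.Lib.Helper28.DxMOD

open Cfsg Cfsg.Agent.Lib.Helper21.W3Class Cfsg.Agent.Lib.Helper28 Cfsg.Agent.Lib.Helper28.DxStmt

universe u
variable {G : Type u} [Group G]

theorem comm_of_mem_closure {D : Set G} {p n : G} (hn : n ∈ Subgroup.closure (Pt D p)) :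
    Commute p n := by
  have hle : Subgroup.closure (Pt D p) ≤ Subgroup.centralizer {p} := by
    rw [Subgroup.closure_le]
    intro y hy
    rw [SetLike.mem_coe, Subgroup.mem_centralizer_iff]
    intro h hh
    rw [Set.mem_singleton_iff] at hh
    rw [hh]
    exact hy.2.2.eq
  have h1 := hle hn
  rw [Subgroup.mem_centralizer_iff] at h1
  exact h1 p rfl

theorem conj_mem_Pt {D : Set G} (T : FR3.TT D) {p n u : G} (hn : Commute p n)
    (hu : u ∈ Pt D p) : n * u * n⁻¹ ∈ Pt D p := by
  refine ⟨T.conj n u hu.1, ?_, (hn.mul_right hu.2.2).mul_right hn.inv_right⟩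
  intro e
  apply hu.2.1
  calc u = n⁻¹ * (n * u * n⁻¹) * n := by group
    _ = n⁻¹ * p * n := by rw [e]
    _ = n⁻¹ * (p * n) := by rw [mul_assoc]
    _ = n⁻¹ * (n * p) := by rw [hn.eq]
    _ = p := by group

theorem main : ModPiece.{u} := by
  intro pTwinB pFullNC pCentT2 G _ _ D K T kd p hp u hu v hv huv
  by_contra hK
  have hfull := pFullNC T kd p hp u hu v hv huv hK
  have hsq : ∀ a ∈ D, a⁻¹ = a := fun a ha => inv_eq_of_mul_eq_one_right (T.sq a ha)
  -- a second member of the class of `v`
  obtain ⟨y, hy, y', hy', hyy', hyK⟩ := kd.ne p hp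
  obtain ⟨n, hn, hnv⟩ := FR3b.single_class T hp y (by rw [← Pt_eq_Da]; exact hy) v
    (by rw [← Pt_eq_Da]; exact hv)
  rw [← Pt_eq_Da] at hn
  have hnp := comm_of_mem_closure hn
  have hv'P : n * y' * n⁻¹ ∈ Pt D p := conj_mem_Pt T hnp hy'
  have hv'ne : n * y' * n⁻¹ ≠ v := by
    intro e
    apply hyy'
    rw [← hnv] at e
    exact (mul_left_cancel (mul_right_cancel e)).symm
  have hvv' : v * (n * y' * n⁻¹) ∈ K p := by
    have h1 : v * (n * y' * n⁻¹) = n * (y * y') * n⁻¹ := by rw [← hnv]; group
    rw [h1]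
    exact kd.nrm p hp n hn _ hyK
  obtain ⟨v', hv'def⟩ : ∃ v', v' = n * y' * n⁻¹ := ⟨_, rfl⟩
  rw [← hv'def] at hv'P hv'ne hvv'
  have hv'W : v' ∈ W D K p v := by
    refine ⟨hv'P, ?_⟩
    have h1 : v' * v = (v * v')⁻¹ := by rw [mul_inv_rev, hsq v hv.1, hsq v' hv'P.1]
    rw [h1]
    exact (K p).inv_mem hvv'
  have hvW : v ∈ W D K p v := ⟨hv, by rw [T.sq v hv.1]; exact (K p).one_mem⟩
  have huW : u ∈ W D K p u := ⟨hu, by rw [T.sq u hu.1]; exact (K p).one_mem⟩
  -- twins inside a class
  have htwin : ∀ q ∈ Pt D p, ∀ a ∈ W D K p q, ∀ a' ∈ W D K p q, a * a' ∈ K p := by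
    intro q hq a ha a' ha'
    have h1 : a * a' = (a * q) * (a' * q)⁻¹ := by
      calc a * a' = a * a'⁻¹ := by rw [hsq a' ha'.1.1]
        _ = (a * q) * (a' * q)⁻¹ := by group
    rw [h1]
    exact (K p).mul_mem ha.2 ((K p).inv_mem ha'.2)
  -- the group `T2` and the orbit `B`
  obtain ⟨T2, hT2def⟩ : ∃ T2 : Subgroup G,
      T2 = Subgroup.closure {g | ∃ a ∈ W D K p v, ∃ a' ∈ W D K p v, g = a * a'} := ⟨_, rfl⟩
  have hT2K : T2 ≤ K p := by
    rw [hT2def, Subgroup.closure_le]
    rintro g ⟨a, ha, a', ha', rfl⟩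
    exact htwin v hv a ha a' ha'
  have hBW : ∀ t ∈ T2, t * u * t⁻¹ ∈ W D K p u := by
    intro t ht
    have htK := hT2K ht
    have htc := kd.le p hp htK
    refine ⟨conj_mem_Pt T (comm_of_mem_closure htc) hu, ?_⟩
    have h1 : t * u * t⁻¹ * u = t * (u * t⁻¹ * u⁻¹) := by rw [hsq u hu.1]; group
    rw [h1]
    exact (K p).mul_mem htK (kd.nrm p hp u (Subgroup.subset_closure hu) _ ((K p).inv_mem htK))
  obtain ⟨B, hBdef⟩ : ∃ B : Set G, B = {e | ∃ t ∈ T2, e = t * u * t⁻¹} := ⟨_, rfl⟩
  have hBW' : ∀ e ∈ B, e ∈ W D K p u := by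
    intro e he
    rw [hBdef] at he
    obtain ⟨t, ht, rfl⟩ := he
    exact hBW t ht
  have hmodule : ∀ d ∈ D, d ∉ B →
      (∀ e ∈ B, d * e = e * d) ∨ (∀ e ∈ B, d * e ≠ e * d) := by
    intro d hd hdB
    by_cases hdp : d = p
    · left
      intro e he
      rw [hdp]
      exact (hBW' e he).1.2.2.eq
    by_cases hdc : Commute p d
    · have hdP : d ∈ Pt D p := ⟨hd, hdp, hdc⟩
      by_cases hdW : d ∈ W D K p u
      · right
        intro e he hcomm
        have heW := hBW' e he
        have hne : d ≠ e := fun h => hdB (h ▸ he)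
        exact kd.tw p hp d hdP e heW.1 (htwin u hu d hdW e heW) hne hcomm
      · by_cases hex : ∃ e ∈ B, Commute d e
        · obtain ⟨e0, he0, hc0⟩ := hex
          left
          intro e he
          exact (pTwinB T kd p hp u hu d hdP hdW e0 (hBW' e0 he0) e (hBW' e he) hc0).eq
        · right
          intro e he hc
          exact hex ⟨e, he, hc⟩
    · by_cases hex : ∃ e ∈ B, Commute d e
      · obtain ⟨b, hb, hcb⟩ := hex
        by_cases hallW : ∀ w' ∈ W D K p u, Commute d w'
        · left
          intro e he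
          exact (hallW e (hBW' e he)).eq
        · simp only [not_forall] at hallW
          obtain ⟨w', hw', hdw'⟩ := hallW
          have hcent := pCentT2 T kd p hp u hu v hv hK hfull b (hBW' b hb) d hd
            (fun h => hdc h.symm) hcb w' hw' hdw'
          have hdT : ∀ t ∈ T2, Commute d t := by
            intro t ht
            have hle : T2 ≤ Subgroup.centralizer {d} := by
              rw [hT2def, Subgroup.closure_le]
              rintro g ⟨a, ha, a', ha', rfl⟩
              rw [SetLike.mem_coe, Subgroup.mem_centralizer_iff]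
              intro h hh
              rw [Set.mem_singleton_iff] at hh
              rw [hh]
              exact ((hcent a ha).symm.mul_right (hcent a' ha').symm).eq
            have h1 := hle ht
            rw [Subgroup.mem_centralizer_iff] at h1
            exact h1 d rfl
          left
          rw [hBdef] at hb
          obtain ⟨t0, ht0, rfl⟩ := hb
          have hdt0 := hdT t0 ht0
          have hdu : Commute d u := by
            have h1 : Commute d (t0⁻¹ * (t0 * u * t0⁻¹) * t0) :=
              (hdt0.inv_right.mul_right hcb).mul_right hdt0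
            rw [show t0⁻¹ * (t0 * u * t0⁻¹) * t0 = u by group] at h1
            exact h1
          intro e he
          rw [hBdef] at he
          obtain ⟨t, ht, rfl⟩ := he
          have hdt := hdT t ht
          exact ((hdt.mul_right hdu).mul_right hdt.inv_right).eq
      · right
        intro e he hc
        exact hex ⟨e, he, hc⟩
  -- two members of `B`
  have huB : u ∈ B := by
    rw [hBdef]
    exact ⟨1, T2.one_mem, by group⟩
  have htT : v * v' ∈ T2 := by
    rw [hT2def]
    exact Subgroup.subset_closure ⟨v, hvW, v', hv'W, rfl⟩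
  have heB : (v * v') * u * (v * v')⁻¹ ∈ B := by
    rw [hBdef]
    exact ⟨_, htT, rfl⟩
  have hne : u ≠ (v * v') * u * (v * v')⁻¹ := by
    intro e
    have hcomm : (v * v') * u = u * (v * v') := by
      have h1 := mul_inv_eq_iff_eq_mul.mp e.symm
      exact h1
    have b1 : u * v * u = v * u * v := T.br u hu.1 v hv.1 (fun h => huv h)
    have b2 : u * v' * u = v' * u * v' :=
      T.br u hu.1 v' hv'P.1 (fun h => hfull u huW v' hv'W h)
    have s_u := T.sq u hu.1
    have s_v := T.sq v hv.1
    have s_v' := T.sq v' hv'P.1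
    have e1 : u * v * v' * u = v * v' := by
      calc u * v * v' * u = u * ((v * v') * u) := by group
        _ = u * (u * (v * v')) := by rw [hcomm]
        _ = (u * u) * (v * v') := by group
        _ = v * v' := by rw [s_u, one_mul]
    have e2 : (u * v * u) * (u * v' * u) = v * v' := by
      calc (u * v * u) * (u * v' * u) = u * v * (u * u) * v' * u := by group
        _ = u * v * v' * u := by rw [s_u, mul_one]
        _ = v * v' := e1
    have e3 : (v * u * v) * (v' * u * v') = 1 := by
      calc (v * u * v) * (v' * u * v') = v * (u * v * v' * u) * v' := by group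
        _ = v * (v * v') * v' := by rw [e1]
        _ = (v * v) * (v' * v') := by group
        _ = 1 := by rw [s_v, s_v', one_mul]
    have h1 : v * v' = 1 := by rw [← e2, b1, b2, e3]
    have h2 := eq_inv_of_mul_eq_one_right h1
    rw [hsq v hv.1] at h2
    exact hv'ne h2
  have hBD : B ⊆ D := fun e he => (hBW' e he).1.1
  have hfin := T.nomod B hBD hmodule ⟨u, huB, _, heB, hne⟩
  have hpB : p ∈ B := by rw [hfin]; exact hp
  exact (hBW' p hpB).1.2.1 rfl

end Cfsg.Agent.Lib.Helper28.DxMOD
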