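import Cfsg.Agent.Lib.Helper28.DxStmt

/-!
Assembly of the pieces of `DxStmt`: a class of 3-transpositions of a finite group without soluble
normal subgroups, with `G'' = G'`, in which the odd core of the subgroup generated by the commuting
partners of a member is not central, generates a symmetric group of degree 5.
-/

set_option autoImplicit false

namespace Cfsg.Agent.Lib.Helper28.DxMain

open Cfsg Cfsg.Agent.Lib.Helper21.W3Class Cfsg.Agent.Lib.Helper28 Cfsg.Agent.Lib.Helper28.DxStmt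

universe u

theorem main (pKBase : KBase.{u}) (pKConj : KConj.{u}) (pKNe : KNePiece.{u}) (pTwinB : TwinB.{u})
    (pF7 : F7.{u}) (pFullNC : FullNCPiece.{u}) (pCentT2 : CentT2Piece.{u}) (pMod : ModPiece.{u})
    (pSingle : SinglePiece.{u}) (pPow3 : Pow3.{u}) (pKPow : KPowPiece.{u})
    (pMuPow : MuPowPiece.{u}) (pCount : Count.{u}) (pSrg : SrgSq.{u}) (pDelta : DeltaSqPiece.{u})
    (pNum : NumTh) (pMuNeK : MuNeK.{u}) (pLoc : LocP.{u}) (pFin5 : Fin5.{u})
    {G : Type u} [Group G] [Finite G]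
    (hsol : ∀ N : Subgroup G, N.Normal → Group.IsSolvable ↥N → N = ⊥)
    (hperf : ⁅commutator G, commutator G⁆ = commutator G) {D : Set G}
    (hD : Cfsg.IsThreeTranspositionClass D) (x : G) (hx : x ∈ D)
    (h : ¬ Cfsg.oddCore ↥(Subgroup.closure {y : G | y ∈ D ∧ y ≠ x ∧ Commute x y}) ≤
      Subgroup.center ↥(Subgroup.closure {y : G | y ∈ D ∧ y ≠ x ∧ Commute x y})) :
    Nonempty (G ≃* Equiv.Perm (Fin 5)) := by
  have hw : ∃ a ∈ D, ∃ b ∈ D, a ≠ b ∧ Commute a b := by
    by_contra hcon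
    apply h
    have hempty : {y : G | y ∈ D ∧ y ≠ x ∧ Commute x y} = ∅ := by
      ext y
      simp only [Set.mem_ofPred_eq, Set.mem_empty_iff_false, iff_false]
      rintro ⟨h1, h2, h3⟩
      exact hcon ⟨x, hx, y, h1, fun e => h2 e.symm, h3⟩
    have h3 : ∀ g : G, g ∈ Subgroup.closure {y : G | y ∈ D ∧ y ≠ x ∧ Commute x y} → g = 1 := by
      intro g hg
      rw [hempty, Subgroup.closure_empty, Subgroup.mem_bot] at hg
      exact hg
    intro k _
    have hk : k = 1 := Subtype.ext (h3 k k.2)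
    rw [hk]
    exact Subgroup.one_mem _
  have hprim := FR3Glue2.prim_of_fischer hsol hperf hD hw
  have T : FR3.TT D := FR3Glue.tt_of_prim hD hprim hw
  obtain ⟨k1, k2, k3, k4⟩ := pKBase T
  have kd : KD D (Kx D) := ⟨k1, k2, k3, k4, pKConj T, pKNe pKConj T x hx h⟩
  have hfull : FullNC.{u} := pFullNC pTwinB
  have hcent : CentT2.{u} := pCentT2 pF7
  have hmod : ModC.{u} := pMod pTwinB hfull hcent
  have hall : AllTwin D (Kx D) := pSingle hmod T kd
  have htri : TriFree D := fun p hp u hu v hv huv =>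
    kd.tw p hp u hu v hv (hall p hp u hu v hv) huv
  obtain ⟨j, hj1, hk⟩ := pKPow pPow3 T kd hall
  obtain ⟨i, hmu⟩ := pMuPow pPow3 T kd hall
  obtain ⟨c, hc, hxc⟩ := FR3.exists_nc T hx
  have hxc' : ¬ Commute x c := fun e => hxc e.eq
  have hsub : Mu D x c ⊆ Pt D x := by
    intro u hu
    refine ⟨hu.1, ?_, hu.2.1⟩
    intro e
    rw [e] at hu
    exact hxc' hu.2.2.symm
  have hij : i ≤ j := by
    have h1 : (Mu D x c).ncard ≤ (Pt D x).ncard := Set.ncard_le_ncard hsub (Set.toFinite _)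
    rw [hmu x hx c hc hxc', hk x hx] at h1
    exact (Nat.pow_le_pow_iff_right (by norm_num)).mp h1
  have hcount := pCount T htri (3 ^ j) (3 ^ i) hk hmu
  have hA : Odd (3 ^ i) := Odd.pow (by decide)
  have hB : Odd (3 ^ j) := Odd.pow (by decide)
  have heven : Even D.ncard := by
    have h1 : Even (3 ^ i * D.ncard) := by
      have hR : Odd (3 ^ i + 3 ^ i * 3 ^ j + 3 ^ j * 3 ^ j) :=
        (hA.add_odd (hA.mul hB)).add_odd (hB.mul hB)
      rw [← hcount] at hR
      by_contra hne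
      rw [Nat.not_even_iff_odd] at hne
      exact (Nat.not_odd_iff_even.mpr (hne.add_odd hB)) hR
    rcases Nat.even_mul.mp h1 with h2 | h2
    · exact absurd h2 (Nat.not_even_iff_odd.mpr hA)
    · exact h2
  have hpos : 0 < 3 ^ j := by positivity
  have hle : 3 ^ i ≤ 3 ^ j := Nat.pow_le_pow_right (by norm_num) hij
  obtain ⟨s, hs⟩ := pDelta pSrg T htri (3 ^ j) (3 ^ i) hk hmu heven hcount hle hpos
  rcases pNum i j s hij hj1 hs with ⟨hi0, hj1'⟩ | hij'
  · have hk3 : ∀ p ∈ D, (Pt D p).ncard = 3 := by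
      intro p hp
      rw [hk p hp, hj1']
      norm_num
    have hmu1 : ∀ a ∈ D, ∀ b ∈ D, ¬ Commute a b → (Mu D a b).ncard = 1 := by
      intro a ha b hb hab
      rw [hmu a ha b hb hab, hi0]
      norm_num
    have hloc := pLoc hD.1 T htri hk3
    obtain ⟨e⟩ := pFin5 hD.1 T hloc hmu1
    have htop : Subgroup.closure D = ⊤ := hD.2.2
    exact ⟨(Subgroup.topEquiv.symm.trans (MulEquiv.subgroupCongr htop.symm)).trans e⟩
  · exfalso
    refine pMuNeK T x hx c hc hxc' ((hmu x hx c hc hxc').trans ?_) ((hmu x hx c hc hxc').trans ?_)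
    · rw [hk x hx, hij']
    · rw [hk c hc, hij']

end Cfsg.Agent.Lib.Helper28.DxMain
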