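import Cfsg.Agent.Lib.Helper28.FR3c
import Cfsg.Agent.Lib.Helper52.TT3Basic

/-!
Statement pieces for `S1615` (`fischer_dx_core_not_central`): a class `D` of 3-transpositions of a
finite group `G` without soluble normal subgroups, `G'' = G'`, such that for some `x` in `D` the
odd core of the subgroup generated by the commuting partners of `x` is not central in it; then `G`
is the symmetric group of degree 5.

Every piece is a `def X : Prop`; the assembly is in `DxMain`.  Notation: `Pt D p` are the commuting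
partners of `p` (members of `D` other than `p` commuting with `p`), `K p` is (abstractly) the
image in `G` of the odd core of the subgroup generated by `Pt D p`, and `W D K p q` is the twin
class of `q` among the partners of `p`.
-/

set_option autoImplicit false

namespace Cfsg.Agent.Lib.Helper28.DxStmt

open Cfsg Cfsg.Agent.Lib.Helper21.W3Class Cfsg.Agent.Lib.Helper28

universe u

/-- the image in `G` of the odd core of the subgroup generated by the commuting partners of `p`. -/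
def Kx {G : Type u} [Group G] (D : Set G) (p : G) : Subgroup G :=
  (Cfsg.oddCore ↥(Subgroup.closure (Pt D p))).map (Subgroup.closure (Pt D p)).subtype

/-- the properties of the family `p ↦ Kx D p` used by the argument. -/
structure KD {G : Type u} [Group G] (D : Set G) (K : G → Subgroup G) : Prop where
  le : ∀ p ∈ D, K p ≤ Subgroup.closure (Pt D p)
  nrm : ∀ p ∈ D, ∀ n ∈ Subgroup.closure (Pt D p), ∀ l ∈ K p, n * l * n⁻¹ ∈ K p
  odd : ∀ p ∈ D, Odd (Nat.card (K p))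
  tw : ∀ p ∈ D, ∀ u ∈ Pt D p, ∀ v ∈ Pt D p, u * v ∈ K p → u ≠ v → ¬ Commute u v
  conj : ∀ g : G, ∀ p ∈ D, ∀ l ∈ K p, g * l * g⁻¹ ∈ K (g * p * g⁻¹)
  ne : ∀ p ∈ D, ∃ y ∈ Pt D p, ∃ y' ∈ Pt D p, y ≠ y' ∧ y * y' ∈ K p

/-- the twin class of `q` among the commuting partners of `p`. -/
def W {G : Type u} [Group G] (D : Set G) (K : G → Subgroup G) (p q : G) : Set G :=
  {u | u ∈ Pt D p ∧ u * q ∈ K p}

/-- all commuting partners of a member are twins. -/
def AllTwin {G : Type u} [Group G] (D : Set G) (K : G → Subgroup G) : Prop :=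
  ∀ p ∈ D, ∀ u ∈ Pt D p, ∀ v ∈ Pt D p, u * v ∈ K p

/-- the commuting graph has no triangles. -/
def TriFree {G : Type u} [Group G] (D : Set G) : Prop :=
  ∀ p ∈ D, ∀ u ∈ Pt D p, ∀ v ∈ Pt D p, u ≠ v → ¬ Commute u v

/-- the common commuting partners of `a` and `b`. -/
def Mu {G : Type u} [Group G] (D : Set G) (a b : G) : Set G :=
  {u | u ∈ D ∧ Commute a u ∧ Commute b u}

theorem Pt_eq_Da {G : Type u} [Group G] (D : Set G) (a : G) : Pt D a = FR3b.Da D a :=
  Set.ext fun _ => ⟨fun h => ⟨h.1, h.2.1, h.2.2.eq.symm⟩, fun h => ⟨h.1, h.2.1, h.2.2.symm⟩⟩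

/-! ### the family `Kx` -/

/-- KBASE: elementary properties of `Kx`. -/
def KBase : Prop := ∀ {G : Type u} [Group G] [Finite G] {D : Set G}, FR3.TT D →
  (∀ p ∈ D, Kx D p ≤ Subgroup.closure (Pt D p)) ∧
  (∀ p ∈ D, ∀ n ∈ Subgroup.closure (Pt D p), ∀ l ∈ Kx D p, n * l * n⁻¹ ∈ Kx D p) ∧
  (∀ p ∈ D, Odd (Nat.card (Kx D p))) ∧
  (∀ p ∈ D, ∀ u ∈ Pt D p, ∀ v ∈ Pt D p, u * v ∈ Kx D p → u ≠ v → ¬ Commute u v)

/-- KCONJ: conjugation carries `Kx D p` into `Kx D (g p g⁻¹)`. -/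
def KConj : Prop := ∀ {G : Type u} [Group G] [Finite G] {D : Set G}, FR3.TT D →
  ∀ g : G, ∀ p ∈ D, ∀ l ∈ Kx D p, g * l * g⁻¹ ∈ Kx D (g * p * g⁻¹)

/-- KNE: a non-central odd core gives two distinct twins (at every member, by transitivity). -/
def KNe : Prop := ∀ {G : Type u} [Group G] [Finite G] {D : Set G}, FR3.TT D → ∀ x ∈ D,
  ¬ Cfsg.oddCore ↥(Subgroup.closure {y : G | y ∈ D ∧ y ≠ x ∧ Commute x y}) ≤
      Subgroup.center ↥(Subgroup.closure {y : G | y ∈ D ∧ y ≠ x ∧ Commute x y}) →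
  ∀ p ∈ D, ∃ y ∈ Pt D p, ∃ y' ∈ Pt D p, y ≠ y' ∧ y * y' ∈ Kx D p

def KNePiece : Prop := KConj.{u} → KNe.{u}

/-! ### twin classes -/

/-- TWINB: a partner of `p` outside a twin class commutes with all or none of its members. -/
def TwinB : Prop := ∀ {G : Type u} [Group G] [Finite G] {D : Set G} {K : G → Subgroup G},
  FR3.TT D → KD D K →
  ∀ p ∈ D, ∀ q ∈ Pt D p, ∀ v ∈ Pt D p, v ∉ W D K p q →
    ∀ w ∈ W D K p q, ∀ w' ∈ W D K p q, Commute v w → Commute v w'

/-- F7: the swapping lemma. -/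
def F7 : Prop := ∀ {G : Type u} [Group G] [Finite G] {D : Set G} {K : G → Subgroup G},
  FR3.TT D → KD D K →
  ∀ p ∈ D, ∀ q ∈ Pt D p, ∀ d ∈ Pt D p, ¬ Commute d q →
    ∀ w' ∈ W D K q p, ¬ Commute d w' → d ∈ W D K p q

/-- FULLNC: two twin classes joined by a non-commuting pair are joined completely. -/
def FullNC : Prop := ∀ {G : Type u} [Group G] [Finite G] {D : Set G} {K : G → Subgroup G},
  FR3.TT D → KD D K →
  ∀ p ∈ D, ∀ u ∈ Pt D p, ∀ v ∈ Pt D p, ¬ Commute u v → u * v ∉ K p →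
    ∀ u' ∈ W D K p u, ∀ v' ∈ W D K p v, ¬ Commute u' v'

def FullNCPiece : Prop := TwinB.{u} → FullNC.{u}

/-- CENTT2: the member `d` commutes with the whole second class. -/
def CentT2 : Prop := ∀ {G : Type u} [Group G] [Finite G] {D : Set G} {K : G → Subgroup G},
  FR3.TT D → KD D K →
  ∀ p ∈ D, ∀ u ∈ Pt D p, ∀ v ∈ Pt D p, u * v ∉ K p →
    (∀ u' ∈ W D K p u, ∀ v' ∈ W D K p v, ¬ Commute u' v') →
    ∀ b ∈ W D K p u, ∀ d ∈ D, ¬ Commute d p → Commute d b →
      ∀ w' ∈ W D K p u, ¬ Commute d w' → ∀ a ∈ W D K p v, Commute a d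

def CentT2Piece : Prop := F7.{u} → CentT2.{u}

/-- MOD: non-commuting partners of `p` are twins. -/
def ModC : Prop := ∀ {G : Type u} [Group G] [Finite G] {D : Set G} {K : G → Subgroup G},
  FR3.TT D → KD D K →
  ∀ p ∈ D, ∀ u ∈ Pt D p, ∀ v ∈ Pt D p, ¬ Commute u v → u * v ∈ K p

def ModPiece : Prop := TwinB.{u} → FullNC.{u} → CentT2.{u} → ModC.{u}

/-- SINGLE: all partners of `p` are twins. -/
def Single : Prop := ∀ {G : Type u} [Group G] [Finite G] {D : Set G} {K : G → Subgroup G},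
  FR3.TT D → KD D K → AllTwin D K

def SinglePiece : Prop := ModC.{u} → Single.{u}

/-! ### the parameters -/

/-- POW3: an orbit of an odd-order group normalised by the involution `y`, all of whose members
`u` satisfy `(u y)³ = 1`, has 3-power size. -/
def Pow3 : Prop := ∀ {G : Type u} [Group G] [Finite G] (K : Subgroup G) (y : G) (E : Set G),
  Odd (Nat.card K) → y * y = 1 → (∀ l ∈ K, y * l * y⁻¹ ∈ K) →
  (∀ u ∈ E, ∃ l ∈ K, u = l * y * l⁻¹) → (∀ l ∈ K, l * y * l⁻¹ ∈ E) →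
  (∀ u ∈ E, (u * y) ^ 3 = 1) → ∃ j : ℕ, E.ncard = 3 ^ j

/-- KPOW: the valency is a power of 3 (and not 1). -/
def KPow : Prop := ∀ {G : Type u} [Group G] [Finite G] {D : Set G} {K : G → Subgroup G},
  FR3.TT D → KD D K → AllTwin D K →
  ∃ j : ℕ, 1 ≤ j ∧ ∀ p ∈ D, (Pt D p).ncard = 3 ^ j

def KPowPiece : Prop := Pow3.{u} → KPow.{u}

/-- MUPOW: the number of common partners of two non-commuting members is a fixed power of 3. -/
def MuPow : Prop := ∀ {G : Type u} [Group G] [Finite G] {D : Set G} {K : G → Subgroup G},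
  FR3.TT D → KD D K → AllTwin D K →
  ∃ i : ℕ, ∀ a ∈ D, ∀ b ∈ D, ¬ Commute a b → (Mu D a b).ncard = 3 ^ i

def MuPowPiece : Prop := Pow3.{u} → MuPow.{u}

/-- COUNT: the counting identity `μ (v - 1 - k) = k (k - 1)`. -/
def Count : Prop := ∀ {G : Type u} [Group G] [Finite G] {D : Set G}, FR3.TT D → TriFree D →
  ∀ k μ : ℕ, (∀ p ∈ D, (Pt D p).ncard = k) →
    (∀ a ∈ D, ∀ b ∈ D, ¬ Commute a b → (Mu D a b).ncard = μ) →
    μ * D.ncard + k = μ + μ * k + k * k

/-- SRGSQ: for a triangle-free strongly regular graph on an even number of vertices,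
`μ² + 4 (k - μ)` is a square. -/
def SrgSq : Prop := ∀ {V : Type u} [Fintype V] [DecidableEq V] (R : V → V → Prop)
  [DecidableRel R] (k μ : ℕ),
  (∀ a b, R a b → R b a) → (∀ a, ¬ R a a) →
  (∀ a, (Finset.univ.filter (fun u => R a u)).card = k) →
  (∀ a b, a ≠ b → R a b → ∀ u, ¬ (R a u ∧ R b u)) →
  (∀ a b, a ≠ b → ¬ R a b → (Finset.univ.filter (fun u => R a u ∧ R b u)).card = μ) →
  Even (Fintype.card V) → μ * Fintype.card V + k = μ + μ * k + k * k → μ ≤ k → 0 < k →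
  ∃ s : ℕ, s * s + 4 * μ = μ * μ + 4 * k

/-- DELTASQ: `SrgSq` for the commuting graph of `D`. -/
def DeltaSq : Prop := ∀ {G : Type u} [Group G] [Finite G] {D : Set G}, FR3.TT D → TriFree D →
  ∀ k μ : ℕ, (∀ p ∈ D, (Pt D p).ncard = k) →
    (∀ a ∈ D, ∀ b ∈ D, ¬ Commute a b → (Mu D a b).ncard = μ) →
    Even D.ncard → μ * D.ncard + k = μ + μ * k + k * k → μ ≤ k → 0 < k →
    ∃ s : ℕ, s * s + 4 * μ = μ * μ + 4 * k

def DeltaSqPiece : Prop := SrgSq.{u} → DeltaSq.{u}

/-- NUMTH: the arithmetic. -/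
def NumTh : Prop := ∀ i j s : ℕ, i ≤ j → 1 ≤ j →
  s * s + 4 * 3 ^ i = 3 ^ i * 3 ^ i + 4 * 3 ^ j → (i = 0 ∧ j = 1) ∨ i = j

/-- MUNEK: two non-commuting members do not have the same partners. -/
def MuNeK : Prop := ∀ {G : Type u} [Group G] [Finite G] {D : Set G}, FR3.TT D →
  ∀ a ∈ D, ∀ b ∈ D, ¬ Commute a b →
    (Mu D a b).ncard = (Pt D a).ncard → (Mu D a b).ncard = (Pt D b).ncard → False

/-! ### the end game -/

/-- LOC: three mutually non-commuting partners generate a symmetric group of degree 3. -/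
def LocP : Prop := ∀ {G : Type u} [Group G] [Finite G] {D : Set G},
  Cfsg.IsThreeTranspositionSet D → FR3.TT D → TriFree D →
  (∀ p ∈ D, (Pt D p).ncard = 3) → Cfsg.Agent.Lib.Helper52.TT3Basic.Loc D

/-- FIN5: the identification with the symmetric group of degree 5. -/
def Fin5 : Prop := ∀ {G : Type u} [Group G] [Finite G] {D : Set G},
  Cfsg.IsThreeTranspositionSet D → FR3.TT D → Cfsg.Agent.Lib.Helper52.TT3Basic.Loc D →
  (∀ a ∈ D, ∀ b ∈ D, ¬ Commute a b → (Mu D a b).ncard = 1) →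
  Nonempty (↥(Subgroup.closure D) ≃* Equiv.Perm (Fin 5))

end Cfsg.Agent.Lib.Helper28.DxStmt
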