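import Mathlib
import Cfsg.Agent.Lib.Helper45.EPStmt
import Cfsg.Agent.Lib.Helper44.TPStmt

/-!
# S5988 piece DIMOBSA (helper45's call)

`c ∣ dim W - dim (W ⊓ Fix x)` for all `q`: from `SplitE` (EPStmt), `TPStmt.InvDim` and
`TPStmt.HalfOdd` (`P d = J d`, `FxP = Fx`, `NDegP = NDeg`, `StabP = Stab` definitionally).
-/

set_option autoImplicit false

namespace Cfsg.Agent.Lib.Helper28.EPDIMOBSA

universe u

open Cfsg.Agent.Lib.Helper45.EPStmt
open Cfsg.Agent.Lib.Helper37.HypStmt (cc)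
open Cfsg.Agent.Lib.Helper94.OPStmt (P NP FxP NDegP StabP)

theorem main (hSplit : SplitE.{u}) (hInvDim : Cfsg.Agent.Lib.Helper44.TPStmt.InvDim.{u})
    (hHalfOdd : Cfsg.Agent.Lib.Helper44.TPStmt.HalfOdd.{u}) : DimObsA.{u} := by
  intro F _ _ p _ _ d r _ hr2 hrp x hx hxr W hW hND
  obtain ⟨_, R, hRW, hRst, hRnd, hRfx, _, hsum, _⟩ := hSplit F p d r hrp x hx hxr W hW hND
  have hdim : Module.finrank F ↥W - Module.finrank F ↥(W ⊓ FxP (x : Matrix (P d) (P d) F)) =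
      Module.finrank F ↥R := by omega
  rw [hdim]
  have hi : orderOf ((Fintype.card F : ℕ) : ZMod r) ∣ Module.finrank F ↥R :=
    hInvDim F p d r hrp x hxr R hRst hRfx
  unfold cc
  split_ifs with hev
  · exact hi
  · have hodd : Odd (orderOf ((Fintype.card F : ℕ) : ZMod r)) := Nat.not_even_iff_odd.mp hev
    obtain ⟨U, hUE, hUst, hUts, hU2⟩ :=
      hHalfOdd F p d r hr2 hrp hodd x hx hxr R hRst hRnd hRfx
    have hUfx : U ⊓ FxP (x : Matrix (P d) (P d) F) = ⊥ := by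
      rw [eq_bot_iff]
      exact (inf_le_inf_right _ hUE).trans hRfx.le
    obtain ⟨k, hk⟩ := hInvDim F p d r hrp x hxr U hUst hUfx
    rw [← hU2, hk]
    exact ⟨k, by ring⟩

end Cfsg.Agent.Lib.Helper28.EPDIMOBSA
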