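import Cfsg.Agent.Lib.Helper28.F24ET
import Cfsg.Agent.Lib.Helper28.TCJoin

set_option autoImplicit false
set_option Elab.async false

namespace Cfsg.Agent.Lib.Helper28.F24EC0

open Cfsg.Agent.Lib.Helper28.TCKernel Cfsg.Agent.Lib.Helper28.TCJoin Cfsg.Agent.Lib.Helper28.F24ET

theorem chk0 : allTree chkE 11 0 = true := by decide +kernel
theorem chk1 : allTree chkE 11 2048 = true := by decide +kernel
theorem chk2 : allTree chkE 11 4096 = true := by decide +kernel
theorem chk3 : allTree chkE 11 6144 = true := by decide +kernel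
theorem chk : allTree chkE 13 0 = true :=
  (join chkE 12 0 (join chkE 11 0 chk0 chk1) (join chkE 11 4096 chk2 chk3))

end Cfsg.Agent.Lib.Helper28.F24EC0
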