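import Cfsg.Agent.Lib.Helper28.TCKernel
import Cfsg.Agent.Lib.Helper28.T1690LT
import Cfsg.Agent.Lib.Helper28.T1689LT
import Cfsg.Agent.Lib.Helper28.F24ED0

/-!
The points of the coset table of Fi24 on <a..j,l> that are fixed by l, labelled by the
cosets of <a..i> in Fi23, equivariantly for the generators a..j.
-/

set_option autoImplicit false

namespace Cfsg.Agent.Lib.Helper28.F24ET

open Cfsg.Agent.Lib.Helper28.TCKernel

def emb : Nat → Nat := fld1 F24ED0.etop 9 5 31 511 19 0 524287
def dinv : Nat → Nat := fld1 F24ED0.dtop 10 5 31 1023 15 0 32767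

/-- all checks at the point `i` (vacuous for `i ≥ 31671`). -/
def chkE (i : Nat) : Bool :=
  Bool.rec (motive := fun _ => Bool) true
    (strictNat (fun v =>
      andK (Nat.ble 275265 v) (andK (Nat.ble (Nat.succ v) 306936)
        (andK (Nat.beq (dinv (Nat.sub v 275265)) i)
          (andK (Nat.beq (T1690LT.tp 0 v) v)
            (allLt (fun y => Nat.beq (T1690LT.tp (Nat.add y 2) v) (emb (T1689LT.tp y i))) 10)))))
      (emb i))
    (Nat.ble (Nat.succ i) 31671)

theorem chkE_spec (i : Nat) (h : chkE i = true) (hi : i < 31671) :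
    275265 ≤ emb i ∧ emb i < 306936 ∧ dinv (emb i - 275265) = i ∧ T1690LT.tp 0 (emb i) = emb i ∧
      ∀ y, y < 10 → T1690LT.tp (y + 2) (emb i) = emb (T1689LT.tp y i) := by
  unfold chkE at h
  rw [Nat.ble_eq_true_of_le hi] at h
  have h' : andK (Nat.ble 275265 (emb i)) (andK (Nat.ble (Nat.succ (emb i)) 306936)
        (andK (Nat.beq (dinv (Nat.sub (emb i) 275265)) i)
          (andK (Nat.beq (T1690LT.tp 0 (emb i)) (emb i))
            (allLt (fun y => Nat.beq (T1690LT.tp (Nat.add y 2) (emb i))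
              (emb (T1689LT.tp y i))) 10)))) = true := h
  rw [andK_true, andK_true, andK_true, andK_true, allLt_spec] at h'
  obtain ⟨h1, h2, h3, h4, h5⟩ := h'
  refine ⟨Nat.le_of_ble_eq_true h1, Nat.le_of_ble_eq_true h2, Nat.eq_of_beq_eq_true h3,
    Nat.eq_of_beq_eq_true h4, fun y hy => Nat.eq_of_beq_eq_true (h5 y hy)⟩

end Cfsg.Agent.Lib.Helper28.F24ET
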