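import Cfsg.Agent.Lib.Helper28.F24EC0
import Cfsg.Agent.Lib.Helper28.F24EC1
import Cfsg.Agent.Lib.Helper28.F24EC2
import Cfsg.Agent.Lib.Helper28.F24EC3

set_option autoImplicit false

namespace Cfsg.Agent.Lib.Helper28.F24EX

open Cfsg.Agent.Lib.Helper28.TCKernel

theorem chunk : ∀ k, k < 4 → allTree F24ET.chkE 13 (k * 2 ^ 13) = true
  | 0, _ => F24EC0.chk
  | 1, _ => F24EC1.chk
  | 2, _ => F24EC2.chk
  | 3, _ => F24EC3.chk
  | (k + 4), h => absurd h (by omega)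

theorem emb_ok (i : Nat) (hi : i < 31671) :
    275265 ≤ F24ET.emb i ∧ F24ET.emb i < 306936 ∧ F24ET.dinv (F24ET.emb i - 275265) = i ∧
      T1690LT.tp 0 (F24ET.emb i) = F24ET.emb i ∧
      ∀ y, y < 10 → T1690LT.tp (y + 2) (F24ET.emb i) = F24ET.emb (T1689LT.tp y i) :=
  F24ET.chkE_spec i (allTree_chunks F24ET.chkE 13 4 chunk i (lt_of_lt_of_le hi (by decide))) hi

end Cfsg.Agent.Lib.Helper28.F24EX
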