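import Cfsg.Agent.Lib.Helper28.Iwa

/-!
Iwasawa's lemma without perfectness (a nontrivial normal subgroup contains the commutator
subgroup), and the simplicity of a commutator subgroup of index 2 whose order is not a square.
-/

set_option autoImplicit false

namespace Cfsg.Agent.Lib.Helper28.F24Gen2

open Cfsg.Agent.Lib.Helper28.Iwa

variable {G : Type*} [Group G] {n : Nat}

theorem iwasawa_comm_le (hn : 0 < n) (φ : G →* Equiv.Perm (Fin n))
    (hinj : Function.Injective φ)
    (htr : ∀ b : Fin n, ∃ g : G, φ g ⟨0, hn⟩ = b)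
    (hprim : ∀ B : Set (Fin n), (⟨0, hn⟩ : Fin n) ∈ B →
      (∀ g : G, φ g '' B = B ∨ Disjoint (φ g '' B) B) → B = {⟨0, hn⟩} ∨ B = Set.univ)
    (a : G) (ha : ∀ h : G, φ h ⟨0, hn⟩ = ⟨0, hn⟩ → h * a = a * h)
    (S : Set G) (hS : Subgroup.closure S = ⊤) (hconj : ∀ x ∈ S, ∃ g : G, x = g * a * g⁻¹)
    (N : Subgroup G) (hN : N.Normal) (hbot : N ≠ ⊥) : commutator G ≤ N := by
  let B : Set (Fin n) := {b | ∃ m ∈ N, φ m ⟨0, hn⟩ = b}
  have h0 : (⟨0, hn⟩ : Fin n) ∈ B := ⟨1, N.one_mem, by rw [map_one]; rfl⟩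
  have hB : ∀ g : G, φ g '' B = B ∨ Disjoint (φ g '' B) B := by
    intro g
    by_cases hd : Disjoint (φ g '' B) B
    · exact Or.inr hd
    · left
      rw [Set.not_disjoint_iff] at hd
      obtain ⟨x, ⟨b, ⟨m, hm, rfl⟩, rfl⟩, ⟨m', hm', e⟩⟩ := hd
      have hg0 : ∃ m0 ∈ N, φ m0 ⟨0, hn⟩ = φ g ⟨0, hn⟩ := by
        refine ⟨g * m⁻¹ * g⁻¹ * m', N.mul_mem (hN.conj_mem _ (N.inv_mem hm) g) hm', ?_⟩
        rw [pmul, e, pmul, pmul, pinv1, pinv1]
      obtain ⟨m0, hm0, e0⟩ := hg0
      ext y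
      constructor
      · rintro ⟨b, ⟨m1, hm1, rfl⟩, rfl⟩
        refine ⟨g * m1 * g⁻¹ * m0, N.mul_mem (hN.conj_mem _ hm1 g) hm0, ?_⟩
        rw [pmul, e0, pmul, pmul, pinv1]
      · rintro ⟨m1, hm1, rfl⟩
        refine ⟨φ (g⁻¹ * m1 * m0⁻¹ * g) ⟨0, hn⟩, ⟨g⁻¹ * (m1 * m0⁻¹) * g⁻¹⁻¹, ?_, ?_⟩, ?_⟩
        · exact hN.conj_mem _ (N.mul_mem hm1 (N.inv_mem hm0)) g⁻¹
        · rw [inv_inv, mul_assoc g⁻¹ m1 m0⁻¹]
        · rw [pmul, pmul, pmul, ← e0, pinv1, pinv2]
  rcases hprim B h0 hB with hB1 | hB2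
  · exfalso
    apply hbot
    rw [Subgroup.eq_bot_iff_forall]
    intro m hm
    apply hinj
    rw [map_one]
    ext b
    obtain ⟨g, rfl⟩ := htr b
    have h1 : φ (g⁻¹ * m * g⁻¹⁻¹) ⟨0, hn⟩ ∈ B := ⟨_, hN.conj_mem _ hm g⁻¹, rfl⟩
    rw [hB1, Set.mem_singleton_iff, inv_inv, pmul, pmul] at h1
    have h2 := congrArg (φ g) h1
    rw [pinv2] at h2
    rw [h2]; rfl
  · have hQ : N ⊔ Subgroup.zpowers a = ⊤ := by
      rw [eq_top_iff, ← hS, Subgroup.closure_le]
      intro x hx
      obtain ⟨g, rfl⟩ := hconj x hx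
      have hgB : φ g ⟨0, hn⟩ ∈ B := by rw [hB2]; trivial
      obtain ⟨m, hm, e⟩ := hgB
      have hfix : φ (m⁻¹ * g) ⟨0, hn⟩ = ⟨0, hn⟩ := by
        rw [pmul, ← e, pinv1]
      have hc := ha _ hfix
      have h3 : (m⁻¹ * g) * a * (m⁻¹ * g)⁻¹ = a := by rw [hc]; group
      have e2 : g * a * g⁻¹ = m * (a * m⁻¹ * a⁻¹) * a := by
        calc g * a * g⁻¹ = m * ((m⁻¹ * g) * a * (m⁻¹ * g)⁻¹) * m⁻¹ := by group
          _ = m * a * m⁻¹ := by rw [h3]
          _ = m * (a * m⁻¹ * a⁻¹) * a := by group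
      rw [SetLike.mem_coe, e2]
      exact Subgroup.mul_mem _
        (Subgroup.mem_sup_left (N.mul_mem hm (hN.conj_mem _ (N.inv_mem hm) a)))
        (Subgroup.mem_sup_right (Subgroup.mem_zpowers a))
    have hcomm : commutator G ≤ N :=
      hN.commutator_le_of_self_sup_commutative_eq_top hQ (Subgroup.zpowers_isMulCommutative a)
    exact hcomm

theorem card_commutator [Finite G] {A : Type*} [CommGroup A] (s : G →* A) (t : G)
    (ht2 : t * t = 1) (hs : s t ≠ 1)
    (S : Set G) (hS : Subgroup.closure S = ⊤) (hconj : ∀ x ∈ S, ∃ g : G, x = g * t * g⁻¹) :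
    commutator G ⊔ Subgroup.zpowers t = ⊤ ∧ Nat.card (commutator G) * 2 = Nat.card G := by
  have hgen : commutator G ⊔ Subgroup.zpowers t = ⊤ := by
    rw [eq_top_iff, ← hS, Subgroup.closure_le]
    intro x hx
    obtain ⟨g, rfl⟩ := hconj x hx
    have e : g * t * g⁻¹ = (g * t * g⁻¹ * t⁻¹) * t := by group
    rw [SetLike.mem_coe, e]
    refine Subgroup.mul_mem _ (Subgroup.mem_sup_left ?_)
      (Subgroup.mem_sup_right (Subgroup.mem_zpowers t))
    have hgt := Subgroup.commutator_mem_commutator (Subgroup.mem_top g) (Subgroup.mem_top t)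
    rw [commutatorElement_def] at hgt
    exact hgt
  refine ⟨hgen, ?_⟩
  have htn : t ∉ commutator G := fun h =>
    hs (MonoidHom.mem_ker.mp (Abelianization.commutator_subset_ker s h))
  let π : G →* G ⧸ commutator G := QuotientGroup.mk' _
  have h1 : (commutator G ⊔ Subgroup.zpowers t).map π = ⊤ := by
    rw [hgen]
    exact Subgroup.map_top_of_surjective π (QuotientGroup.mk'_surjective _)
  rw [Subgroup.map_sup, MonoidHom.map_zpowers, QuotientGroup.map_mk'_self, bot_sup_eq] at h1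
  have h2 : Nat.card (G ⧸ commutator G) = orderOf (π t) := by
    rw [← Nat.card_zpowers, h1, Subgroup.card_top]
  have h3 : orderOf (π t) ∣ 2 := by
    apply orderOf_dvd_of_pow_eq_one
    rw [pow_two, ← map_mul, ht2, map_one]
  have h4 : (commutator G).index = orderOf (π t) := by
    rw [Subgroup.index_eq_card, h2]
  have h5 : (commutator G).index ≠ 1 := by
    intro h
    rw [Subgroup.index_eq_one] at h
    exact htn (by rw [h]; trivial)
  have h6 : (commutator G).index = 2 := by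
    have h7 : (commutator G).index ≤ 2 := by
      rw [h4]
      exact Nat.le_of_dvd (by norm_num) h3
    have h8 : (commutator G).index ≠ 0 := Subgroup.index_ne_zero_of_finite
    omega
  have := Subgroup.card_mul_index (commutator G)
  rw [h6] at this
  exact this

theorem simple_commutator [Finite G]
    (hI : ∀ N : Subgroup G, N.Normal → N ≠ ⊥ → commutator G ≤ N)
    (t : G) (ht2 : t * t = 1) (hgen : commutator G ⊔ Subgroup.zpowers t = ⊤)
    (hsq : ∀ m : ℕ, m * m ≠ Nat.card (commutator G)) (hnt : commutator G ≠ ⊥) :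
    IsSimpleGroup (commutator G) := by
  have hnt' : Nontrivial (commutator G) := (Subgroup.nontrivial_iff_ne_bot _).mpr hnt
  refine ⟨fun N' hN' => ?_⟩
  by_cases hb : N' = ⊥
  · exact Or.inl hb
  right
  let τ : (commutator G) ≃* (commutator G) := MulAut.conjNormal t
  have hτ : ∀ x : commutator G, ((τ x : commutator G) : G) = t * x * t⁻¹ :=
    fun x => MulAut.conjNormal_apply t x
  have hti : t⁻¹ = t := inv_eq_of_mul_eq_one_left ht2
  have hττ : ∀ x : commutator G, τ (τ x) = x := by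
    intro x
    apply Subtype.ext
    rw [hτ, hτ, hti]
    calc t * (t * ↑x * t) * t = (t * t) * ↑x * (t * t) := by group
      _ = ↑x := by rw [ht2, one_mul, mul_one]
  let N₂ : Subgroup (commutator G) := N'.map τ.toMonoidHom
  have hN₂ : N₂.Normal := hN'.map τ.toMonoidHom τ.surjective
  have normal_of : ∀ M' : Subgroup (commutator G), M'.Normal → (∀ x ∈ M', τ x ∈ M') →
      (M'.map (commutator G).subtype).Normal := by
    intro M' hM' hτM
    let T : Subgroup G :=
      { carrier := {g | ∀ x ∈ M'.map (commutator G).subtype,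
          g * x * g⁻¹ ∈ M'.map (commutator G).subtype ∧
            g⁻¹ * x * g ∈ M'.map (commutator G).subtype}
        one_mem' := by
          intro x hx
          simp only [one_mul, inv_one, mul_one]
          exact ⟨hx, hx⟩
        mul_mem' := by
          intro g h hg hh x hx
          constructor
          · have e : g * h * x * (g * h)⁻¹ = g * (h * x * h⁻¹) * g⁻¹ := by group
            rw [e]
            exact (hg _ (hh x hx).1).1
          · have e : (g * h)⁻¹ * x * (g * h) = h⁻¹ * (g⁻¹ * x * g) * h := by group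
            rw [e]
            exact (hh _ (hg x hx).2).2
        inv_mem' := by
          intro g hg x hx
          constructor
          · have e : g⁻¹ * x * g⁻¹⁻¹ = g⁻¹ * x * g := by group
            rw [e]
            exact (hg x hx).2
          · have e : g⁻¹⁻¹ * x * g⁻¹ = g * x * g⁻¹ := by group
            rw [e]
            exact (hg x hx).1 }
    have hC : commutator G ≤ T := by
      intro c hc x hx
      obtain ⟨x', hx', rfl⟩ := hx
      constructor
      · exact ⟨⟨c, hc⟩ * x' * ⟨c, hc⟩⁻¹, hM'.conj_mem x' hx' ⟨c, hc⟩, rfl⟩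
      · refine ⟨⟨c, hc⟩⁻¹ * x' * ⟨c, hc⟩, ?_, rfl⟩
        have := hM'.conj_mem x' hx' (⟨c, hc⟩⁻¹)
        rwa [inv_inv] at this
    have hT : t ∈ T := by
      intro x hx
      obtain ⟨x', hx', rfl⟩ := hx
      have h1 : t * ((commutator G).subtype x') * t⁻¹ ∈ M'.map (commutator G).subtype :=
        ⟨τ x', hτM x' hx', hτ x'⟩
      refine ⟨h1, ?_⟩
      rw [hti] at h1 ⊢
      exact h1
    have htop : T = ⊤ := by
      rw [eq_top_iff, ← hgen]
      exact sup_le hC (by rw [Subgroup.zpowers_le]; exact hT)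
    refine ⟨fun x hx g => ?_⟩
    have : g ∈ T := by rw [htop]; trivial
    exact (this x hx).1
  have hinf : ∀ x ∈ N' ⊓ N₂, τ x ∈ N' ⊓ N₂ := by
    rintro x ⟨h1, h2⟩
    refine ⟨?_, ⟨x, h1, rfl⟩⟩
    obtain ⟨y, hy, rfl⟩ := h2
    have : τ (τ.toMonoidHom y) = y := hττ y
    rw [this]
    exact hy
  have hmap2 : N₂.map τ.toMonoidHom = N' := by
    ext y
    constructor
    · rintro ⟨z, ⟨w, hw, rfl⟩, rfl⟩
      have : τ.toMonoidHom (τ.toMonoidHom w) = w := hττ w
      rw [this]
      exact hw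
    · intro hy
      exact ⟨τ y, ⟨y, hy, rfl⟩, hττ y⟩
  have hsup : ∀ x ∈ N' ⊔ N₂, τ x ∈ N' ⊔ N₂ := by
    intro x hx
    have h1 : τ x ∈ (N' ⊔ N₂).map τ.toMonoidHom := ⟨x, hx, rfl⟩
    rw [Subgroup.map_sup, hmap2, sup_comm] at h1
    exact h1
  haveI := hN'
  haveI := hN₂
  have hMn := normal_of (N' ⊓ N₂) inferInstance hinf
  have hPn := normal_of (N' ⊔ N₂) inferInstance hsup
  by_cases hM : (N' ⊓ N₂).map (commutator G).subtype = ⊥
  · have hdis : N' ⊓ N₂ = ⊥ := by
      rw [Subgroup.map_eq_bot_iff_of_injective _ (Subgroup.subtype_injective _)] at hM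
      exact hM
    have hP : (N' ⊔ N₂).map (commutator G).subtype ≠ ⊥ := by
      intro h
      rw [Subgroup.map_eq_bot_iff_of_injective _ (Subgroup.subtype_injective _)] at h
      apply hb
      rw [eq_bot_iff, ← h]
      exact le_sup_left
    have hle := hI _ hPn hP
    have htop : N' ⊔ N₂ = ⊤ := by
      rw [eq_top_iff]
      intro x _
      obtain ⟨y, hy, hyx⟩ := hle x.2
      have : y = x := Subtype.ext hyx
      rw [← this]
      exact hy
    exfalso
    have hcomp : Subgroup.IsComplement' N' N₂ := by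
      apply Subgroup.isComplement'_of_disjoint_and_mul_eq_univ (disjoint_iff.mpr hdis)
      rw [← Subgroup.normal_mul, htop]
      rfl
    have hc := hcomp.card_mul_card
    have hc2 : Nat.card N₂ = Nat.card N' := Subgroup.card_map_of_injective τ.injective
    rw [hc2] at hc
    exact hsq _ hc
  · have hle := hI _ hMn hM
    rw [eq_top_iff]
    intro x _
    obtain ⟨y, hy, hyx⟩ := hle x.2
    have : y = x := Subtype.ext hyx
    rw [← this]
    exact hy.1

end Cfsg.Agent.Lib.Helper28.F24Gen2
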