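import Cfsg.Agent.Lib.Helper28.F24Up
import Cfsg.Agent.Lib.Helper28.F24Gen2
import Cfsg.Agent.Lib.Helper28.FinalIwa4
import Cfsg.Agent.Lib.Helper28.F24EX
import Cfsg.Agent.Lib.Helper28.T1690X

/-!
The commutator subgroup of the presented group Fi24 is simple of order
1255205709190661721292800.

The subgroup H = <a..j, l> has index 306936 (coset enumeration), centralises l and is a
quotient of 2 x Fi23 (upper bound), and acts on the 31671 cosets fixed by l as Fi23 does on
the cosets of <a..i> (lower bound, and faithfulness of the action on the 306936 cosets).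
The action has rank 3 with coprime-like subdegrees, hence is primitive; Iwasawa's argument
shows that every nontrivial normal subgroup contains the commutator subgroup, which has
index 2 and non-square order.
-/

set_option autoImplicit false

namespace Cfsg.Agent.Lib.Helper28.F24Fin

open Cfsg.Spor Cfsg.Agent.Lib.Helper28.TCKernel Cfsg.Agent.Lib.Helper28.TCSound
open Cfsg.Agent.Lib.Helper28.TCPerm Cfsg.Agent.Lib.Helper28.TCPres
open Cfsg.Agent.Lib.Helper28.F24Up Cfsg.Agent.Lib.Helper28.F24Gen3
open Cfsg.Agent.Lib.Helper28.F24Gen2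

theorem hidx : (Subgroup.closure ((wp (ltG Fi24.edges Fi24.extra PresFi24.dec)) ''
    {w | w ∈ T1690LT.sgW})).index = 306936 := by
  rw [← map_closure_eq PresFi24.ok {s | s ∈ T1690X.sgSrc} T1690X.sgSrc rfl T1690LT.sgW
    (by decide +kernel)]
  exact T1690X.final.1

/-- the pairs of corresponding generators of Fi24 and Fi23 -/
def X : Set (Grp Fi24.edges Fi24.extra × Grp Fi23.edges Fi23.extra) :=
  Set.range (fun x : Fi23.Gen =>
    ((PresentedGroup.of (iota x) : Grp Fi24.edges Fi24.extra),
      (PresentedGroup.of x : Grp Fi23.edges Fi23.extra)))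

theorem X_fst : Prod.fst '' X = S := by
  ext g
  constructor
  · rintro ⟨_, ⟨x, rfl⟩, rfl⟩
    exact ⟨x, rfl⟩
  · rintro ⟨x, rfl⟩
    exact ⟨_, ⟨x, rfl⟩, rfl⟩

theorem X_snd : Subgroup.closure (Prod.snd '' X) = ⊤ := by
  have h : Prod.snd '' X =
      Set.range (PresentedGroup.of : Fi23.Gen → Grp Fi23.edges Fi23.extra) := by
    ext g
    constructor
    · rintro ⟨_, ⟨x, rfl⟩, rfl⟩
      exact ⟨x, rfl⟩
    · rintro ⟨x, rfl⟩
      exact ⟨_, ⟨x, rfl⟩, rfl⟩
  rw [h]
  exact PresentedGroup.closure_range_of _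

theorem invol24 (y : Nat) (hy : y < 12) :
    ltG Fi24.edges Fi24.extra PresFi24.dec y * ltG Fi24.edges Fi24.extra PresFi24.dec y = 1 := by
  have h := ltG_inv PresFi24.ok y hy
  have hi : PresFi24.inv y = y := by
    interval_cases y <;> rfl
  rw [hi] at h
  exact mul_eq_one_iff_eq_inv.mpr h

theorem conj24 : ∀ x ∈ (ltG Fi24.edges Fi24.extra PresFi24.dec) '' {y | y < 12},
    ∃ g : Grp Fi24.edges Fi24.extra, x = g * l' * g⁻¹ := by
  have hc0 : ∃ g : Grp Fi24.edges Fi24.extra,
      ltG Fi24.edges Fi24.extra PresFi24.dec 0 = g * l' * g⁻¹ :=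
    ⟨1, by rw [one_mul, inv_one, mul_one]; rfl⟩
  have step : ∀ u v, u < 12 → v < 12 → [u, v, u, v, u, v] ∈ PresFi24.relW →
      (∃ g : Grp Fi24.edges Fi24.extra,
        ltG Fi24.edges Fi24.extra PresFi24.dec u = g * l' * g⁻¹) →
      ∃ g : Grp Fi24.edges Fi24.extra,
        ltG Fi24.edges Fi24.extra PresFi24.dec v = g * l' * g⁻¹ := by
    intro u v hu hv hm hg
    have h3 := relG PresFi24.ok _ hm
    simp only [wp_cons, wp_nil] at h3
    exact conj_step _ _ l' (invol24 u hu) (invol24 v hv) h3 hg
  have hc1 := step 0 1 (by decide) (by decide) (by decide) hc0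
  have hc2 := step 1 2 (by decide) (by decide) (by decide) hc1
  have hc3 := step 2 3 (by decide) (by decide) (by decide) hc2
  have hc4 := step 3 4 (by decide) (by decide) (by decide) hc3
  have hc5 := step 4 5 (by decide) (by decide) (by decide) hc4
  have hc6 := step 5 6 (by decide) (by decide) (by decide) hc5
  have hc7 := step 6 7 (by decide) (by decide) (by decide) hc6
  have hc8 := step 7 8 (by decide) (by decide) (by decide) hc7
  have hc9 := step 8 9 (by decide) (by decide) (by decide) hc8
  have hc10 := step 5 10 (by decide) (by decide) (by decide) hc5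
  have hc11 := step 10 11 (by decide) (by decide) (by decide) hc10
  rintro _ ⟨y, hy, rfl⟩
  have hy' : y < 12 := hy
  interval_cases y
  · exact hc0
  · exact hc1
  · exact hc2
  · exact hc3
  · exact hc4
  · exact hc5
  · exact hc6
  · exact hc7
  · exact hc8
  · exact hc9
  · exact hc10
  · exact hc11

theorem sign24 : ∃ s : Grp Fi24.edges Fi24.extra →* ℤˣ, s l' ≠ 1 := by
  obtain ⟨s, hs⟩ := exists_hom PresFi24.ok (P := ℤˣ) (fun _ => -1) (fun y _ => by simp)
    (fun w hw => by
      rw [wp_const]
      have h2 : w.length % 2 = 0 :=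
        (by decide +kernel : ∀ w ∈ PresFi24.relW, w.length % 2 = 0) w hw
      obtain ⟨k, hk⟩ : ∃ k, w.length = 2 * k := ⟨w.length / 2, by omega⟩
      rw [hk, pow_mul]
      simp)
  refine ⟨s, ?_⟩
  rw [← lt_zero, hs 0 (by decide)]
  decide

theorem main : IsSimpleGroup (commutator (Grp Fi24.edges Fi24.extra)) ∧
    Nat.card (commutator (Grp Fi24.edges Fi24.extra)) = 1255205709190661721292800 := by
  have hn : 0 < 306936 := by decide
  -- the permutation representation of Fi24
  obtain ⟨φ, hφ', hH, htr, hc1, hc2, hprim⟩ :=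
    FinalIwa4.struct0 PresFi24.ok (r := 275265) T1690X.permOK hn hidx
      (by decide +kernel) (by decide) (by decide) (by decide) (by decide)
  rw [H_eq] at hH
  -- upper bound
  obtain ⟨hSfin, hSle⟩ := upper
  have hidx' : (Subgroup.closure S).index = 306936 := by rw [← H_eq]; exact hidx
  obtain ⟨hfin, hle⟩ := OrdChain.card_le_of_index (Subgroup.closure S) 306936 _ hidx' hn
    hSfin hSle
  -- the permutation representation of Fi23
  have hfin23 : Finite (Grp Fi23.edges Fi23.extra) := F23Main.bound.1
  have hn23 : 0 < 31671 := by decide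
  obtain ⟨χ, el, hχinj, hχ', -⟩ :=
    FinalIwa3.struct PresFi23.ok (r := 28161) T1689X.permOK hn23 F23Main.hidx
      (by decide +kernel) F23SX.checks 4089470473293004800 F23SX.prod F23Main.bound.1
      (le_trans F23Main.bound.2 (by decide)) (by decide) (by decide) (by decide) (by decide)
  -- the comparison map
  let e : Fin 31671 → Fin 306936 := fun i => ⟨F24ET.emb i.1, (F24EX.emb_ok i.1 i.2).2.1⟩
  have he : Function.Injective e := by
    intro i j hij
    have h1 : F24ET.emb i.1 = F24ET.emb j.1 := congrArg Fin.val hij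
    have h2 := (F24EX.emb_ok i.1 i.2).2.2.1
    have h3 := (F24EX.emb_ok j.1 j.2).2.2.1
    rw [h1, h3] at h2
    exact Fin.ext h2.symm
  have hX : ∀ p ∈ X, ∀ i, φ p.1 (e i) = e (χ p.2 i) := by
    rintro _ ⟨x, rfl⟩ i
    have hy := code_lt x
    have h24 : (φ (PresentedGroup.of (iota x)) : Equiv.Perm (Fin 306936)) =
        (φ (ltG Fi24.edges Fi24.extra PresFi24.dec (PresFi23.code (x, true) + 2)))⁻¹ := by
      rw [lt_eq24, ← map_inv]
      congr 1
      exact (inv_eq_of_mul_eq_one_left
        (invol_G Fi24.edges Fi24.extra (iota x) (by cases x <;> decide))).symm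
    have h23 : (χ (PresentedGroup.of x) : Equiv.Perm (Fin 31671)) =
        (χ (ltG Fi23.edges Fi23.extra PresFi23.dec (PresFi23.code (x, true))))⁻¹ := by
      rw [lt_eq23, ← map_inv]
      congr 1
      exact (inv_eq_of_mul_eq_one_left
        (invol_G Fi23.edges Fi23.extra x (by cases x <;> decide))).symm
    apply Fin.ext
    show ((φ (PresentedGroup.of (iota x)) (e i) : Fin 306936) : Nat) =
      F24ET.emb ((χ (PresentedGroup.of x) i : Fin 31671) : Nat)
    rw [h24, h23, hφ' _ (by omega) (e i), hχ' _ hy i]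
    exact (F24EX.emb_ok i.1 i.2).2.2.2.2 _ hy
  have hl24 : (φ l' : Equiv.Perm (Fin 306936)) =
      (φ (ltG Fi24.edges Fi24.extra PresFi24.dec 0))⁻¹ := by
    rw [lt_zero, ← map_inv]
    congr 1
    exact (inv_eq_of_mul_eq_one_left hl).symm
  have ht1 : ∀ i, φ l' (e i) = e i := by
    intro i
    apply Fin.ext
    rw [hl24, hφ' 0 (by decide) (e i)]
    exact (F24EX.emb_ok i.1 i.2).2.2.2.1
  have hφl : φ l' ≠ 1 := by
    intro h1
    have h2 := hφ' 0 (by decide) ⟨1, by decide⟩
    rw [← hl24, h1] at h2
    have h3 : T1690LT.tp 0 1 ≠ 1 := by decide +kernel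
    exact h3 h2.symm
  have ht2 : l' ≠ 1 := fun h => hφl (by rw [h, map_one])
  -- lower bound
  haveI := hfin
  haveI := hfin23
  obtain ⟨hge, hker⟩ := card_ge_two_mul' φ χ hχinj e he X hX X_snd l'
    (by rw [X_fst]; exact l_mem) ht1 ht2
  rw [X_fst, F23Main.simple_card.2] at hge hker
  have hcS : Nat.card (Subgroup.closure S) = 2 * 4089470473293004800 := le_antisymm hSle hge
  have hcard : Nat.card (Grp Fi24.edges Fi24.extra) = 2510411418381323442585600 := by
    have h := Subgroup.card_mul_index (Subgroup.closure S)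
    rw [hidx', hcS] at h
    rw [← h]
  -- faithfulness
  have hinj : Function.Injective φ := by
    rw [injective_iff_map_eq_one]
    intro g hg
    have hgS : g ∈ Subgroup.closure S := (hH g).mpr (by rw [hg]; rfl)
    rcases hker (by rw [hcS]) g hgS (fun i => by rw [hg]; rfl) with h | h
    · exact h
    · exact absurd (by rw [← h]; exact hg) hφl
  -- the commutator subgroup
  obtain ⟨s, hsl⟩ := sign24
  obtain ⟨hgen, hcc⟩ := card_commutator s l' hl hsl _ (genG PresFi24.ok) conj24
  have hcomm_card : Nat.card (commutator (Grp Fi24.edges Fi24.extra)) =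
      1255205709190661721292800 := by
    rw [hcard] at hcc
    omega
  have hI : ∀ N : Subgroup (Grp Fi24.edges Fi24.extra), N.Normal → N ≠ ⊥ →
      commutator (Grp Fi24.edges Fi24.extra) ≤ N :=
    fun N hN hb => iwasawa_comm_le hn φ hinj htr hprim l'
      (fun h hh => Subgroup.mem_centralizer_singleton_iff.mp (S_le ((hH h).mpr hh)))
      _ (genG PresFi24.ok) conj24 N hN hb
  have hsq : ∀ m : ℕ, m * m ≠ Nat.card (commutator (Grp Fi24.edges Fi24.extra)) := by
    intro m hm
    rw [hcomm_card] at hm
    rcases Nat.lt_or_ge m 1120359633864 with h | h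
    · have h2 : m * m ≤ 1120359633863 * 1120359633863 := Nat.mul_le_mul (by omega) (by omega)
      omega
    · have h2 : 1120359633864 * 1120359633864 ≤ m * m := Nat.mul_le_mul h h
      omega
  have hnt : commutator (Grp Fi24.edges Fi24.extra) ≠ ⊥ := by
    intro hb
    rw [hb, Subgroup.card_bot] at hcomm_card
    omega
  exact ⟨simple_commutator hI l' hl hgen hsq hnt, hcomm_card⟩

end Cfsg.Agent.Lib.Helper28.F24Fin
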