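import Cfsg.Agent.Lib.Helper28.Iwa
import Cfsg.Agent.Lib.Helper28.OrdChain

/-!
Generic lemmas for the order and simplicity of the commutator subgroup of a group generated
by a class of involutions (used for Fi24).
-/

set_option autoImplicit false

namespace Cfsg.Agent.Lib.Helper28.F24Gen

open Cfsg.Agent.Lib.Helper28.Iwa Cfsg.Agent.Lib.Helper28

/-! ### counting along a homomorphism -/

theorem card_le_map_mul_ker {A B : Type*} [Group A] [Group B] [Finite A] (f : A →* B)
    (K : Subgroup A) : Nat.card K ≤ Nat.card (K.map f) * Nat.card f.ker := by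
  let g : K →* B := f.comp K.subtype
  have h1 : Nat.card g.ker * Nat.card g.range = Nat.card K := by
    have := Subgroup.card_mul_index g.ker
    rw [Subgroup.index_ker] at this
    exact this
  have h2 : g.range = K.map f := by
    rw [MonoidHom.range_comp, Subgroup.range_subtype]
  have h3 : Nat.card g.ker ≤ Nat.card f.ker := by
    apply Nat.card_le_card_of_injective
      (fun x : g.ker => (⟨x.1.1, MonoidHom.mem_ker.mpr (MonoidHom.mem_ker.mp x.2)⟩ : f.ker))
    intro x y hxy
    have : x.1.1 = y.1.1 := congrArg (fun z : f.ker => (z : A)) hxy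
    exact Subtype.ext (Subtype.ext this)
  calc Nat.card K = Nat.card g.ker * Nat.card g.range := h1.symm
    _ ≤ Nat.card f.ker * Nat.card (K.map f) := by rw [h2]; exact Nat.mul_le_mul_right _ h3
    _ = _ := Nat.mul_comm _ _

/-! ### upper bound through the quotient of a centraliser by the central involution -/

section upper

variable {G : Type*} [Group G] (l : G)

/-- `l` as an element of its centraliser -/
def lC : Subgroup.centralizer ({l} : Set G) :=
  ⟨l, Subgroup.mem_centralizer_singleton_iff.mpr rfl⟩

instance zNormal : (Subgroup.zpowers (lC l)).Normal := by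
  refine ⟨fun n hn g => ?_⟩
  obtain ⟨k, rfl⟩ := Subgroup.mem_zpowers_iff.mp hn
  have hc : g * lC l = lC l * g :=
    Subtype.ext (Subgroup.mem_centralizer_singleton_iff.mp g.2)
  have hcm : Commute g (lC l) := hc
  have h2 := (hcm.zpow_right k).eq
  rw [h2, mul_inv_cancel_right]
  exact Subgroup.zpow_mem_zpowers _ k

theorem card_le_two_mul [Finite G] {F : Type*} [Group F] [Finite F] (hl : l * l = 1)
    (θ : F →* (Subgroup.centralizer ({l} : Set G)) ⧸ Subgroup.zpowers (lC l))
    (S : Set G) (hS : ∀ s ∈ S, ∃ h : s ∈ Subgroup.centralizer ({l} : Set G),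
      (QuotientGroup.mk (⟨s, h⟩ : Subgroup.centralizer ({l} : Set G)) :
        (Subgroup.centralizer ({l} : Set G)) ⧸ Subgroup.zpowers (lC l)) ∈ θ.range) :
    Nat.card (Subgroup.closure S) ≤ 2 * Nat.card F := by
  let π : (Subgroup.centralizer ({l} : Set G)) →*
      (Subgroup.centralizer ({l} : Set G)) ⧸ Subgroup.zpowers (lC l) := QuotientGroup.mk' _
  have hSC : Subgroup.closure S ≤ Subgroup.centralizer ({l} : Set G) := by
    rw [Subgroup.closure_le]
    intro s hs
    exact (hS s hs).1
  let K : Subgroup (Subgroup.centralizer ({l} : Set G)) :=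
    (Subgroup.closure S).subgroupOf (Subgroup.centralizer ({l} : Set G))
  have hK : Nat.card K = Nat.card (Subgroup.closure S) :=
    Nat.card_congr (Subgroup.subgroupOfEquivOfLe hSC).toEquiv
  have key : ∀ g ∈ Subgroup.closure S, ∀ h : g ∈ Subgroup.centralizer ({l} : Set G),
      π ⟨g, h⟩ ∈ θ.range := by
    intro g hg
    induction hg using Subgroup.closure_induction with
    | mem x hx =>
      intro h
      obtain ⟨h', hm⟩ := hS x hx
      exact hm
    | one =>
      intro h
      have : (⟨1, h⟩ : Subgroup.centralizer ({l} : Set G)) = 1 := rfl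
      rw [this, map_one]
      exact θ.range.one_mem
    | mul x y hx hy ihx ihy =>
      intro h
      have e : (⟨x * y, h⟩ : Subgroup.centralizer ({l} : Set G)) =
          ⟨x, hSC hx⟩ * ⟨y, hSC hy⟩ := rfl
      rw [e, map_mul]
      exact θ.range.mul_mem (ihx _) (ihy _)
    | inv x hx ihx =>
      intro h
      have e : (⟨x⁻¹, h⟩ : Subgroup.centralizer ({l} : Set G)) = (⟨x, hSC hx⟩)⁻¹ := rfl
      rw [e, map_inv]
      exact θ.range.inv_mem (ihx _)
  have hmap : K.map π ≤ θ.range := by
    rintro _ ⟨x, hx, rfl⟩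
    exact key x.1 (Subgroup.mem_subgroupOf.mp hx) x.2
  have h1 := card_le_map_mul_ker π K
  have h2 : Nat.card (K.map π) ≤ Nat.card F := by
    obtain ⟨hf, hc⟩ := OrdChain.card_range_le θ (Nat.card F) le_rfl
    exact le_trans (Nat.card_le_card_of_injective (Subgroup.inclusion hmap)
      (Subgroup.inclusion_injective hmap)) hc
  have h3 : Nat.card π.ker ≤ 2 := by
    have hk : π.ker = Subgroup.zpowers (lC l) := QuotientGroup.ker_mk' _
    rw [hk, Nat.card_zpowers]
    have h4 : (lC l) ^ 2 = 1 := by
      rw [pow_two]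
      exact Subtype.ext hl
    exact Nat.le_of_dvd (by norm_num) (orderOf_dvd_of_pow_eq_one h4)
  calc Nat.card (Subgroup.closure S) = Nat.card K := hK.symm
    _ ≤ Nat.card (K.map π) * Nat.card π.ker := h1
    _ ≤ Nat.card F * 2 := Nat.mul_le_mul h2 h3
    _ = 2 * Nat.card F := Nat.mul_comm _ _

end upper

/-! ### lower bound by comparison of two permutation representations -/

theorem card_ge_two_mul {N m : ℕ} {A B : Type*} [Group A] [Group B] [Finite A] [Finite B]
    (φ : A →* Equiv.Perm (Fin N)) (χ : B →* Equiv.Perm (Fin m)) (hχ : Function.Injective χ)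
    (e : Fin m → Fin N) (he : Function.Injective e)
    (X : Set (A × B)) (hX : ∀ p ∈ X, ∀ i, φ p.1 (e i) = e (χ p.2 i))
    (hB : Subgroup.closure (Prod.snd '' X) = ⊤)
    (t : A) (ht : t ∈ Subgroup.closure (Prod.fst '' X)) (ht1 : ∀ i, φ t (e i) = e i)
    (ht2 : t ≠ 1) :
    2 * Nat.card B ≤ Nat.card (Subgroup.closure (Prod.fst '' X)) := by
  let D : Subgroup (A × B) := Subgroup.closure X
  have hspec : ∀ p ∈ D, ∀ i, φ p.1 (e i) = e (χ p.2 i) := by
    intro p hp
    induction hp using Subgroup.closure_induction with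
    | mem x hx => exact hX x hx
    | one =>
      intro i
      simp
    | mul x y _ _ ihx ihy =>
      intro i
      rw [Prod.fst_mul, Prod.snd_mul, map_mul, map_mul, Equiv.Perm.mul_apply,
        Equiv.Perm.mul_apply, ihy i, ihx]
    | inv x _ ihx =>
      intro i
      rw [Prod.fst_inv, Prod.snd_inv, map_inv, map_inv]
      have h := ihx ((χ x.2)⁻¹ i)
      rw [TCPerm.perm_apply_inv] at h
      rw [← h, TCPerm.perm_inv_apply]
  have hfst : D.map (MonoidHom.fst A B) = Subgroup.closure (Prod.fst '' X) :=
    MonoidHom.map_closure _ _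
  have hsnd : D.map (MonoidHom.snd A B) = ⊤ := by
    rw [← hB]
    exact MonoidHom.map_closure _ _
  let f₁ : D →* A := (MonoidHom.fst A B).comp D.subtype
  let f₂ : D →* B := (MonoidHom.snd A B).comp D.subtype
  have hinj : Function.Injective f₁ := by
    intro x y hxy
    have h1 : x.1.1 = y.1.1 := hxy
    have h2 : χ x.1.2 = χ y.1.2 := by
      apply Equiv.ext
      intro i
      apply he
      rw [← hspec x.1 x.2 i, ← hspec y.1 y.2 i, h1]
    exact Subtype.ext (Prod.ext h1 (hχ h2))
  have hr1 : f₁.range = Subgroup.closure (Prod.fst '' X) := by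
    rw [MonoidHom.range_comp, Subgroup.range_subtype]
    exact hfst
  have hr2 : f₂.range = ⊤ := by
    rw [MonoidHom.range_comp, Subgroup.range_subtype]
    exact hsnd
  have hcardD : Nat.card D = Nat.card (Subgroup.closure (Prod.fst '' X)) := by
    rw [← hr1]
    exact Nat.card_congr (MonoidHom.ofInjective hinj).toEquiv
  -- the element (t, 1)
  have htD : (t, (1 : B)) ∈ D := by
    have h1 : t ∈ D.map (MonoidHom.fst A B) := by rw [hfst]; exact ht
    obtain ⟨p, hp, hpt⟩ := h1
    have h2 : p.1 = t := hpt
    have h3 : χ p.2 = 1 := by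
      apply Equiv.ext
      intro i
      apply he
      rw [← hspec p hp i, h2, ht1]
      rfl
    have h4 : p.2 = 1 := hχ (by rw [h3, map_one])
    have h5 : p = (t, 1) := Prod.ext h2 h4
    rw [← h5]
    exact hp
  have hker : 2 ≤ Nat.card f₂.ker := by
    have hne : f₂.ker ≠ ⊥ := by
      intro hb
      have hm : (⟨(t, 1), htD⟩ : D) ∈ f₂.ker := MonoidHom.mem_ker.mpr rfl
      rw [hb, Subgroup.mem_bot] at hm
      have : (t, (1 : B)) = 1 := congrArg Subtype.val hm
      exact ht2 (congrArg Prod.fst this)
    have := (Subgroup.one_lt_card_iff_ne_bot f₂.ker).mpr hne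
    omega
  have h1 : Nat.card f₂.ker * Nat.card f₂.range = Nat.card D := by
    have := Subgroup.card_mul_index f₂.ker
    rw [Subgroup.index_ker] at this
    exact this
  rw [hr2, Subgroup.card_top] at h1
  rw [← hcardD, ← h1]
  exact Nat.mul_le_mul_right _ hker

end Cfsg.Agent.Lib.Helper28.F24Gen
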