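import Cfsg.Agent.Lib.Helper28.F24Gen
import Cfsg.Agent.Lib.Helper28.TCPres

/-!
More generic lemmas for Fi24: the upper bound through the quotient of a centraliser without
finiteness of the ambient group, the homomorphism from a sub-diagram group to that quotient,
the lower bound by comparison of permutation representations together with the kernel, and
conjugacy of adjacent nodes.
-/

set_option autoImplicit false

namespace Cfsg.Agent.Lib.Helper28.F24Gen3

open Cfsg.Agent.Lib.Helper28.Iwa Cfsg.Agent.Lib.Helper28 Cfsg.Agent.Lib.Helper28.F24Gen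
open Cfsg.Spor Cfsg.Agent.Lib.Helper28.TCSound

theorem card_le_map_mul_ker' {A B : Type*} [Group A] [Group B] (f : A →* B)
    (K : Subgroup A) (hk : Finite f.ker) (hm : Finite (K.map f)) :
    Finite K ∧ Nat.card K ≤ Nat.card (K.map f) * Nat.card f.ker := by
  let g : K →* B := f.comp K.subtype
  have h1 : Nat.card g.ker * Nat.card g.range = Nat.card K := by
    have := Subgroup.card_mul_index g.ker
    rw [Subgroup.index_ker] at this
    exact this
  have h2 : g.range = K.map f := by
    rw [MonoidHom.range_comp, Subgroup.range_subtype]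
  have hinj : Function.Injective
      (fun x : g.ker => (⟨x.1.1, MonoidHom.mem_ker.mpr (MonoidHom.mem_ker.mp x.2)⟩ : f.ker)) := by
    intro x y hxy
    have : x.1.1 = y.1.1 := congrArg (fun z : f.ker => (z : A)) hxy
    exact Subtype.ext (Subtype.ext this)
  have hgk : Finite g.ker := Finite.of_injective _ hinj
  have h3 : Nat.card g.ker ≤ Nat.card f.ker := Nat.card_le_card_of_injective _ hinj
  have hgr : Finite g.range := by rw [h2]; exact hm
  have hK : Finite K := by
    apply Nat.finite_of_card_ne_zero
    rw [← h1]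
    exact Nat.mul_ne_zero Nat.card_pos.ne' Nat.card_pos.ne'
  refine ⟨hK, ?_⟩
  calc Nat.card K = Nat.card g.ker * Nat.card g.range := h1.symm
    _ ≤ Nat.card f.ker * Nat.card (K.map f) := by rw [h2]; exact Nat.mul_le_mul_right _ h3
    _ = _ := Nat.mul_comm _ _

theorem card_le_two_mul' {G : Type*} [Group G] (l : G) {F : Type*} [Group F] [Finite F]
    (hl : l * l = 1)
    (θ : F →* (Subgroup.centralizer ({l} : Set G)) ⧸ Subgroup.zpowers (lC l))
    (S : Set G) (hS : ∀ s ∈ S, ∃ h : s ∈ Subgroup.centralizer ({l} : Set G),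
      (QuotientGroup.mk (⟨s, h⟩ : Subgroup.centralizer ({l} : Set G)) :
        (Subgroup.centralizer ({l} : Set G)) ⧸ Subgroup.zpowers (lC l)) ∈ θ.range) :
    Finite (Subgroup.closure S) ∧ Nat.card (Subgroup.closure S) ≤ 2 * Nat.card F := by
  let π : (Subgroup.centralizer ({l} : Set G)) →*
      (Subgroup.centralizer ({l} : Set G)) ⧸ Subgroup.zpowers (lC l) := QuotientGroup.mk' _
  have hSC : Subgroup.closure S ≤ Subgroup.centralizer ({l} : Set G) := by
    rw [Subgroup.closure_le]
    intro s hs
    exact (hS s hs).1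
  let K : Subgroup (Subgroup.centralizer ({l} : Set G)) :=
    (Subgroup.closure S).subgroupOf (Subgroup.centralizer ({l} : Set G))
  have hK : Nat.card K = Nat.card (Subgroup.closure S) :=
    Nat.card_congr (Subgroup.subgroupOfEquivOfLe hSC).toEquiv
  have key : ∀ g ∈ Subgroup.closure S, ∀ h : g ∈ Subgroup.centralizer ({l} : Set G),
      π ⟨g, h⟩ ∈ θ.range := by
    intro g hg
    induction hg using Subgroup.closure_induction with
    | mem x hx =>
      intro h
      obtain ⟨h', hm⟩ := hS x hx
      exact hm
    | one =>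
      intro h
      have : (⟨1, h⟩ : Subgroup.centralizer ({l} : Set G)) = 1 := rfl
      rw [this, map_one]
      exact θ.range.one_mem
    | mul x y hx hy ihx ihy =>
      intro h
      have e : (⟨x * y, h⟩ : Subgroup.centralizer ({l} : Set G)) =
          ⟨x, hSC hx⟩ * ⟨y, hSC hy⟩ := rfl
      rw [e, map_mul]
      exact θ.range.mul_mem (ihx _) (ihy _)
    | inv x hx ihx =>
      intro h
      have e : (⟨x⁻¹, h⟩ : Subgroup.centralizer ({l} : Set G)) = (⟨x, hSC hx⟩)⁻¹ := rfl
      rw [e, map_inv]
      exact θ.range.inv_mem (ihx _)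
  have hmap : K.map π ≤ θ.range := by
    rintro _ ⟨x, hx, rfl⟩
    exact key x.1 (Subgroup.mem_subgroupOf.mp hx) x.2
  obtain ⟨hf, hc⟩ := OrdChain.card_range_le θ (Nat.card F) le_rfl
  have hmf : Finite (K.map π) :=
    Finite.of_injective (Subgroup.inclusion hmap) (Subgroup.inclusion_injective hmap)
  have h2 : Nat.card (K.map π) ≤ Nat.card F :=
    le_trans (Nat.card_le_card_of_injective (Subgroup.inclusion hmap)
      (Subgroup.inclusion_injective hmap)) hc
  have h4 : (lC l) ^ 2 = 1 := by
    rw [pow_two]
    exact Subtype.ext hl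
  have hk : π.ker = Subgroup.zpowers (lC l) := QuotientGroup.ker_mk' _
  have ho : 0 < orderOf (lC l) := by
    apply orderOf_pos_iff.mpr
    exact isOfFinOrder_iff_pow_eq_one.mpr ⟨2, by norm_num, h4⟩
  have hkf : Finite π.ker := by
    apply Nat.finite_of_card_ne_zero
    rw [hk, Nat.card_zpowers]
    omega
  have h3 : Nat.card π.ker ≤ 2 := by
    rw [hk, Nat.card_zpowers]
    exact Nat.le_of_dvd (by norm_num) (orderOf_dvd_of_pow_eq_one h4)
  obtain ⟨hKf, h1⟩ := card_le_map_mul_ker' π K hkf hmf
  refine ⟨?_, ?_⟩
  · exact Finite.of_equiv K (Subgroup.subgroupOfEquivOfLe hSC).toEquiv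
  · calc Nat.card (Subgroup.closure S) = Nat.card K := hK.symm
      _ ≤ Nat.card (K.map π) * Nat.card π.ker := h1
      _ ≤ Nat.card F * 2 := Nat.mul_le_mul h2 h3
      _ = 2 * Nat.card F := Nat.mul_comm _ _

/-- the homomorphism from the group of a sub-diagram to the centraliser of an involution
modulo that involution: Coxeter relators go to Coxeter relators, the further relators to
`1` or to the involution. -/
theorem theta_exists {α β : Type} [DecidableEq α] [DecidableEq β]
    (edges : List (α × ℕ × α)) (extra : List (FreeGroup α))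
    (edges' : List (β × ℕ × β)) (extra' : List (FreeGroup β)) (ι : β → α)
    (l : CoxPresented α edges extra)
    (hcomm : ∀ x : β, (PresentedGroup.of (ι x) : CoxPresented α edges extra) ∈
      Subgroup.centralizer ({l} : Set (CoxPresented α edges extra)))
    (hcox : ∀ x ∈ coxNodes edges', ∀ y ∈ coxNodes edges',
      ι x ∈ coxNodes edges ∧ ι y ∈ coxNodes edges ∧
        coxLabel edges (ι x) (ι y) = coxLabel edges' x y)
    (hextra : ∀ r ∈ extra',
      PresentedGroup.mk (coxRelators edges ∪ {r | r ∈ extra}) (FreeGroup.map ι r) = 1 ∨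
      PresentedGroup.mk (coxRelators edges ∪ {r | r ∈ extra}) (FreeGroup.map ι r) = l) :
    ∃ θ : CoxPresented β edges' extra' →*
        (Subgroup.centralizer ({l} : Set (CoxPresented α edges extra))) ⧸
          Subgroup.zpowers (lC l),
      ∀ x : β, θ (PresentedGroup.of x) =
        QuotientGroup.mk (⟨PresentedGroup.of (ι x), hcomm x⟩ :
          Subgroup.centralizer ({l} : Set (CoxPresented α edges extra))) := by
  let R : Set (FreeGroup α) := coxRelators edges ∪ {r | r ∈ extra}
  let C : Subgroup (CoxPresented α edges extra) := Subgroup.centralizer ({l} : Set _)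
  let f₀ : β → C := fun x => ⟨PresentedGroup.of (ι x), hcomm x⟩
  let π : C →* C ⧸ Subgroup.zpowers (lC l) := QuotientGroup.mk' _
  let f : β → C ⧸ Subgroup.zpowers (lC l) := fun x => π (f₀ x)
  have hlift0 : ∀ r : FreeGroup β,
      ((FreeGroup.lift f₀ r : C) : CoxPresented α edges extra) =
        PresentedGroup.mk R (FreeGroup.map ι r) := by
    intro r
    have : C.subtype.comp (FreeGroup.lift f₀) = (PresentedGroup.mk R).comp (FreeGroup.map ι) := by
      ext x
      simp [f₀, PresentedGroup.of]
      rfl
    exact DFunLike.congr_fun this r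
  have hlift : ∀ r : FreeGroup β, FreeGroup.lift f r = π (FreeGroup.lift f₀ r) := by
    intro r
    have : FreeGroup.lift f = π.comp (FreeGroup.lift f₀) := by
      ext x
      simp [f]
    rw [this]; rfl
  have h : ∀ r ∈ (coxRelators edges' ∪ {r | r ∈ extra'} : Set (FreeGroup β)),
      FreeGroup.lift f r = 1 := by
    intro r hr
    rw [hlift]
    have hmem : FreeGroup.lift f₀ r ∈ Subgroup.zpowers (lC l) := by
      rcases hr with ⟨x, hx, y, hy, rfl⟩ | hr
      · obtain ⟨h1, h2, h3⟩ := hcox x hx y hy
        have h4 : PresentedGroup.mk R (FreeGroup.map ι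
            ((FreeGroup.of x * FreeGroup.of y) ^ coxLabel edges' x y)) = 1 := by
          apply PresentedGroup.one_of_mem
          left
          refine ⟨ι x, h1, ι y, h2, ?_⟩
          rw [h3, map_pow, map_mul, FreeGroup.map.of, FreeGroup.map.of]
        have h5 : FreeGroup.lift f₀ ((FreeGroup.of x * FreeGroup.of y) ^ coxLabel edges' x y)
            = 1 := Subtype.ext ((hlift0 _).trans h4)
        rw [h5]
        exact Subgroup.one_mem _
      · rcases hextra r hr with h4 | h4
        · have h5 : FreeGroup.lift f₀ r = 1 := Subtype.ext ((hlift0 _).trans h4)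
          rw [h5]
          exact Subgroup.one_mem _
        · have h5 : FreeGroup.lift f₀ r = lC l := Subtype.ext ((hlift0 _).trans h4)
          rw [h5]
          exact Subgroup.mem_zpowers _
    exact (QuotientGroup.eq_one_iff _).mpr hmem
  refine ⟨PresentedGroup.toGroup h, fun x => ?_⟩
  exact PresentedGroup.toGroup.of h

/-- lower bound by comparison of two permutation representations, with the elements acting
trivially on the image of the comparison map. -/
theorem card_ge_two_mul' {N m : ℕ} {A B : Type*} [Group A] [Group B] [Finite A] [Finite B]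
    (φ : A →* Equiv.Perm (Fin N)) (χ : B →* Equiv.Perm (Fin m)) (hχ : Function.Injective χ)
    (e : Fin m → Fin N) (he : Function.Injective e)
    (X : Set (A × B)) (hX : ∀ p ∈ X, ∀ i, φ p.1 (e i) = e (χ p.2 i))
    (hB : Subgroup.closure (Prod.snd '' X) = ⊤)
    (t : A) (ht : t ∈ Subgroup.closure (Prod.fst '' X)) (ht1 : ∀ i, φ t (e i) = e i)
    (ht2 : t ≠ 1) :
    2 * Nat.card B ≤ Nat.card (Subgroup.closure (Prod.fst '' X)) ∧
    (Nat.card (Subgroup.closure (Prod.fst '' X)) ≤ 2 * Nat.card B →
      ∀ h ∈ Subgroup.closure (Prod.fst '' X), (∀ i, φ h (e i) = e i) → h = 1 ∨ h = t) := by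
  let D : Subgroup (A × B) := Subgroup.closure X
  have hspec : ∀ p ∈ D, ∀ i, φ p.1 (e i) = e (χ p.2 i) := by
    intro p hp
    induction hp using Subgroup.closure_induction with
    | mem x hx => exact hX x hx
    | one =>
      intro i
      simp
    | mul x y _ _ ihx ihy =>
      intro i
      rw [Prod.fst_mul, Prod.snd_mul, map_mul, map_mul, Equiv.Perm.mul_apply,
        Equiv.Perm.mul_apply, ihy i, ihx]
    | inv x _ ihx =>
      intro i
      rw [Prod.fst_inv, Prod.snd_inv, map_inv, map_inv]
      have h := ihx ((χ x.2)⁻¹ i)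
      rw [TCPerm.perm_apply_inv] at h
      rw [← h, TCPerm.perm_inv_apply]
  have hfst : D.map (MonoidHom.fst A B) = Subgroup.closure (Prod.fst '' X) :=
    MonoidHom.map_closure _ _
  have hsnd : D.map (MonoidHom.snd A B) = ⊤ := by
    rw [← hB]
    exact MonoidHom.map_closure _ _
  let f₁ : D →* A := (MonoidHom.fst A B).comp D.subtype
  let f₂ : D →* B := (MonoidHom.snd A B).comp D.subtype
  have hinj : Function.Injective f₁ := by
    intro x y hxy
    have h1 : x.1.1 = y.1.1 := hxy
    have h2 : χ x.1.2 = χ y.1.2 := by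
      apply Equiv.ext
      intro i
      apply he
      rw [← hspec x.1 x.2 i, ← hspec y.1 y.2 i, h1]
    exact Subtype.ext (Prod.ext h1 (hχ h2))
  have hr1 : f₁.range = Subgroup.closure (Prod.fst '' X) := by
    rw [MonoidHom.range_comp, Subgroup.range_subtype]
    exact hfst
  have hr2 : f₂.range = ⊤ := by
    rw [MonoidHom.range_comp, Subgroup.range_subtype]
    exact hsnd
  have hcardD : Nat.card D = Nat.card (Subgroup.closure (Prod.fst '' X)) := by
    rw [← hr1]
    exact Nat.card_congr (MonoidHom.ofInjective hinj).toEquiv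
  -- elements acting trivially give elements `(h, 1)`
  have hD1 : ∀ h ∈ Subgroup.closure (Prod.fst '' X), (∀ i, φ h (e i) = e i) →
      (h, (1 : B)) ∈ D := by
    intro h hh hfix
    have h1 : h ∈ D.map (MonoidHom.fst A B) := by rw [hfst]; exact hh
    obtain ⟨p, hp, hpt⟩ := h1
    have h2 : p.1 = h := hpt
    have h3 : χ p.2 = 1 := by
      apply Equiv.ext
      intro i
      apply he
      rw [← hspec p hp i, h2, hfix]
      rfl
    have h4 : p.2 = 1 := hχ (by rw [h3, map_one])
    have h5 : p = (h, 1) := Prod.ext h2 h4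
    rw [← h5]
    exact hp
  have htD : (t, (1 : B)) ∈ D := hD1 t ht ht1
  have hker : 2 ≤ Nat.card f₂.ker := by
    have hne : f₂.ker ≠ ⊥ := by
      intro hb
      have hm : (⟨(t, 1), htD⟩ : D) ∈ f₂.ker := MonoidHom.mem_ker.mpr rfl
      rw [hb, Subgroup.mem_bot] at hm
      have : (t, (1 : B)) = 1 := congrArg Subtype.val hm
      exact ht2 (congrArg Prod.fst this)
    have := (Subgroup.one_lt_card_iff_ne_bot f₂.ker).mpr hne
    omega
  have h1 : Nat.card f₂.ker * Nat.card f₂.range = Nat.card D := by
    have := Subgroup.card_mul_index f₂.ker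
    rw [Subgroup.index_ker] at this
    exact this
  rw [hr2, Subgroup.card_top] at h1
  refine ⟨?_, ?_⟩
  · rw [← hcardD, ← h1]
    exact Nat.mul_le_mul_right _ hker
  · intro hle h hh hfix
    have hB0 : 0 < Nat.card B := Nat.card_pos
    have hk2 : Nat.card f₂.ker ≤ 2 := by
      rw [← hcardD, ← h1] at hle
      exact Nat.le_of_mul_le_mul_right hle hB0
    by_contra hcon
    have hc1 : h ≠ 1 := fun hh1 => hcon (Or.inl hh1)
    have hc2 : h ≠ t := fun hh1 => hcon (Or.inr hh1)
    have hhD := hD1 h hh hfix
    let u : Fin 3 → f₂.ker := fun i =>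
      if i = 0 then 1 else if i = 1 then ⟨⟨(t, 1), htD⟩, MonoidHom.mem_ker.mpr rfl⟩
      else ⟨⟨(h, 1), hhD⟩, MonoidHom.mem_ker.mpr rfl⟩
    have hval : ∀ i : Fin 3, ((u i : f₂.ker) : D).1.1 =
        if i = 0 then 1 else if i = 1 then t else h := by
      intro i
      fin_cases i <;> rfl
    have hu : Function.Injective u := by
      intro i j hij
      have h2 := hval i
      rw [hij, hval j] at h2
      fin_cases i <;> fin_cases j <;> simp_all
    have h3 := Nat.card_le_card_of_injective u hu
    rw [Nat.card_fin] at h3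
    omega

/-- adjacent nodes of a Coxeter diagram are conjugate. -/
theorem conj_step {G : Type*} [Group G] (x y t : G) (hx : x * x = 1) (hy : y * y = 1)
    (h3 : x * (y * (x * (y * (x * (y * 1))))) = 1) (hg : ∃ g : G, x = g * t * g⁻¹) :
    ∃ g : G, y = g * t * g⁻¹ := by
  obtain ⟨g, hg⟩ := hg
  refine ⟨x * y * g, ?_⟩
  have hxi : x⁻¹ = x := inv_eq_of_mul_eq_one_left hx
  have hyi : y⁻¹ = y := inv_eq_of_mul_eq_one_left hy
  have e : x * y * g * t * (x * y * g)⁻¹ = x * y * (g * t * g⁻¹) * y⁻¹ * x⁻¹ := by group
  rw [e, ← hg, hxi, hyi]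
  -- x y x y x = y
  have h4 : x * y * x * y * x * y = 1 := by
    simpa [mul_assoc] using h3
  calc y = (x * y * x * y * x * y) * y := by rw [h4, one_mul]
    _ = x * y * x * y * x * (y * y) := by group
    _ = x * y * x * y * x := by rw [hy, mul_one]

/-- a word in a constant letter. -/
theorem wp_const {P : Type*} [Group P] (σ : P) (w : List Nat) :
    wp (fun _ => σ) w = σ ^ w.length := by
  induction w with
  | nil => rw [wp_nil, List.length_nil, pow_zero]
  | cons y w ih => rw [wp_cons, ih, List.length_cons, pow_succ']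

end Cfsg.Agent.Lib.Helper28.F24Gen3
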