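import Cfsg.Agent.Lib.Helper28.F24pST
import Cfsg.Agent.Lib.Helper28.TCJoin

set_option autoImplicit false
set_option Elab.async false

namespace Cfsg.Agent.Lib.Helper28.F24pSC5

open Cfsg.Agent.Lib.Helper28.TCKernel Cfsg.Agent.Lib.Helper28.TCJoin Cfsg.Agent.Lib.Helper28.F24pST

theorem chk0 : allTree chkPt 9 20480 = true := by decide +kernel
theorem chk1 : allTree chkPt 9 20992 = true := by decide +kernel
theorem chk2 : allTree chkPt 9 21504 = true := by decide +kernel
theorem chk3 : allTree chkPt 9 22016 = true := by decide +kernel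
theorem chk4 : allTree chkPt 9 22528 = true := by decide +kernel
theorem chk5 : allTree chkPt 9 23040 = true := by decide +kernel
theorem chk6 : allTree chkPt 9 23552 = true := by decide +kernel
theorem chk7 : allTree chkPt 9 24064 = true := by decide +kernel
theorem chk : allTree chkPt 12 20480 = true :=
  (join chkPt 11 20480 (join chkPt 10 20480 (join chkPt 9 20480 chk0 chk1) (join chkPt 9 21504 chk2 chk3)) (join chkPt 10 22528 (join chkPt 9 22528 chk4 chk5) (join chkPt 9 23552 chk6 chk7)))

end Cfsg.Agent.Lib.Helper28.F24pSC5
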