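import Cfsg.Agent.Lib.Helper28.F24pSC0
import Cfsg.Agent.Lib.Helper28.F24pSC1
import Cfsg.Agent.Lib.Helper28.F24pSC2
import Cfsg.Agent.Lib.Helper28.F24pSC3
import Cfsg.Agent.Lib.Helper28.F24pSC4
import Cfsg.Agent.Lib.Helper28.F24pSC5
import Cfsg.Agent.Lib.Helper28.F24pSC6
import Cfsg.Agent.Lib.Helper28.F24pSC7

set_option autoImplicit false

namespace Cfsg.Agent.Lib.Helper28.F24pSX

open Cfsg.Agent.Lib.Helper28.TCKernel Cfsg.Agent.Lib.Helper28.SGS

theorem chunk : ∀ k, k < 8 → allTree F24pST.chkPt 12 (k * 2 ^ 12) = true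
  | 0, _ => F24pSC0.chk
  | 1, _ => F24pSC1.chk
  | 2, _ => F24pSC2.chk
  | 3, _ => F24pSC3.chk
  | 4, _ => F24pSC4.chk
  | 5, _ => F24pSC5.chk
  | 6, _ => F24pSC6.chk
  | 7, _ => F24pSC7.chk
  | (k + 8), h => absurd h (by omega)

theorem checks : Checks 28431 10 34 4 15 TF24pLT.tp F24pST.xt F24pST.rk F24pST.par F24pST.sy F24pST.lv F24pST.bs F24pST.ns
    F24pST.defs F24pST.prs where
  point := fun p hp => allTree_chunks F24pST.chkPt 12 8 chunk p (lt_of_lt_of_le hp (by decide))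
  hX := by decide
  bd := by decide +kernel
  pbd := by decide +kernel
  fix := by decide +kernel
  lvX := fun s hs => nthD_of_length_le 0 F24pST.lvl s (le_trans (by decide) hs)
  bsn := by decide +kernel
  cnt := by decide +kernel
  hd := by decide

theorem prod : prodN F24pST.ns 4 = 9904359628800 := by decide +kernel

end Cfsg.Agent.Lib.Helper28.F24pSX
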