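import Cfsg.Agent.Lib.Helper28.OrdChain

/-!
The homomorphism from a group presented on a sub-diagram (with some of the further relators)
to the bigger presented group, with its values.
-/

set_option autoImplicit false

namespace Cfsg.Agent.Lib.Helper28.OrdChain2

open Cfsg.Spor

theorem sub_hom_map {α β : Type} [DecidableEq α] [DecidableEq β]
    (edges : List (α × ℕ × α)) (extra : List (FreeGroup α))
    (edges' : List (β × ℕ × β)) (extra' : List (FreeGroup β)) (ι : β → α)
    (hcox : ∀ x ∈ coxNodes edges', ∀ y ∈ coxNodes edges',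
      ι x ∈ coxNodes edges ∧ ι y ∈ coxNodes edges ∧
        coxLabel edges (ι x) (ι y) = coxLabel edges' x y)
    (hextra : ∀ r ∈ extra', FreeGroup.map ι r ∈ extra) :
    ∃ F : CoxPresented β edges' extra' →* CoxPresented α edges extra,
      ∀ r : FreeGroup β, F (PresentedGroup.mk (coxRelators edges' ∪ {r | r ∈ extra'}) r) =
        PresentedGroup.mk (coxRelators edges ∪ {r | r ∈ extra}) (FreeGroup.map ι r) := by
  let R : Set (FreeGroup α) := coxRelators edges ∪ {r | r ∈ extra}
  let f : β → PresentedGroup R := fun x => PresentedGroup.of (ι x)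
  have hlift : ∀ r : FreeGroup β, FreeGroup.lift f r = PresentedGroup.mk R (FreeGroup.map ι r) := by
    intro r
    have : FreeGroup.lift f = (PresentedGroup.mk R).comp (FreeGroup.map ι) := by
      ext x
      simp [f, PresentedGroup.of]
    rw [this]; rfl
  have h : ∀ r ∈ (coxRelators edges' ∪ {r | r ∈ extra'} : Set (FreeGroup β)),
      FreeGroup.lift f r = 1 := by
    intro r hr
    rw [hlift]
    apply PresentedGroup.one_of_mem
    rcases hr with ⟨x, hx, y, hy, rfl⟩ | hr
    · obtain ⟨h1, h2, h3⟩ := hcox x hx y hy
      left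
      refine ⟨ι x, h1, ι y, h2, ?_⟩
      rw [h3, map_pow, map_mul, FreeGroup.map.of, FreeGroup.map.of]
    · right
      exact hextra r hr
  refine ⟨PresentedGroup.toGroup h, fun r => ?_⟩
  exact (hlift r)

end Cfsg.Agent.Lib.Helper28.OrdChain2
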