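import Cfsg.Agent.Lib.Helper28.TCPres
import Cfsg.Agent.Lib.Helper28.DefF24r

set_option autoImplicit false

namespace Cfsg.Agent.Lib.Helper28.PresF24r

open Cfsg.Spor Cfsg.Agent.Lib.Helper28.TCKernel Cfsg.Agent.Lib.Helper28.TCPres

/-- letter of a generator or of its inverse -/
def code : F24r.Gen × Bool → Nat
  | (.k, _) => 0
  | (.a, _) => 1
  | (.b, _) => 2
  | (.c, _) => 3
  | (.d, _) => 4
  | (.e, _) => 5
  | (.f, _) => 6
def decl : List (F24r.Gen × Bool) := [(.k, true), (.a, true), (.b, true), (.c, true), (.d, true), (.e, true), (.f, true)]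
/-- generator and sign of a letter -/
def dec (y : Nat) : F24r.Gen × Bool := decl.getD y (.k, true)
def invL : List Nat := [0, 1, 2, 3, 4, 5, 6]
def inv : Nat → Nat := nthD 0 invL
def gens : List F24r.Gen := [.k, .a, .b, .c, .d, .e, .f]
def pairs : List (F24r.Gen × F24r.Gen) := [(.k, .a), (.k, .b), (.k, .c), (.k, .d), (.k, .e), (.k, .f), (.a, .b), (.a, .c), (.a, .d), (.a, .e), (.a, .f), (.b, .c), (.b, .d), (.b, .e), (.b, .f), (.c, .d), (.c, .e), (.c, .f), (.d, .e), (.d, .f), (.e, .f)]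
def relW : List (List Nat) := [[0, 1, 0, 1, 0, 1],
  [0, 2, 0, 2],
  [0, 3, 0, 3],
  [0, 4, 0, 4],
  [0, 5, 0, 5],
  [0, 6, 0, 6],
  [1, 2, 1, 2, 1, 2],
  [1, 3, 1, 3],
  [1, 4, 1, 4],
  [1, 5, 1, 5],
  [1, 6, 1, 6],
  [2, 3, 2, 3, 2, 3],
  [2, 4, 2, 4],
  [2, 5, 2, 5],
  [2, 6, 2, 6],
  [3, 4, 3, 4, 3, 4],
  [3, 5, 3, 5],
  [3, 6, 3, 6],
  [4, 5, 4, 5, 4, 5],
  [4, 6, 4, 6],
  [5, 6, 5, 6, 5, 6]]
theorem ok : PresOK F24r.edges F24r.extra code dec inv 7 gens pairs relW where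
  gens_all := by intro x; cases x <;> decide
  code_true := by decide +kernel
  code_false := by decide +kernel
  dec_code := by decide +kernel
  inv_ok := by decide +kernel
  node_inv := by decide +kernel
  pairs_nodes := by decide +kernel
  pairs_all := by decide +kernel
  label_symm := by decide +kernel
  rel_words := by decide +kernel
  rel_letters := by decide +kernel

end Cfsg.Agent.Lib.Helper28.PresF24r
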