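import Cfsg.Agent.Lib.Helper28.TF24rLT
import Cfsg.Agent.Lib.Helper28.TCJoin

set_option autoImplicit false
set_option Elab.async false

namespace Cfsg.Agent.Lib.Helper28.TF24rLC0

open Cfsg.Agent.Lib.Helper28.TCKernel Cfsg.Agent.Lib.Helper28.TCJoin Cfsg.Agent.Lib.Helper28.TF24rLT

theorem chk0 : allTree chkPoint 6 0 = true := by decide +kernel
theorem chk1 : allTree chkPoint 6 64 = true := by decide +kernel
theorem chk2 : allTree chkPoint 6 128 = true := by decide +kernel
theorem chk3 : allTree chkPoint 6 192 = true := by decide +kernel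
theorem chk4 : allTree chkPoint 6 256 = true := by decide +kernel
theorem chk5 : allTree chkPoint 6 320 = true := by decide +kernel
theorem chk6 : allTree chkPoint 6 384 = true := by decide +kernel
theorem chk7 : allTree chkPoint 6 448 = true := by decide +kernel
theorem chk : allTree chkPoint 9 0 = true :=
  (join chkPoint 8 0 (join chkPoint 7 0 (join chkPoint 6 0 chk0 chk1) (join chkPoint 6 128 chk2 chk3)) (join chkPoint 7 256 (join chkPoint 6 256 chk4 chk5) (join chkPoint 6 384 chk6 chk7)))

end Cfsg.Agent.Lib.Helper28.TF24rLC0
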