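import Cfsg.Agent.Lib.Helper28.TCMain
import Cfsg.Agent.Lib.Helper28.PresF24r
import Cfsg.Agent.Lib.Helper28.TF24rUC0
import Cfsg.Agent.Lib.Helper28.TF24rLC0

set_option autoImplicit false

namespace Cfsg.Agent.Lib.Helper28.TF24rX

open Cfsg.Spor Cfsg.Agent.Lib.Helper28.TCKernel Cfsg.Agent.Lib.Helper28.TCSound Cfsg.Agent.Lib.Helper28.TCPerm Cfsg.Agent.Lib.Helper28.TCPres Cfsg.Agent.Lib.Helper28.TCMain

/-- the subgroup generators -/
def sgSrc : List (FreeGroup F24r.Gen) := [F24r.k, F24r.a, F24r.b, F24r.c]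

theorem chunkU : ∀ k, k < 1 → allTree TF24rUT.chkName 9 (k * 2 ^ 9) = true
  | 0, _ => TF24rUC0.chk
  | (k + 1), h => absurd h (by omega)

theorem chkU (v : Nat) : TF24rUT.chkName v = true := by
  rcases Nat.lt_or_ge v (2 ^ 9) with h | h
  · exact allTree_chunks TF24rUT.chkName 9 1 chunkU v h
  · exact chk_of_zero _ _ _ _ _ _ _ _ _ _ _ _ _ _ v
      (fun y => fld3_eq_zero _ _ _ _ _ _ _ _ y v 1 (by decide)
        (le_trans (by decide : 1 * 2 ^ (8 + 1) ≤ 2 ^ 9) h))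
      (fld1_eq_zero _ _ _ _ _ _ _ _ v
        (le_trans (by decide : TF24rUT.dtop.length * 2 ^ (8 + 1) ≤ 2 ^ 9) h))
      (le_trans (by decide : 336 ≤ 2 ^ 9) h)

theorem chunkL : ∀ k, k < 1 → allTree TF24rLT.chkPoint 9 (k * 2 ^ 9) = true
  | 0, _ => TF24rLC0.chk
  | (k + 1), h => absurd h (by omega)

theorem chkL (a : Nat) (ha : a < 336) : TF24rLT.chkPoint a = true :=
  allTree_chunks TF24rLT.chkPoint 9 1 chunkL a (lt_of_lt_of_le ha (by decide))

theorem permOK : PermChecks 336 TF24rLT.tp PresF24r.inv TF24rLT.pa TF24rLT.pl PresF24r.relW TF24rLT.sgW TF24rLT.tw 8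
    TF24rLT.roots 7 where
  point := fun a ha => chkL a ha
  invL := by decide +kernel
  wsL := by decide +kernel
  sgL := by decide +kernel
  twL := by decide +kernel
  root1 := by decide +kernel
  rootpos := by decide +kernel

/-- index and orbit structure of the subgroup -/
theorem final :
    ((Subgroup.closure {s | s ∈ sgSrc}).map (PresentedGroup.mk (coxRelators F24r.edges ∪ {r | r ∈ F24r.extra}))).index = 336 ∧
    ∃ ψ : (PresentedGroup (coxRelators F24r.edges ∪ {r | r ∈ F24r.extra})) ⧸ ((Subgroup.closure {s | s ∈ sgSrc}).map (PresentedGroup.mk (coxRelators F24r.edges ∪ {r | r ∈ F24r.extra}))) → Fin 336,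
      Function.Injective ψ ∧
      ∀ r, r < 336 → (∀ r' ∈ (0 :: TF24rLT.roots), clsOf TF24rLT.roots r' = clsOf TF24rLT.roots r → r' = r) →
        ∃ q, ψ '' (MulAction.orbit ((Subgroup.closure {s | s ∈ sgSrc}).map (PresentedGroup.mk (coxRelators F24r.edges ∪ {r | r ∈ F24r.extra}))) q) = {b : Fin 336 | clsOf TF24rLT.roots b.1 = clsOf TF24rLT.roots r} :=
  main PresF24r.ok {s | s ∈ sgSrc} sgSrc rfl TF24rLT.sgW (by decide +kernel)
    336 336 9 0 4095 TF24rUT.tgt TF24rUT.sig TF24rUT.crt TF24rUT.hnt TF24rUT.dsig TF24rUT.mu TF24rUT.dcrt TF24rUT.dst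
    TF24rUT.par TF24rUT.plet TF24rUT.certs TF24rUT.hints (by decide +kernel)
    (fun y v => fld3_le _ _ _ _ _ _ _ _ y v) (fun v => fld1_le _ _ _ _ _ _ _ _ v) chkU
    (by decide +kernel) (by decide) TF24rUC0.cnt
    TF24rLT.tp TF24rLT.pa TF24rLT.pl TF24rLT.tw 8 TF24rLT.roots permOK (by decide) (by decide +kernel)

end Cfsg.Agent.Lib.Helper28.TF24rX
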