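import Cfsg.Agent.Lib.Helper28.TCPres
import Cfsg.Agent.Lib.Helper28.DefF24s

set_option autoImplicit false

namespace Cfsg.Agent.Lib.Helper28.PresF24s

open Cfsg.Spor Cfsg.Agent.Lib.Helper28.TCKernel Cfsg.Agent.Lib.Helper28.TCPres

/-- letter of a generator or of its inverse -/
def code : F24s.Gen × Bool → Nat
  | (.k, _) => 0
  | (.a, _) => 1
  | (.b, _) => 2
  | (.c, _) => 3
def decl : List (F24s.Gen × Bool) := [(.k, true), (.a, true), (.b, true), (.c, true)]
/-- generator and sign of a letter -/
def dec (y : Nat) : F24s.Gen × Bool := decl.getD y (.k, true)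
def invL : List Nat := [0, 1, 2, 3]
def inv : Nat → Nat := nthD 0 invL
def gens : List F24s.Gen := [.k, .a, .b, .c]
def pairs : List (F24s.Gen × F24s.Gen) := [(.k, .a), (.k, .b), (.k, .c), (.a, .b), (.a, .c), (.b, .c)]
def relW : List (List Nat) := [[0, 1, 0, 1, 0, 1],
  [0, 2, 0, 2],
  [0, 3, 0, 3],
  [1, 2, 1, 2, 1, 2],
  [1, 3, 1, 3],
  [2, 3, 2, 3, 2, 3]]
theorem ok : PresOK F24s.edges F24s.extra code dec inv 4 gens pairs relW where
  gens_all := by intro x; cases x <;> decide
  code_true := by decide +kernel
  code_false := by decide +kernel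
  dec_code := by decide +kernel
  inv_ok := by decide +kernel
  node_inv := by decide +kernel
  pairs_nodes := by decide +kernel
  pairs_all := by decide +kernel
  label_symm := by decide +kernel
  rel_words := by decide +kernel
  rel_letters := by decide +kernel

end Cfsg.Agent.Lib.Helper28.PresF24s
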