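import Cfsg.Agent.Lib.Helper28.TCMain
import Cfsg.Agent.Lib.Helper28.PresF24s
import Cfsg.Agent.Lib.Helper28.TF24sUC0
import Cfsg.Agent.Lib.Helper28.TF24sLC0

set_option autoImplicit false

namespace Cfsg.Agent.Lib.Helper28.TF24sX

open Cfsg.Spor Cfsg.Agent.Lib.Helper28.TCKernel Cfsg.Agent.Lib.Helper28.TCSound Cfsg.Agent.Lib.Helper28.TCPerm Cfsg.Agent.Lib.Helper28.TCPres Cfsg.Agent.Lib.Helper28.TCMain

/-- the subgroup generators -/
def sgSrc : List (FreeGroup F24s.Gen) := [F24s.k]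

theorem chunkU : ∀ k, k < 1 → allTree TF24sUT.chkName 6 (k * 2 ^ 6) = true
  | 0, _ => TF24sUC0.chk
  | (k + 1), h => absurd h (by omega)

theorem chkU (v : Nat) : TF24sUT.chkName v = true := by
  rcases Nat.lt_or_ge v (2 ^ 6) with h | h
  · exact allTree_chunks TF24sUT.chkName 6 1 chunkU v h
  · exact chk_of_zero _ _ _ _ _ _ _ _ _ _ _ _ _ _ v
      (fun y => fld3_eq_zero _ _ _ _ _ _ _ _ y v 1 (by decide)
        (le_trans (by decide : 1 * 2 ^ (6 + 0) ≤ 2 ^ 6) h))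
      (fld1_eq_zero _ _ _ _ _ _ _ _ v
        (le_trans (by decide : TF24sUT.dtop.length * 2 ^ (6 + 0) ≤ 2 ^ 6) h))
      (le_trans (by decide : 60 ≤ 2 ^ 6) h)

theorem chunkL : ∀ k, k < 1 → allTree TF24sLT.chkPoint 6 (k * 2 ^ 6) = true
  | 0, _ => TF24sLC0.chk
  | (k + 1), h => absurd h (by omega)

theorem chkL (a : Nat) (ha : a < 60) : TF24sLT.chkPoint a = true :=
  allTree_chunks TF24sLT.chkPoint 6 1 chunkL a (lt_of_lt_of_le ha (by decide))

theorem permOK : PermChecks 60 TF24sLT.tp PresF24s.inv TF24sLT.pa TF24sLT.pl PresF24s.relW TF24sLT.sgW TF24sLT.tw 2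
    TF24sLT.roots 4 where
  point := fun a ha => chkL a ha
  invL := by decide +kernel
  wsL := by decide +kernel
  sgL := by decide +kernel
  twL := by decide +kernel
  root1 := by decide +kernel
  rootpos := by decide +kernel

/-- index and orbit structure of the subgroup -/
theorem final :
    ((Subgroup.closure {s | s ∈ sgSrc}).map (PresentedGroup.mk (coxRelators F24s.edges ∪ {r | r ∈ F24s.extra}))).index = 60 ∧
    ∃ ψ : (PresentedGroup (coxRelators F24s.edges ∪ {r | r ∈ F24s.extra})) ⧸ ((Subgroup.closure {s | s ∈ sgSrc}).map (PresentedGroup.mk (coxRelators F24s.edges ∪ {r | r ∈ F24s.extra}))) → Fin 60,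
      Function.Injective ψ ∧
      ∀ r, r < 60 → (∀ r' ∈ (0 :: TF24sLT.roots), clsOf TF24sLT.roots r' = clsOf TF24sLT.roots r → r' = r) →
        ∃ q, ψ '' (MulAction.orbit ((Subgroup.closure {s | s ∈ sgSrc}).map (PresentedGroup.mk (coxRelators F24s.edges ∪ {r | r ∈ F24s.extra}))) q) = {b : Fin 60 | clsOf TF24sLT.roots b.1 = clsOf TF24sLT.roots r} :=
  main PresF24s.ok {s | s ∈ sgSrc} sgSrc rfl TF24sLT.sgW (by decide +kernel)
    60 60 6 0 255 TF24sUT.tgt TF24sUT.sig TF24sUT.crt TF24sUT.hnt TF24sUT.dsig TF24sUT.mu TF24sUT.dcrt TF24sUT.dst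
    TF24sUT.par TF24sUT.plet TF24sUT.certs TF24sUT.hints (by decide +kernel)
    (fun y v => fld3_le _ _ _ _ _ _ _ _ y v) (fun v => fld1_le _ _ _ _ _ _ _ _ v) chkU
    (by decide +kernel) (by decide) TF24sUC0.cnt
    TF24sLT.tp TF24sLT.pa TF24sLT.pl TF24sLT.tw 2 TF24sLT.roots permOK (by decide) (by decide +kernel)

end Cfsg.Agent.Lib.Helper28.TF24sX
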