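import Cfsg.Agent.Lib.Helper28.ChainStep
import Cfsg.Agent.Lib.Helper28.OrdChain2
import Cfsg.Agent.Lib.Helper28.TF24pX
import Cfsg.Agent.Lib.Helper28.TF24qX
import Cfsg.Agent.Lib.Helper28.TF24rX
import Cfsg.Agent.Lib.Helper28.TF24sX
import Cfsg.Agent.Lib.Helper28.F24pSX

/-!
The spider relation `(dcbdefdhi)^10 = 1` holds in the presented group Fi24 (generators on the
diagram Y542 with `l = (abcdefh)^9`).

The group `P` presented on the sub-diagram `l, k, a, b, c, d, e, f, h, i` with the relator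
`l = (abcdefh)^9` has order at most `28431 * 8640 * 336 * 120 = 9904359628800` (coset
enumerations along `P > <l,k,a,b,c,d,e,f,h> > <k,a,b,c,d,e,f> > <k,a,b,c> > <k>`), and its
permutation representation on 28431 points has a stabiliser chain of that order, so it is
faithful; the spider word acts trivially there.
-/

set_option autoImplicit false

namespace Cfsg.Agent.Lib.Helper28.F24pMain

open Cfsg.Spor Cfsg.Agent.Lib.Helper28.TCKernel Cfsg.Agent.Lib.Helper28.TCSound
open Cfsg.Agent.Lib.Helper28.TCPerm Cfsg.Agent.Lib.Helper28.TCPres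
open Cfsg.Agent.Lib.Helper28.ChainStep Cfsg.Agent.Lib.Helper28.SGS

theorem s_bound : Finite (Grp F24s.edges F24s.extra) ∧
    Nat.card (Grp F24s.edges F24s.extra) ≤ 60 * 2 := by
  have h := TF24sX.final.1
  have e : TF24sX.sgSrc = [FreeGroup.of F24s.Gen.k] := rfl
  rw [e, map_single] at h
  exact chain_bottom _ 60 h (by decide) _
    (invol_G F24s.edges F24s.extra F24s.Gen.k (by decide)) rfl

theorem r_bound : Finite (Grp F24r.edges F24r.extra) ∧
    Nat.card (Grp F24r.edges F24r.extra) ≤ 336 * (60 * 2) := by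
  obtain ⟨F, hF⟩ := F24s.hom
  exact chain_step _ 336 _ TF24rX.final.1 (by decide) F hF s_bound

theorem q_bound : Finite (Grp F24q.edges F24q.extra) ∧
    Nat.card (Grp F24q.edges F24q.extra) ≤ 8640 * (336 * (60 * 2)) := by
  obtain ⟨F, hF⟩ := F24r.hom
  exact chain_step _ 8640 _ TF24qX.final.1 (by decide) F hF r_bound

theorem bound : Finite (Grp F24p.edges F24p.extra) ∧
    Nat.card (Grp F24p.edges F24p.extra) ≤ 28431 * (8640 * (336 * (60 * 2))) := by
  obtain ⟨F, hF⟩ := F24q.hom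
  exact chain_step _ 28431 _ TF24pX.final.1 (by decide) F hF q_bound

/-- the spider word in letters -/
def spiderW : List Nat := [5, 4, 3, 5, 6, 7, 5, 8, 9, 5, 4, 3, 5, 6, 7, 5, 8, 9, 5, 4, 3, 5, 6, 7, 5, 8, 9,
  5, 4, 3, 5, 6, 7, 5, 8, 9, 5, 4, 3, 5, 6, 7, 5, 8, 9, 5, 4, 3, 5, 6, 7, 5, 8, 9, 5, 4, 3, 5, 6, 7, 5, 8, 9,
  5, 4, 3, 5, 6, 7, 5, 8, 9, 5, 4, 3, 5, 6, 7, 5, 8, 9, 5, 4, 3, 5, 6, 7, 5, 8, 9]

theorem spider_p : PresentedGroup.mk (coxRelators F24p.edges ∪ {r | r ∈ F24p.extra})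
    ((F24p.d * F24p.c * F24p.b * F24p.d * F24p.e * F24p.f * F24p.d * F24p.h * F24p.i) ^ 10) = 1 := by
  have hfin : Finite (Grp F24p.edges F24p.extra) := bound.1
  obtain ⟨φ, hφ⟩ := exists_hom PresF24p.ok (letterPerm TF24pX.permOK)
    (letterPerm_inv TF24pX.permOK) (letterPerm_rel TF24pX.permOK)
  have hφ' : ∀ y, y < 10 → ∀ a : Fin 28431,
      (((φ (ltG F24p.edges F24p.extra PresF24p.dec y))⁻¹ a : Fin 28431) : Nat) = TF24pLT.tp y a := by
    intro y hy a
    rw [hφ y hy]; exact letterPerm_inv_apply TF24pX.permOK y hy a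
  obtain ⟨_, _, el, hel, heq⟩ := SGS.main F24pSX.checks φ
    (ltG F24p.edges F24p.extra PresF24p.dec) hφ' 9904359628800 F24pSX.prod
    (le_trans bound.2 (by decide))
  have h1 := heq (spiderW, []) (by decide +kernel)
  rw [wp_nil] at h1
  rw [mk_eq_wp PresF24p.ok]
  have e : toLetters PresF24p.code
      ((F24p.d * F24p.c * F24p.b * F24p.d * F24p.e * F24p.f * F24p.d * F24p.h * F24p.i) ^ 10) =
      spiderW := by decide +kernel
  rw [e, ← wp_congr el _ spiderW (fun y hy => hel y ((by decide : ∀ y ∈ spiderW, y < 10) y hy))]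
  exact h1

/-- the spider relation in the presented group Fi24 -/
theorem spider : PresentedGroup.mk (coxRelators Fi24.edges ∪ {r | r ∈ Fi24.extra})
    ((Fi24.d * Fi24.c * Fi24.b * Fi24.d * Fi24.e * Fi24.f * Fi24.d * Fi24.h * Fi24.i) ^ 10) = 1 := by
  obtain ⟨F, hF⟩ := OrdChain2.sub_hom_map Fi24.edges Fi24.extra F24p.edges F24p.extra F24p.iota
    (by decide +kernel) (by decide +kernel)
  have h := congrArg F spider_p
  rw [hF, map_one] at h
  have e : FreeGroup.map F24p.iota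
      ((F24p.d * F24p.c * F24p.b * F24p.d * F24p.e * F24p.f * F24p.d * F24p.h * F24p.i) ^ 10) =
      (Fi24.d * Fi24.c * Fi24.b * Fi24.d * Fi24.e * Fi24.f * Fi24.d * Fi24.h * Fi24.i) ^ 10 := by
    simp only [map_pow, map_mul, FreeGroup.map.of]
    rfl
  rw [e] at h
  exact h

end Cfsg.Agent.Lib.Helper28.F24pMain
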