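import Cfsg.Agent.Lib.Helper28.F24Gen3
import Cfsg.Agent.Lib.Helper28.F24pMain
import Cfsg.Agent.Lib.Helper28.F23Main
import Cfsg.Agent.Lib.Helper28.PresFi24
import Cfsg.Agent.Lib.Helper28.T1690LT

/-!
In the presented group Fi24 the subgroup generated by the nodes a..j has order at most twice
the order of Fi23: it centralises l, and modulo l it is a quotient of the presented group
Fi23 (the spider relation holds in Fi24, and (abcdefh)^9 = l).
-/

set_option autoImplicit false

namespace Cfsg.Agent.Lib.Helper28.F24Up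

open Cfsg.Spor Cfsg.Agent.Lib.Helper28.TCKernel Cfsg.Agent.Lib.Helper28.TCSound
open Cfsg.Agent.Lib.Helper28.TCPres Cfsg.Agent.Lib.Helper28.F24Gen
open Cfsg.Agent.Lib.Helper28.F24Gen3

/-- the diagram of Fi23 inside the diagram of Fi24 -/
def iota : Fi23.Gen → Fi24.Gen
  | .a => .a
  | .b => .b
  | .c => .c
  | .d => .d
  | .e => .e
  | .f => .f
  | .g => .g
  | .j => .j
  | .h => .h
  | .i => .i

/-- the generator l -/
noncomputable def l' : Grp Fi24.edges Fi24.extra := PresentedGroup.of Fi24.Gen.l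

/-- the generators a..j -/
def S : Set (Grp Fi24.edges Fi24.extra) :=
  Set.range (fun x : Fi23.Gen => (PresentedGroup.of (iota x) : Grp Fi24.edges Fi24.extra))

theorem comm_of_label_two {α : Type} [DecidableEq α] (edges : List (α × ℕ × α))
    (extra : List (FreeGroup α)) (x y : α)
    (hx : x ∈ coxNodes edges) (hy : y ∈ coxNodes edges) (h2 : coxLabel edges x y = 2) :
    (PresentedGroup.of x : Grp edges extra) * PresentedGroup.of y =
      PresentedGroup.of y * PresentedGroup.of x := by
  have h : (FreeGroup.of x * FreeGroup.of y) ^ coxLabel edges x y ∈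
      (coxRelators edges ∪ {r | r ∈ extra} : Set (FreeGroup α)) :=
    Or.inl ⟨x, hx, y, hy, rfl⟩
  have h1 := PresentedGroup.one_of_mem h
  rw [h2, map_pow, map_mul, pow_two] at h1
  have hxx := invol_G edges extra x hx
  have hyy := invol_G edges extra y hy
  have h3 : (PresentedGroup.of x : Grp edges extra) * PresentedGroup.of y *
      (PresentedGroup.of x * PresentedGroup.of y) = 1 := h1
  have h4 : (PresentedGroup.of x : Grp edges extra) * PresentedGroup.of y *
      (PresentedGroup.of y * PresentedGroup.of x) = 1 := by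
    calc (PresentedGroup.of x : Grp edges extra) * PresentedGroup.of y *
        (PresentedGroup.of y * PresentedGroup.of x)
        = PresentedGroup.of x * (PresentedGroup.of y * PresentedGroup.of y) *
          PresentedGroup.of x := by group
      _ = 1 := by rw [hyy, mul_one, hxx]
  exact mul_left_cancel (h3.trans h4.symm)

theorem hl : l' * l' = 1 := invol_G Fi24.edges Fi24.extra Fi24.Gen.l (by decide)

theorem hcomm (x : Fi23.Gen) : (PresentedGroup.of (iota x) : Grp Fi24.edges Fi24.extra) ∈
    Subgroup.centralizer ({l'} : Set (Grp Fi24.edges Fi24.extra)) := by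
  rw [Subgroup.mem_centralizer_singleton_iff]
  exact (comm_of_label_two Fi24.edges Fi24.extra (iota x) Fi24.Gen.l (by cases x <;> decide)
    (by decide) (by cases x <;> decide))

theorem l_eq : PresentedGroup.mk (coxRelators Fi24.edges ∪ {r | r ∈ Fi24.extra})
    ((Fi24.a * Fi24.b * Fi24.c * Fi24.d * Fi24.e * Fi24.f * Fi24.h) ^ 9) = l' := by
  have hm : Fi24.l * (((Fi24.a * Fi24.b * Fi24.c * Fi24.d * Fi24.e * Fi24.f * Fi24.h) ^ 9)⁻¹) ∈
      (coxRelators Fi24.edges ∪ {r | r ∈ Fi24.extra} : Set (FreeGroup Fi24.Gen)) := by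
    right
    show _ ∈ Fi24.extra
    unfold Fi24.extra
    exact List.mem_cons_self
  have h1 := PresentedGroup.one_of_mem hm
  rw [map_mul, map_inv] at h1
  exact (mul_inv_eq_one.mp h1).symm

theorem hextra : ∀ r ∈ Fi23.extra,
    PresentedGroup.mk (coxRelators Fi24.edges ∪ {r | r ∈ Fi24.extra}) (FreeGroup.map iota r) = 1 ∨
    PresentedGroup.mk (coxRelators Fi24.edges ∪ {r | r ∈ Fi24.extra}) (FreeGroup.map iota r) = l' := by
  intro r hr
  unfold Fi23.extra at hr
  rcases List.mem_cons.mp hr with rfl | hr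
  · left
    have e : FreeGroup.map iota
        ((Fi23.d * Fi23.c * Fi23.b * Fi23.d * Fi23.e * Fi23.f * Fi23.d * Fi23.h * Fi23.i) ^ 10) =
        (Fi24.d * Fi24.c * Fi24.b * Fi24.d * Fi24.e * Fi24.f * Fi24.d * Fi24.h * Fi24.i) ^ 10 := by
      simp only [map_pow, map_mul, FreeGroup.map.of]
      rfl
    rw [e]
    exact F24pMain.spider
  · rcases List.mem_cons.mp hr with rfl | hr
    · right
      have e : FreeGroup.map iota
          ((Fi23.a * Fi23.b * Fi23.c * Fi23.d * Fi23.e * Fi23.f * Fi23.h) ^ 9) =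
          (Fi24.a * Fi24.b * Fi24.c * Fi24.d * Fi24.e * Fi24.f * Fi24.h) ^ 9 := by
        simp only [map_pow, map_mul, FreeGroup.map.of]
        rfl
      rw [e]
      exact l_eq
    · exact absurd hr List.not_mem_nil

theorem theta : ∃ θ : Grp Fi23.edges Fi23.extra →*
    (Subgroup.centralizer ({l'} : Set (Grp Fi24.edges Fi24.extra))) ⧸ Subgroup.zpowers (lC l'),
    ∀ x : Fi23.Gen, θ (PresentedGroup.of x) =
      QuotientGroup.mk (⟨PresentedGroup.of (iota x), hcomm x⟩ :
        Subgroup.centralizer ({l'} : Set (Grp Fi24.edges Fi24.extra))) :=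
  theta_exists Fi24.edges Fi24.extra Fi23.edges Fi23.extra iota l' hcomm (by decide +kernel)
    hextra

theorem upper : Finite (Subgroup.closure S) ∧
    Nat.card (Subgroup.closure S) ≤ 2 * 4089470473293004800 := by
  obtain ⟨θ, hθ⟩ := theta
  haveI := F23Main.bound.1
  have h := card_le_two_mul' l' hl θ S (by
    rintro _ ⟨x, rfl⟩
    exact ⟨hcomm x, ⟨PresentedGroup.of x, hθ x⟩⟩)
  rw [F23Main.simple_card.2] at h
  exact h

theorem l_mem : l' ∈ Subgroup.closure S := by
  rw [← l_eq, map_pow, map_mul, map_mul, map_mul, map_mul, map_mul, map_mul]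
  apply Subgroup.pow_mem
  have hx : ∀ x : Fi23.Gen, (PresentedGroup.of (iota x) : Grp Fi24.edges Fi24.extra) ∈
      Subgroup.closure S := fun x => Subgroup.subset_closure ⟨x, rfl⟩
  exact Subgroup.mul_mem _ (Subgroup.mul_mem _ (Subgroup.mul_mem _ (Subgroup.mul_mem _
    (Subgroup.mul_mem _ (Subgroup.mul_mem _ (hx .a) (hx .b)) (hx .c)) (hx .d)) (hx .e)) (hx .f))
    (hx .h)

theorem S_le : Subgroup.closure S ≤
    Subgroup.centralizer ({l'} : Set (Grp Fi24.edges Fi24.extra)) := by
  rw [Subgroup.closure_le]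
  rintro _ ⟨x, rfl⟩
  exact hcomm x

theorem lt_eq24 (x : Fi23.Gen) :
    ltG Fi24.edges Fi24.extra PresFi24.dec (PresFi23.code (x, true) + 2) =
      PresentedGroup.of (iota x) := by
  cases x <;> rfl

theorem lt_eq23 (x : Fi23.Gen) :
    ltG Fi23.edges Fi23.extra PresFi23.dec (PresFi23.code (x, true)) = PresentedGroup.of x := by
  cases x <;> rfl

theorem code_lt (x : Fi23.Gen) : PresFi23.code (x, true) < 10 := by
  cases x <;> decide

theorem lt_zero : ltG Fi24.edges Fi24.extra PresFi24.dec 0 = l' := rfl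

theorem H_eq : Subgroup.closure ((wp (ltG Fi24.edges Fi24.extra PresFi24.dec)) ''
    {w | w ∈ T1690LT.sgW}) = Subgroup.closure S := by
  apply le_antisymm
  · rw [Subgroup.closure_le]
    rintro _ ⟨w, hw, rfl⟩
    have hw' : w ∈ T1690LT.sgW := hw
    unfold T1690LT.sgW at hw'
    simp only [List.mem_cons, List.not_mem_nil, or_false] at hw'
    have hx : ∀ x : Fi23.Gen, wp (ltG Fi24.edges Fi24.extra PresFi24.dec)
        [PresFi23.code (x, true) + 2] ∈ Subgroup.closure S := by
      intro x
      rw [wp_cons, wp_nil, mul_one, lt_eq24]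
      exact Subgroup.subset_closure ⟨x, rfl⟩
    rcases hw' with rfl | rfl | rfl | rfl | rfl | rfl | rfl | rfl | rfl | rfl | rfl
    · exact hx .a
    · exact hx .b
    · exact hx .c
    · exact hx .d
    · exact hx .e
    · exact hx .f
    · exact hx .g
    · exact hx .h
    · exact hx .i
    · exact hx .j
    · rw [SetLike.mem_coe, wp_cons, wp_nil, mul_one, lt_zero]
      exact l_mem
  · rw [Subgroup.closure_le]
    rintro _ ⟨x, rfl⟩
    apply Subgroup.subset_closure
    refine ⟨[PresFi23.code (x, true) + 2], ?_, ?_⟩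
    · show _ ∈ T1690LT.sgW
      cases x <;> decide
    · rw [wp_cons, wp_nil, mul_one]
      exact lt_eq24 x

end Cfsg.Agent.Lib.Helper28.F24Up
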