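import Cfsg.Agent.Lib.Helper28.FR3

/-!
For a class `D` of 3-transpositions satisfying `FR3.TT`, the members of `D` other than `a`
commuting with `a` form one orbit of the subgroup they generate: the graph of non-commuting pairs
on them is connected.
-/

set_option autoImplicit false

namespace Cfsg.Agent.Lib.Helper28.FR3b

open Cfsg Cfsg.Agent.Lib.Helper28.FR3Words Cfsg.Agent.Lib.Helper28.FR3

universe u
variable {G : Type u} [Group G] {D : Set G}

/-- the other members commuting with `a`. -/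
def Da (D : Set G) (a : G) : Set G := {u | u ∈ D ∧ u ≠ a ∧ u * a = a * u}

/-- adjacency in the graph of non-commuting pairs on `Da D a`. -/
def NA (D : Set G) (a u v : G) : Prop := u ∈ Da D a ∧ v ∈ Da D a ∧ u * v ≠ v * u

/-- connectedness in the graph of non-commuting pairs on `Da D a`. -/
def NC (D : Set G) (a : G) : G → G → Prop := Relation.ReflTransGen (NA D a)

/-- the component of `y`. -/
def Cmp (D : Set G) (a y : G) : Set G := {v | NC D a y v}

theorem NC_mem {a y v : G} (hy : y ∈ Da D a) (h : NC D a y v) : v ∈ Da D a := by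
  induction h with
  | refl => exact hy
  | tail _ hbc _ => exact hbc.2.1

theorem Da_conj (T : TT D) (g : G) {a u : G} (hu : u ∈ Da D a) :
    g * u * g⁻¹ ∈ Da D (g * a * g⁻¹) := by
  obtain ⟨h1, h2, h3⟩ := hu
  refine ⟨T.conj g u h1, ?_, (conj_comm g u a).mpr h3⟩
  intro h
  apply h2
  exact mul_left_cancel (mul_right_cancel h)

theorem NA_conj (T : TT D) (g : G) {a u v : G} (h : NA D a u v) :
    NA D (g * a * g⁻¹) (g * u * g⁻¹) (g * v * g⁻¹) := by
  obtain ⟨h1, h2, h3⟩ := h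
  exact ⟨Da_conj T g h1, Da_conj T g h2, fun h => h3 ((conj_comm g u v).mp h)⟩

theorem NC_conj (T : TT D) (g : G) {a y v : G} (h : NC D a y v) :
    NC D (g * a * g⁻¹) (g * y * g⁻¹) (g * v * g⁻¹) := by
  induction h with
  | refl => exact Relation.ReflTransGen.refl
  | tail _ hbc ih => exact Relation.ReflTransGen.tail ih (NA_conj T g hbc)

theorem Cmp_conj (T : TT D) (g a y : G) :
    Cmp D (g * a * g⁻¹) (g * y * g⁻¹) = (fun d => g * d * g⁻¹) '' Cmp D a y := by
  apply image_conj_eq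
  intro d
  constructor
  · intro h
    have h' := NC_conj T g⁻¹ h
    have e1 : g⁻¹ * (g * a * g⁻¹) * g⁻¹⁻¹ = a := by group
    have e2 : g⁻¹ * (g * y * g⁻¹) * g⁻¹⁻¹ = y := by group
    have e3 : g⁻¹ * d * g⁻¹⁻¹ = g⁻¹ * d * g := by group
    rw [e1, e2, e3] at h'
    exact h'
  · intro h
    have h' := NC_conj T g h
    have e : g * (g⁻¹ * d * g) * g⁻¹ = d := by group
    rw [e] at h'
    exact h'

/-- all components have the same size. -/
theorem Cmp_ncard [Finite G] (T : TT D) {a y a' y' : G} (ha : a ∈ D) (ha' : a' ∈ D)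
    (hy : y ∈ Da D a) (hy' : y' ∈ Da D a') : (Cmp D a' y').ncard = (Cmp D a y).ncard := by
  obtain ⟨g, hg⟩ := T.trans a ha a' ha'
  have h1 : g * y * g⁻¹ ∈ Da D a' := by
    have h := Da_conj T g hy
    rw [hg] at h
    exact h
  obtain ⟨k, hk, hk2⟩ := goal2 T ha' h1.1 hy'.1 h1.2.2 hy'.2.2 h1.2.1 hy'.2.1
  have e1 : (k * g) * a * (k * g)⁻¹ = a' := by
    calc (k * g) * a * (k * g)⁻¹ = k * (g * a * g⁻¹) * k⁻¹ := by group
      _ = k * a' * k⁻¹ := by rw [hg]
      _ = a' := conj_fix hk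
  have e2 : (k * g) * y * (k * g)⁻¹ = y' := by
    calc (k * g) * y * (k * g)⁻¹ = k * (g * y * g⁻¹) * k⁻¹ := by group
      _ = y' := hk2
  have e3 := Cmp_conj T (k * g) a y
  rw [e1, e2] at e3
  rw [e3, ncard_conj]

/-- a component of `Da D d` avoiding `x ∈ Da D d` is a component of `Da D x`. -/
theorem key [Finite G] (T : TT D) {d θ x : G} (hd : d ∈ D) (hθ : θ ∈ Da D d) (hx : x ∈ Da D d)
    (hxn : ¬ NC D d θ x) : θ ∈ Da D x ∧ Cmp D x θ = Cmp D d θ := by
  have hdx : d ∈ Da D x := ⟨hd, fun h => hx.2.1 h.symm, hx.2.2.symm⟩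
  have h1 : ∀ v, NC D d θ v → v ∈ Da D x := by
    intro v hv
    have hvd := NC_mem hθ hv
    refine ⟨hvd.1, ?_, ?_⟩
    · intro h
      rw [h] at hv
      exact hxn hv
    · by_contra hne
      exact hxn (Relation.ReflTransGen.tail hv ⟨hvd, hx, hne⟩)
  have hθx : θ ∈ Da D x := h1 θ Relation.ReflTransGen.refl
  have h2 : ∀ v, NC D d θ v → NC D x θ v := by
    intro v hv
    induction hv with
    | refl => exact Relation.ReflTransGen.refl
    | tail hab hbc ih =>
      exact Relation.ReflTransGen.tail ih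
        ⟨h1 _ hab, h1 _ (Relation.ReflTransGen.tail hab hbc), hbc.2.2⟩
  have h3 : ¬ NC D x θ d := by
    intro hcon
    have hsub : insert d (Cmp D d θ) ⊆ Cmp D x θ := by
      intro v hv
      rcases hv with h | h
      · rw [h]; exact hcon
      · exact h2 v h
    have hdn : d ∉ Cmp D d θ := fun h => (NC_mem hθ h).2.1 rfl
    have hc1 : (insert d (Cmp D d θ)).ncard = (Cmp D d θ).ncard + 1 :=
      Set.ncard_insert_of_notMem hdn (Set.toFinite _)
    have hc2 : (insert d (Cmp D d θ)).ncard ≤ (Cmp D x θ).ncard :=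
      Set.ncard_le_ncard hsub (Set.toFinite _)
    have hc3 : (Cmp D x θ).ncard = (Cmp D d θ).ncard := Cmp_ncard T hd hx.1 hθ hθx
    omega
  have h4 : ∀ v, NC D x θ v → v ∈ Da D d := by
    intro v hv
    have hvx := NC_mem hθx hv
    refine ⟨hvx.1, ?_, ?_⟩
    · intro h
      rw [h] at hv
      exact h3 hv
    · by_contra hne
      exact h3 (Relation.ReflTransGen.tail hv ⟨hvx, hdx, hne⟩)
  have h5 : ∀ v, NC D x θ v → NC D d θ v := by
    intro v hv
    induction hv with
    | refl => exact Relation.ReflTransGen.refl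
    | tail hab hbc ih =>
      exact Relation.ReflTransGen.tail ih
        ⟨h4 _ hab, h4 _ (Relation.ReflTransGen.tail hab hbc), hbc.2.2⟩
  refine ⟨hθx, ?_⟩
  ext v
  exact ⟨h5 v, h2 v⟩

/-- the graph of non-commuting pairs on `Da D a` is connected. -/
theorem connected [Finite G] (T : TT D) {a θ x0 : G} (ha : a ∈ D) (hθ : θ ∈ Da D a)
    (hx0 : x0 ∈ Da D a) : NC D a θ x0 := by
  by_contra hcon
  obtain ⟨S, hS⟩ : ∃ S : Set G, S = {d | d ∈ D ∧ θ ∈ Da D d ∧ Cmp D d θ = Cmp D a θ} :=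
    ⟨_, rfl⟩
  have hSmem : ∀ d, d ∈ S ↔ (d ∈ D ∧ θ ∈ Da D d ∧ Cmp D d θ = Cmp D a θ) := by
    intro d; rw [hS]; exact Iff.rfl
  have hSD : S ⊆ D := fun d hd => ((hSmem d).mp hd).1
  have haS : a ∈ S := (hSmem a).mpr ⟨ha, hθ, rfl⟩
  have hstep : ∀ d ∈ S, ∀ x ∈ Da D d, ¬ NC D a θ x → x ∈ S := by
    intro d hd x hx hxn
    obtain ⟨hdD, hθd, hcmp⟩ := (hSmem d).mp hd
    have hxn' : ¬ NC D d θ x := by
      intro h
      apply hxn
      have h' : x ∈ Cmp D d θ := h
      rw [hcmp] at h'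
      exact h'
    obtain ⟨k1, k2⟩ := key T hdD hθd hx hxn'
    exact (hSmem x).mpr ⟨hx.1, k1, k2.trans hcmp⟩
  have hx0S : x0 ∈ S := hstep a haS x0 hx0 hcon
  have hmod : ∀ e ∈ D, e ∉ S → (∀ y ∈ S, e * y = y * e) ∨ (∀ y ∈ S, e * y ≠ y * e) := by
    intro e he heS
    by_cases hee : NC D a θ e
    · left
      intro y hy
      obtain ⟨hyD, hθy, hcmp⟩ := (hSmem y).mp hy
      have h' : e ∈ Cmp D y θ := by rw [hcmp]; exact hee
      exact (NC_mem hθy h').2.2
    · right
      intro y hy hc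
      apply heS
      have hey : e ≠ y := by
        intro h
        rw [h] at heS
        exact heS hy
      exact hstep y hy e ⟨he, hey, hc⟩ hee
  have hSeq := T.nomod S hSD hmod ⟨a, haS, x0, hx0S, fun h => hx0.2.1 h.symm⟩
  have hθS : θ ∈ S := by rw [hSeq]; exact hθ.1
  exact ((hSmem θ).mp hθS).2.1.2.1 rfl

theorem conj_of_NC (T : TT D) {a y y' : G} (h : NC D a y y') :
    ∃ g ∈ Subgroup.closure (Da D a), g * y * g⁻¹ = y' := by
  induction h with
  | refl => exact ⟨1, Subgroup.one_mem _, by group⟩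
  | @tail b c _ hbc ih =>
    obtain ⟨g, hg, e⟩ := ih
    obtain ⟨hu, hv, hne⟩ := hbc
    obtain ⟨e1, -⟩ := s3_swap (T.sq _ hu.1) (T.sq _ hv.1) (T.br _ hu.1 _ hv.1 hne)
    refine ⟨(b * c * b) * g, Subgroup.mul_mem _ (Subgroup.mul_mem _ (Subgroup.mul_mem _
      (Subgroup.subset_closure hu) (Subgroup.subset_closure hv)) (Subgroup.subset_closure hu))
      hg, ?_⟩
    calc (b * c * b) * g * y * ((b * c * b) * g)⁻¹
        = (b * c * b) * (g * y * g⁻¹) * (b * c * b)⁻¹ := by group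
      _ = (b * c * b) * b * (b * c * b)⁻¹ := by rw [e]
      _ = c := e1

/-- **the other members commuting with `a` form one class of the subgroup they generate**. -/
theorem single_class [Finite G] (T : TT D) {a : G} (ha : a ∈ D) :
    ∀ y ∈ Da D a, ∀ y' ∈ Da D a, ∃ g ∈ Subgroup.closure (Da D a), g * y * g⁻¹ = y' :=
  fun _ hy _ hy' => conj_of_NC T (connected T ha hy hy')

end Cfsg.Agent.Lib.Helper28.FR3b
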