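import Cfsg.Agent.Lib.Helper28.FR3Glue
import Cfsg.Agent.Lib.Helper28.FR3b

/-!
Under Fischer's hypotheses (no solvable normal subgroup, perfect commutator subgroup) a class of
3-transpositions with a commuting pair is primitive, and the members commuting with a given member
form one class of the subgroup they generate.
-/

set_option autoImplicit false

namespace Cfsg.Agent.Lib.Helper28.FR3Glue2

open Cfsg Subgroup Cfsg.Agent.Lib.Helper21.W3Basic Cfsg.Agent.Lib.Helper21.W3Main
  Cfsg.Agent.Lib.Helper21.W3Apps Cfsg.Agent.Lib.Helper21.W3Class Cfsg.Agent.Lib.Helper50.Cores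
  Cfsg.Agent.Lib.Helper21.W3Layer Cfsg.Agent.Lib.Helper21.W3Tri Cfsg.Agent.Lib.Helper21.W3Comp
  Cfsg.Agent.Lib.Helper21.W3Prim Cfsg.Agent.Lib.Helper21.W3Simple Cfsg.Agent.Lib.Helper21.W3Max
  Cfsg.Agent.Lib.Helper28.FR3Glue

universe u
variable {G : Type u} [Group G]

/-- a solvable subgroup which is its own commutator subgroup is trivial. -/
theorem eq_bot_of_perfect_solvable {Q : Type u} [Group Q] {H : Subgroup Q}
    (hsol : Group.IsSolvable H) (hperf : ⁅H, H⁆ = H) : H = ⊥ := by
  by_contra hne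
  have hnt : Nontrivial H := (Subgroup.nontrivial_iff_ne_bot H).mpr hne
  have hlt : commutator H < ⊤ := Group.IsSolvable.commutator_lt_top_of_nontrivial H
  have hmap : (commutator H).map H.subtype = ⁅H, H⁆ := Subgroup.map_subtype_commutator H
  rw [hperf] at hmap
  have htop : commutator H = ⊤ := by
    apply Subgroup.map_injective H.subtype_injective
    rw [hmap, ← MonoidHom.range_eq_map, Subgroup.range_subtype]
  exact hlt.ne htop

/-- the class maps onto a class of width one in the quotient. -/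
theorem isW_quot {D : Set G} (hG : IsThreeTranspositionGroup D) {L : Subgroup G} [L.Normal]
    (hcomm : ∀ a ∈ D, ∀ b ∈ D, a * b * a⁻¹ * b⁻¹ ∈ L → a⁻¹ * b ∈ L) :
    IsW ((QuotientGroup.mk' L) '' D) := by
  refine ⟨?_, ?_, ?_, ?_⟩
  · rintro _ ⟨a, ha, rfl⟩
    rw [← map_mul, tt_sq hG.1 ha, map_one]
  · rintro _ ⟨a, ha, rfl⟩ _ ⟨b, hb, rfl⟩
    rcases tt_cases hG.1 ha hb with h | h
    · have hab : a⁻¹ * b ∈ L := by
        apply hcomm a ha b hb
        have e : a * b * a⁻¹ * b⁻¹ = 1 := by rw [h]; group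
        rw [e]; exact L.one_mem
      have heq : (QuotientGroup.mk' L) a = (QuotientGroup.mk' L) b := QuotientGroup.eq.mpr hab
      rw [heq, ← map_mul, tt_sq hG.1 hb, map_one, one_pow]
    · rw [← map_mul, ← map_pow, h, map_one]
  · intro q x hx
    obtain ⟨g, rfl⟩ := QuotientGroup.mk'_surjective L q
    obtain ⟨a, ha, rfl⟩ := hx
    exact ⟨g * a * g⁻¹, hG.2.1 g a ha, by rw [map_mul, map_mul, map_inv]⟩
  · rw [← MonoidHom.map_closure, hG.2.2, ← MonoidHom.range_eq_map]
    exact MonoidHom.range_eq_top.mpr (QuotientGroup.mk'_surjective L)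

theorem KK_map_le {D : Set G} (L : Subgroup G) [L.Normal] :
    (KK D).map (QuotientGroup.mk' L) ≤ KK ((QuotientGroup.mk' L) '' D) := by
  unfold KK
  rw [MonoidHom.map_closure]
  apply Subgroup.closure_mono
  rintro _ ⟨x, ⟨a, ha, b, hb, rfl⟩, rfl⟩
  exact ⟨_, ⟨a, ha, rfl⟩, _, ⟨b, hb, rfl⟩, map_mul _ a b⟩

/-- primitivity under Fischer's hypotheses. -/
theorem prim_of_fischer [Finite G] {D : Set G}
    (hsol : ∀ N : Subgroup G, N.Normal → Group.IsSolvable ↥N → N = ⊥)
    (hperf : ⁅commutator G, commutator G⁆ = commutator G) (hD : IsThreeTranspositionClass D)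
    (hw : ∃ a ∈ D, ∃ b ∈ D, a ≠ b ∧ Commute a b) : IsPrimitiveUnderConj D := by
  have hG := class_to_group hD
  have hD2 : ∃ a ∈ D, ∃ b ∈ D, a ≠ b := by
    obtain ⟨a, ha, b, hb, hab, -⟩ := hw; exact ⟨a, ha, b, hb, hab⟩
  have hcore : ∀ (p : ℕ) [Fact p.Prime] (N : Subgroup G), N.Normal → IsPGroup p N →
      N ≤ center G := by
    intro p _ N hN hNp
    have hnil : Group.IsNilpotent N := hNp.isNilpotent
    have hsolN : Group.IsSolvable N := inferInstance
    rw [hsol N hN hsolN]
    exact bot_le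
  have h2 : pCore 2 G ≤ center G := hcore 2 _ (pCore_normal 2 (G := G)) (pCore_isPGroup 2)
  have h3 : pCore 3 G ≤ center G := hcore 3 _ (pCore_normal 3 (G := G)) (pCore_isPGroup 3)
  obtain ⟨L, hLn, hL, hF, hL'⟩ := main hD hD2 h2 h3
  have hidx : L.index ≤ 2 := by
    rcases hL' with htop | hcomm
    · rw [htop, index_top]; norm_num
    · obtain ⟨d, hd, -⟩ := hD.2.1
      have hd2 := tt_sq hG.1 hd
      have hKn : (KK D).Normal := KK_normal hG.2.1
      have hdaK : ∀ x ∈ D, d⁻¹ * x ∈ KK D := by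
        intro x hx
        rw [inv_of_sq hd2]
        exact Subgroup.subset_closure ⟨d, hd, x, hx, rfl⟩
      have hle : commutator G ≤ KK D :=
        commutator_le_of_index (index_le_two_of_coset (coset_dichotomy hG hKn hd hdaK))
      have hW : IsW ((QuotientGroup.mk' L) '' D) := isW_quot hG hcomm
      have hp : IsPGroup 3 (KK ((QuotientGroup.mk' L) '' D)) := width_one hW
      have hle2 : (commutator G).map (QuotientGroup.mk' L) ≤
          KK ((QuotientGroup.mk' L) '' D) :=
        (Subgroup.map_mono hle).trans (KK_map_le L)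
      have : Fact (Nat.Prime 3) := ⟨by norm_num⟩
      have hp2 : IsPGroup 3 ((commutator G).map (QuotientGroup.mk' L)) := hp.to_le hle2
      have hnil : Group.IsNilpotent ((commutator G).map (QuotientGroup.mk' L)) :=
        hp2.isNilpotent
      have hsol2 : Group.IsSolvable ((commutator G).map (QuotientGroup.mk' L)) := inferInstance
      have hperf2 : ⁅(commutator G).map (QuotientGroup.mk' L),
          (commutator G).map (QuotientGroup.mk' L)⁆ = (commutator G).map (QuotientGroup.mk' L) := by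
        rw [← Subgroup.map_commutator, hperf]
      have hbot := eq_bot_of_perfect_solvable hsol2 hperf2
      have hCL : commutator G ≤ L := by
        intro x hx
        have hmem : (QuotientGroup.mk' L) x ∈ (commutator G).map (QuotientGroup.mk' L) :=
          Subgroup.mem_map_of_mem _ hx
        rw [hbot, Subgroup.mem_bot] at hmem
        exact (QuotientGroup.eq_one_iff x).mp hmem
      have hda : ∀ x ∈ D, d⁻¹ * x ∈ L := by
        intro x hx
        apply hCL
        obtain ⟨c, rfl⟩ := conj_of_class hD hd hx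
        have e : d⁻¹ * (c * d * c⁻¹) = d⁻¹ * c * d⁻¹⁻¹ * c⁻¹ := by group
        rw [e, commutator_def, ← commutatorElement_def]
        exact Subgroup.commutator_mem_commutator (mem_top _) (mem_top _)
      exact index_le_two_of_coset (coset_dichotomy hG hLn hd hda)
  exact primitive_of_index hD hD2 h2 h3 L hLn hL hF hidx

/-- **the members commuting with `x` form one class of the subgroup they generate**. -/
theorem fischer_dx [Finite G] (hsol : ∀ N : Subgroup G, N.Normal → Group.IsSolvable ↥N → N = ⊥)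
    (hperf : ⁅commutator G, commutator G⁆ = commutator G) {D : Set G}
    (hD : IsThreeTranspositionClass D) (x : G) (hx : x ∈ D) :
    ∀ y ∈ {y : G | y ∈ D ∧ y ≠ x ∧ Commute x y}, ∀ y' ∈ {y : G | y ∈ D ∧ y ≠ x ∧ Commute x y},
      ∃ g ∈ Subgroup.closure {y : G | y ∈ D ∧ y ≠ x ∧ Commute x y}, g * y * g⁻¹ = y' := by
  intro y hy y' hy'
  have hw : ∃ a ∈ D, ∃ b ∈ D, a ≠ b ∧ Commute a b :=
    ⟨x, hx, y, hy.1, fun h => hy.2.1 h.symm, hy.2.2⟩
  have hprim := prim_of_fischer hsol hperf hD hw
  have T := tt_of_prim hD hprim hw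
  have hset : {y : G | y ∈ D ∧ y ≠ x ∧ Commute x y} = FR3b.Da D x := by
    ext z
    constructor
    · rintro ⟨h1, h2, h3⟩; exact ⟨h1, h2, h3.eq.symm⟩
    · rintro ⟨h1, h2, h3⟩; exact ⟨h1, h2, h3.symm⟩
  rw [hset] at hy hy' ⊢
  exact FR3b.single_class T hx y hy y' hy'

end Cfsg.Agent.Lib.Helper28.FR3Glue2
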