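import Cfsg.Agent.Lib.Helper28.FR3Glue2

/-!
Commuting sets of 3-transpositions of maximum size: the normaliser contains a Sylow 2-subgroup and
is doubly transitive on the set.
-/

set_option autoImplicit false

namespace Cfsg.Agent.Lib.Helper28.FR3c

open Cfsg Subgroup Cfsg.Agent.Lib.Helper21.W3Basic Cfsg.Agent.Lib.Helper21.W3Main
  Cfsg.Agent.Lib.Helper21.W3Apps Cfsg.Agent.Lib.Helper21.W3Class Cfsg.Agent.Lib.Helper50.Cores
  Cfsg.Agent.Lib.Helper21.W3Layer Cfsg.Agent.Lib.Helper21.W3Tri Cfsg.Agent.Lib.Helper21.W3Comp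
  Cfsg.Agent.Lib.Helper21.W3Prim Cfsg.Agent.Lib.Helper21.W3Simple Cfsg.Agent.Lib.Helper21.W3Max
  Cfsg.Agent.Lib.Helper28.FR3Glue Cfsg.Agent.Lib.Helper28.FR3Glue2

universe u
variable {G : Type u} [Group G]

/-- two members of `D` in a 2-subgroup commute. -/
theorem comm_of_mem_two {D : Set G} (hG : IsThreeTranspositionGroup D) {S : Subgroup G}
    (hS : IsPGroup 2 S) {a b : G} (ha : a ∈ D) (hb : b ∈ D) (haS : a ∈ S) (hbS : b ∈ S) :
    a * b = b * a := by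
  rcases tt_cases hG.1 ha hb with h | h
  · exact h
  · obtain ⟨k, hk⟩ := hS ⟨a * b, S.mul_mem haS hbS⟩
    have hk' : (a * b) ^ 2 ^ k = 1 := congrArg Subtype.val hk
    have h1 : orderOf (a * b) ∣ 2 ^ k := orderOf_dvd_of_pow_eq_one hk'
    have h2 : orderOf (a * b) ∣ 3 := orderOf_dvd_of_pow_eq_one h
    have hco : Nat.Coprime (2 ^ k) 3 := Nat.Coprime.pow_left k (by norm_num)
    have h3 : orderOf (a * b) = 1 := Nat.eq_one_of_dvd_coprimes hco h1 h2
    have h4 : a * b = 1 := orderOf_eq_one_iff.mp h3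
    have h5 : a = b := by
      have h6 := eq_inv_of_mul_eq_one_left h4
      rw [h6, tt_inv hG.1 hb]
    rw [h5]

/-- a commuting set of maximum size is the set of members of `D` in any 2-subgroup containing
it. -/
theorem max_eq_inter [Finite G] {D : Set G} (hG : IsThreeTranspositionGroup D) {E : Set G}
    (hmax : ∀ E' : Set G, E' ⊆ D → (∀ a ∈ E', ∀ b ∈ E', Commute a b) → E'.ncard ≤ E.ncard)
    {S : Subgroup G} (hS : IsPGroup 2 S) (hES : ∀ e ∈ E, e ∈ D ∧ e ∈ S) :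
    E = {x | x ∈ D ∧ x ∈ S} := by
  apply Set.eq_of_subset_of_ncard_le (fun e he => hES e he) _ (Set.toFinite _)
  apply hmax
  · exact fun x hx => hx.1
  · intro a ha b hb
    exact comm_of_mem_two hG hS ha.1 hb.1 ha.2 hb.2

/-- a commuting subset of `D` generates a 2-group. -/
theorem closure_two_group {D : Set G} (hG : IsThreeTranspositionGroup D) {E : Set G}
    (hE : E ⊆ D) (hc : ∀ a ∈ E, ∀ b ∈ E, Commute a b) : IsPGroup 2 (closure E) := by
  have h1 : closure E ≤ centralizer E := by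
    rw [closure_le]
    intro x hx
    exact mem_centralizer_iff.mpr (fun y hy => (hc y hy x hx).eq)
  have h2 : closure E ≤ centralizer (centralizer E : Set G) :=
    Subgroup.closure_le_centralizer_centralizer E
  have hsq : ∀ g ∈ closure E, g * g = 1 := by
    intro g hg
    induction hg using Subgroup.closure_induction with
    | mem x hx => exact tt_sq hG.1 (hE hx)
    | one => rw [one_mul]
    | mul x y hx hy ihx ihy =>
      have hxy : x * y = y * x := mem_centralizer_iff.mp (h2 hy) x (h1 hx)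
      calc x * y * (x * y) = x * (y * x) * y := by group
        _ = x * (x * y) * y := by rw [hxy]
        _ = (x * x) * (y * y) := by group
        _ = 1 := by rw [ihx, ihy, one_mul]
    | inv x hx ihx =>
      calc x⁻¹ * x⁻¹ = (x * x)⁻¹ := by group
        _ = 1 := by rw [ihx, inv_one]
  intro g
  refine ⟨1, ?_⟩
  apply Subtype.ext
  rw [pow_one, pow_two]
  exact hsq g.1 g.2

/-- the normaliser of a commuting set of maximum size contains a Sylow 2-subgroup. -/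
theorem sylow_le_normalizer [Finite G] {D : Set G} (hD : IsThreeTranspositionClass D)
    {E : Set G} (hE : E ⊆ D) (hc : ∀ a ∈ E, ∀ b ∈ E, Commute a b)
    (hmax : ∀ E' : Set G, E' ⊆ D → (∀ a ∈ E', ∀ b ∈ E', Commute a b) → E'.ncard ≤ E.ncard) :
    ∃ P : Sylow 2 G, (P : Subgroup G) ≤ Subgroup.normalizer E := by
  have hG := class_to_group hD
  have : Fact (Nat.Prime 2) := ⟨Nat.prime_two⟩
  obtain ⟨P, hP⟩ := (closure_two_group hG hE hc).exists_le_sylow
  have hEq := max_eq_inter hG hmax P.isPGroup'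
    (fun e he => ⟨hE he, hP (subset_closure he)⟩)
  refine ⟨P, ?_⟩
  intro g hg
  rw [Subgroup.mem_set_normalizer_iff]
  intro n
  rw [hEq]
  constructor
  · rintro ⟨h1, h2⟩
    exact ⟨hG.2.1 g n h1, mul_mem (mul_mem hg h2) (inv_mem hg)⟩
  · rintro ⟨h1, h2⟩
    refine ⟨?_, ?_⟩
    · have h3 := hG.2.1 g⁻¹ _ h1
      have e : g⁻¹ * (g * n * g⁻¹) * g⁻¹⁻¹ = n := by group
      rw [e] at h3
      exact h3
    · have h3 : g⁻¹ * (g * n * g⁻¹) * g ∈ (P : Subgroup G) :=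
        mul_mem (mul_mem (inv_mem hg) h2) hg
      have e : g⁻¹ * (g * n * g⁻¹) * g = n := by group
      rw [e] at h3
      exact h3

/-- transitivity on the ordered pairs of distinct commuting members. -/
theorem pair_trans [Finite G] {D : Set G} (T : FR3.TT D) {a b c d : G} (ha : a ∈ D)
    (hb : b ∈ D) (hc : c ∈ D) (hd : d ∈ D) (hab : a ≠ b) (hcd : c ≠ d) (h1 : a * b = b * a)
    (h2 : c * d = d * c) : ∃ g : G, g * a * g⁻¹ = c ∧ g * b * g⁻¹ = d := by
  obtain ⟨g, hg⟩ := T.trans a ha c hc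
  have hb' : g * b * g⁻¹ ∈ D := T.conj g b hb
  have hbc : (g * b * g⁻¹) * c = c * (g * b * g⁻¹) := by
    rw [← hg]; exact (FR3.conj_comm g b a).mpr h1.symm
  have hne : g * b * g⁻¹ ≠ c := by
    rw [← hg]; intro h; exact hab (mul_left_cancel (mul_right_cancel h)).symm
  obtain ⟨k, hk, hk2⟩ := FR3.goal2 T hc hb' hd hbc h2.symm hne (Ne.symm hcd)
  refine ⟨k * g, ?_, ?_⟩
  · calc (k * g) * a * (k * g)⁻¹ = k * (g * a * g⁻¹) * k⁻¹ := by group
      _ = k * c * k⁻¹ := by rw [hg]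
      _ = c := FR3.conj_fix hk
  · calc (k * g) * b * (k * g)⁻¹ = k * (g * b * g⁻¹) * k⁻¹ := by group
      _ = d := hk2

/-- the normaliser of a commuting set of maximum size is doubly transitive on it. -/
theorem two_trans [Finite G] {D : Set G} (hD : IsThreeTranspositionClass D) (T : FR3.TT D)
    {E : Set G} (hE : E ⊆ D) (hc : ∀ a ∈ E, ∀ b ∈ E, Commute a b)
    (hmax : ∀ E' : Set G, E' ⊆ D → (∀ a ∈ E', ∀ b ∈ E', Commute a b) → E'.ncard ≤ E.ncard)
    {a b c d : G} (ha : a ∈ E) (hb : b ∈ E) (hc' : c ∈ E) (hd : d ∈ E) (hab : a ≠ b)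
    (hcd : c ≠ d) : ∃ g ∈ Subgroup.normalizer E, g * a * g⁻¹ = c ∧ g * b * g⁻¹ = d := by
  have hG := class_to_group hD
  have : Fact (Nat.Prime 2) := ⟨Nat.prime_two⟩
  obtain ⟨g0, hg1, hg2⟩ := pair_trans T (hE ha) (hE hb) (hE hc') (hE hd) hab hcd
    (hc a ha b hb).eq (hc c hc' d hd).eq
  -- the conjugate set
  obtain ⟨E1, hE1⟩ : ∃ E1 : Set G, E1 = (fun x => g0 * x * g0⁻¹) '' E := ⟨_, rfl⟩
  have hE1D : E1 ⊆ D := by
    rw [hE1]; rintro _ ⟨x, hx, rfl⟩; exact hG.2.1 g0 x (hE hx)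
  have hE1c : ∀ x ∈ E1, ∀ y ∈ E1, Commute x y := by
    rw [hE1]; rintro _ ⟨x, hx, rfl⟩ _ ⟨y, hy, rfl⟩
    exact (FR3.conj_comm g0 x y).mpr (hc x hx y hy).eq
  have hE1card : E1.ncard = E.ncard := by rw [hE1]; exact FR3.ncard_conj g0 E
  have hmax1 : ∀ E' : Set G, E' ⊆ D → (∀ a ∈ E', ∀ b ∈ E', Commute a b) →
      E'.ncard ≤ E1.ncard := by
    intro E' h1 h2; rw [hE1card]; exact hmax E' h1 h2
  have hcE1 : c ∈ E1 := by rw [hE1]; exact ⟨a, ha, hg1⟩
  have hdE1 : d ∈ E1 := by rw [hE1]; exact ⟨b, hb, hg2⟩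
  have hE1mem : ∀ n, n ∈ E ↔ g0 * n * g0⁻¹ ∈ E1 := by
    intro n; rw [hE1]; constructor
    · intro hn; exact ⟨n, hn, rfl⟩
    · rintro ⟨m, hm, hmn⟩
      have hmn' : m = n := mul_left_cancel (mul_right_cancel hmn)
      rw [← hmn']; exact hm
  -- the centraliser of c and d
  obtain ⟨H, hH⟩ : ∃ H : Subgroup G, H = Subgroup.centralizer ({c, d} : Set G) := ⟨_, rfl⟩
  have hHmem : ∀ x : G, x ∈ H ↔ (c * x = x * c ∧ d * x = x * d) := by
    intro x; rw [hH, Subgroup.mem_centralizer_iff]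
    constructor
    · intro h; exact ⟨h c (Set.mem_insert _ _), h d (Set.mem_insert_of_mem _ rfl)⟩
    · rintro ⟨h1, h2⟩ y hy
      rcases hy with hy | hy
      · rw [hy]; exact h1
      · rw [Set.mem_singleton_iff.mp hy]; exact h2
  -- a commuting set of maximum size containing c, d is cut out by a Sylow 2-subgroup of H
  have key : ∀ F : Set G, F ⊆ D → (∀ x ∈ F, ∀ y ∈ F, Commute x y) →
      (∀ E' : Set G, E' ⊆ D → (∀ a ∈ E', ∀ b ∈ E', Commute a b) → E'.ncard ≤ F.ncard) →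
      c ∈ F → d ∈ F →
      ∃ Q : Sylow 2 H, F = {x | x ∈ D ∧ x ∈ (Q : Subgroup H).map H.subtype} := by
    intro F hFD hFc hFmax hcF hdF
    have hFH : closure F ≤ H := by
      rw [closure_le]; intro x hx
      exact (hHmem x).mpr ⟨(hFc c hcF x hx).eq, (hFc d hdF x hx).eq⟩
    have hK : IsPGroup 2 ((closure F).subgroupOf H) :=
      (closure_two_group hG hFD hFc).comap_subtype
    obtain ⟨Q, hQ⟩ := hK.exists_le_sylow
    refine ⟨Q, max_eq_inter hG hFmax (Q.isPGroup'.map H.subtype) ?_⟩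
    intro e he
    refine ⟨hFD he, ⟨⟨e, hFH (subset_closure he)⟩, hQ ?_, rfl⟩⟩
    exact Subgroup.mem_subgroupOf.mpr (subset_closure he)
  obtain ⟨Q, hQ⟩ := key E hE hc hmax hc' hd
  obtain ⟨Q1, hQ1⟩ := key E1 hE1D hE1c hmax1 hcE1 hdE1
  obtain ⟨h, hh⟩ := MulAction.exists_smul_eq H Q Q1
  have hQQ : ∀ y : H, y ∈ (Q1 : Subgroup H) ↔ h⁻¹ * y * h ∈ (Q : Subgroup H) := by
    intro y
    rw [← hh, Sylow.coe_subgroup_smul, Subgroup.mem_pointwise_smul_iff_inv_smul_mem,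
      MulAut.smul_def, MulAut.conj_inv_apply]
  have hmemS : ∀ x : G, x ∈ (Q1 : Subgroup H).map H.subtype ↔
      (h : G)⁻¹ * x * (h : G) ∈ (Q : Subgroup H).map H.subtype := by
    intro x
    constructor
    · rintro ⟨y, hy, rfl⟩
      exact ⟨h⁻¹ * y * h, (hQQ y).mp hy, rfl⟩
    · rintro ⟨y, hy, hyx⟩
      refine ⟨h * y * h⁻¹, (hQQ _).mpr ?_, ?_⟩
      · have e : h⁻¹ * (h * y * h⁻¹) * h = y := by group
        rw [e]; exact hy
      · have hyx' : (y : G) = (h : G)⁻¹ * x * (h : G) := hyx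
        show (h : G) * (y : G) * (h : G)⁻¹ = x
        rw [hyx']; group
  have hnorm : ∀ n, n ∈ E ↔ ((h : G)⁻¹ * g0) * n * ((h : G)⁻¹ * g0)⁻¹ ∈ E := by
    intro n
    have e : ((h : G)⁻¹ * g0) * n * ((h : G)⁻¹ * g0)⁻¹ =
        (h : G)⁻¹ * (g0 * n * g0⁻¹) * (h : G) := by group
    rw [e, hE1mem n]
    generalize g0 * n * g0⁻¹ = m
    have hm1 : m ∈ E1 ↔ (m ∈ D ∧ m ∈ (Q1 : Subgroup H).map H.subtype) := by
      rw [hQ1]; exact Iff.rfl
    have hm2 : (h : G)⁻¹ * m * (h : G) ∈ E ↔ ((h : G)⁻¹ * m * (h : G) ∈ D ∧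
        (h : G)⁻¹ * m * (h : G) ∈ (Q : Subgroup H).map H.subtype) := by
      rw [hQ]; exact Iff.rfl
    rw [hm1, hm2, hmemS m, FR3.conj_mem_iff T]
  have hhc := (hHmem (h : G)).mp h.2
  refine ⟨(h : G)⁻¹ * g0, Subgroup.mem_set_normalizer_iff.mpr hnorm, ?_, ?_⟩
  · calc ((h : G)⁻¹ * g0) * a * ((h : G)⁻¹ * g0)⁻¹
        = (h : G)⁻¹ * (g0 * a * g0⁻¹) * (h : G) := by group
      _ = (h : G)⁻¹ * (c * (h : G)) := by rw [hg1]; group
      _ = (h : G)⁻¹ * ((h : G) * c) := by rw [hhc.1]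
      _ = c := by group
  · calc ((h : G)⁻¹ * g0) * b * ((h : G)⁻¹ * g0)⁻¹
        = (h : G)⁻¹ * (g0 * b * g0⁻¹) * (h : G) := by group
      _ = (h : G)⁻¹ * (d * (h : G)) := by rw [hg2]; group
      _ = (h : G)⁻¹ * ((h : G) * d) := by rw [hhc.2]
      _ = d := by group

/-- **the normaliser of a commuting set of maximum size**. -/
theorem fischer_max_commuting [Finite G]
    (hsol : ∀ N : Subgroup G, N.Normal → Group.IsSolvable ↥N → N = ⊥)
    (hperf : ⁅commutator G, commutator G⁆ = commutator G) {D : Set G}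
    (hD : IsThreeTranspositionClass D) {E : Set G} (hE : E ⊆ D)
    (hc : ∀ a ∈ E, ∀ b ∈ E, Commute a b)
    (hmax : ∀ E' : Set G, E' ⊆ D → (∀ a ∈ E', ∀ b ∈ E', Commute a b) → E'.ncard ≤ E.ncard) :
    (∃ P : Sylow 2 G, (P : Subgroup G) ≤ Subgroup.normalizer E) ∧
    ∀ a ∈ E, ∀ b ∈ E, ∀ c ∈ E, ∀ d ∈ E, a ≠ b → c ≠ d →
      ∃ g ∈ Subgroup.normalizer E, g * a * g⁻¹ = c ∧ g * b * g⁻¹ = d := by
  refine ⟨sylow_le_normalizer hD hE hc hmax, ?_⟩
  intro a ha b hb c hc' d hd hab hcd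
  have hw : ∃ a ∈ D, ∃ b ∈ D, a ≠ b ∧ Commute a b := ⟨a, hE ha, b, hE hb, hab, hc a ha b hb⟩
  have hprim := prim_of_fischer hsol hperf hD hw
  have T := tt_of_prim hD hprim hw
  exact two_trans hD T hE hc hmax ha hb hc' hd hab hcd

end Cfsg.Agent.Lib.Helper28.FR3c
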