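import Cfsg.Agent.Lib.Helper28.M11ST
import Cfsg.Agent.Lib.Helper28.TCJoin

set_option autoImplicit false
set_option Elab.async false

namespace Cfsg.Agent.Lib.Helper28.M11SC0

open Cfsg.Agent.Lib.Helper28.TCKernel Cfsg.Agent.Lib.Helper28.TCJoin Cfsg.Agent.Lib.Helper28.M11ST

theorem chk0 : allTree chkPt 4 0 = true := by decide +kernel
theorem chk : allTree chkPt 4 0 = true :=
  chk0

end Cfsg.Agent.Lib.Helper28.M11SC0
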