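import Mathlib

set_option autoImplicit false

namespace Cfsg.Agent.Lib.Helper28.M11SD0

def x0c0 : Nat := 0xa7392548601
def x0g0 : List Nat := [x0c0]

def x1c0 : Nat := 0x79a46381520
def x1g0 : List Nat := [x1c0]

def x2c0 : Nat := 0x894a6275130
def x2g0 : List Nat := [x2c0]

def x3c0 : Nat := 0xa1572834690
def x3g0 : List Nat := [x3c0]

def x4c0 : Nat := 0xa1572834690
def x4g0 : List Nat := [x4c0]

def x5c0 : Nat := 0xa1572834690
def x5g0 : List Nat := [x5c0]

def x6c0 : Nat := 0xa1572834690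
def x6g0 : List Nat := [x6c0]

def x7c0 : Nat := 0x894a6275130
def x7g0 : List Nat := [x7c0]

def x8c0 : Nat := 0x79a46381520
def x8g0 : List Nat := [x8c0]

def x9c0 : Nat := 0xa5894317620
def x9g0 : List Nat := [x9c0]

def x10c0 : Nat := 0xa7832965140
def x10g0 : List Nat := [x10c0]

def x11c0 : Nat := 0xa8769235410
def x11g0 : List Nat := [x11c0]

def x12c0 : Nat := 0xa6987324510
def x12g0 : List Nat := [x12c0]

def x13c0 : Nat := 0xa6987324510
def x13g0 : List Nat := [x13c0]

def x14c0 : Nat := 0xa8769235410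
def x14g0 : List Nat := [x14c0]

def x15c0 : Nat := 0x546a9387210
def x15g0 : List Nat := [x15c0]

def x16c0 : Nat := 0x76438a95210
def x16g0 : List Nat := [x16c0]

def x17c0 : Nat := 0x5782369a410
def x17g0 : List Nat := [x17c0]

def x18c0 : Nat := 0x34895a26710
def x18g0 : List Nat := [x18c0]

def x19c0 : Nat := 0x4758a936210
def x19g0 : List Nat := [x19c0]

def x20c0 : Nat := 0x657938a4210
def x20g0 : List Nat := [x20c0]

def x21c0 : Nat := 0x546a9387210
def x21g0 : List Nat := [x21c0]

def x22c0 : Nat := 0x76438a95210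
def x22g0 : List Nat := [x22c0]

def x23c0 : Nat := 0x3895476a210
def x23g0 : List Nat := [x23c0]

def x24c0 : Nat := 0x3895476a210
def x24g0 : List Nat := [x24c0]

def x25c0 : Nat := 0x93a47658210
def x25g0 : List Nat := [x25c0]

def x26c0 : Nat := 0x8a365479210
def x26g0 : List Nat := [x26c0]

def l0c0 : Nat := 0xc503f01c0d601409414510b08b002001
def l0g0 : List Nat := [l0c0]

def l1c0 : Nat := 0x3bc18a42354b1934cb50a38a40a001000
def l1g0 : List Nat := [l1c0]

def l2c0 : Nat := 0x82b8237a39128ab6125925a3001000000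
def l2g0 : List Nat := [l2c0]

def l3c0 : Nat := 0xb9ad1ac9aa9a99ab1aa1a001000000000
def l3g0 : List Nat := [l3c0]

end Cfsg.Agent.Lib.Helper28.M11SD0
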