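import Cfsg.Agent.Lib.Helper28.SGS
import Cfsg.Agent.Lib.Helper28.TM11NLT
import Cfsg.Agent.Lib.Helper28.M11SD0

set_option autoImplicit false

namespace Cfsg.Agent.Lib.Helper28.M11ST

open Cfsg.Agent.Lib.Helper28.TCKernel Cfsg.Agent.Lib.Helper28.SGS

def x0top : List (List Nat) := [M11SD0.x0g0]
def x1top : List (List Nat) := [M11SD0.x1g0]
def x2top : List (List Nat) := [M11SD0.x2g0]
def x3top : List (List Nat) := [M11SD0.x3g0]
def x4top : List (List Nat) := [M11SD0.x4g0]
def x5top : List (List Nat) := [M11SD0.x5g0]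
def x6top : List (List Nat) := [M11SD0.x6g0]
def x7top : List (List Nat) := [M11SD0.x7g0]
def x8top : List (List Nat) := [M11SD0.x8g0]
def x9top : List (List Nat) := [M11SD0.x9g0]
def x10top : List (List Nat) := [M11SD0.x10g0]
def x11top : List (List Nat) := [M11SD0.x11g0]
def x12top : List (List Nat) := [M11SD0.x12g0]
def x13top : List (List Nat) := [M11SD0.x13g0]
def x14top : List (List Nat) := [M11SD0.x14g0]
def x15top : List (List Nat) := [M11SD0.x15g0]
def x16top : List (List Nat) := [M11SD0.x16g0]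
def x17top : List (List Nat) := [M11SD0.x17g0]
def x18top : List (List Nat) := [M11SD0.x18g0]
def x19top : List (List Nat) := [M11SD0.x19g0]
def x20top : List (List Nat) := [M11SD0.x20g0]
def x21top : List (List Nat) := [M11SD0.x21g0]
def x22top : List (List Nat) := [M11SD0.x22g0]
def x23top : List (List Nat) := [M11SD0.x23g0]
def x24top : List (List Nat) := [M11SD0.x24g0]
def x25top : List (List Nat) := [M11SD0.x25g0]
def x26top : List (List Nat) := [M11SD0.x26g0]
def xq0 : List (List (List Nat)) := [x0top, x1top, x2top, x3top, x4top, x5top, x6top, x7top]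
def xq1 : List (List (List Nat)) := [x8top, x9top, x10top, x11top, x12top, x13top, x14top, x15top]
def xq2 : List (List (List Nat)) := [x16top, x17top, x18top, x19top, x20top, x21top, x22top, x23top]
def xq3 : List (List (List Nat)) := [x24top, x25top, x26top]
def xtops : List (List (List (List Nat))) := [xq0, xq1, xq2, xq3]
def l0top : List (List Nat) := [M11SD0.l0g0]
def l1top : List (List Nat) := [M11SD0.l1g0]
def l2top : List (List Nat) := [M11SD0.l2g0]
def l3top : List (List Nat) := [M11SD0.l3g0]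
def ltops : List (List (List Nat)) := [l0top, l1top, l2top, l3top]
def xt : Nat → Nat → Nat := fld4z xtops 4 0 0 15 4 15
def rk : Nat → Nat → Nat := fld3 ltops 4 0 0 15 12 0 7
def par : Nat → Nat → Nat := fld3 ltops 4 0 0 15 12 3 15
def sy : Nat → Nat → Nat := fld3 ltops 4 0 0 15 12 7 31
def lvl : List Nat := [1, 1, 1, 2, 2, 2, 2, 2, 2, 2, 2, 3, 3, 3, 3, 3, 3, 3, 3, 4, 4, 4, 4, 4, 4, 4, 4]
def lv : Nat → Nat := nthD 0 lvl
def bsl : List Nat := [0, 1, 2, 3]
def bs : Nat → Nat := nthD 0 bsl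
def nsl : List Nat := [11, 10, 9, 8]
def ns : Nat → Nat := nthD 0 nsl
def defs : List (List Nat) := [[0, 2, 0, 2, 0, 1, 0, 1, 0],
  [0, 2, 0, 2, 0, 1, 0, 1, 0],
  [2],
  [0, 1, 0, 1, 0, 2, 0],
  [3, 10, 7, 9, 8, 9, 4],
  [3, 10, 7, 10, 8, 9, 4],
  [7, 10, 10, 4],
  [10, 8, 9, 7, 9],
  [18, 16, 12, 12],
  [15],
  [11, 18],
  [12, 16, 12, 15, 11]]
def prs : List (List Nat × List Nat) := []
def cj : List (List Nat) := []
def wodd : List Nat := []
def chkPt (p : Nat) : Bool :=
  ptOK xt TM11NLT.tp rk par sy lv bs defs prs 3 4 11 p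

end Cfsg.Agent.Lib.Helper28.M11ST
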