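import Cfsg.Agent.Lib.Helper28.M11SC0

set_option autoImplicit false

namespace Cfsg.Agent.Lib.Helper28.M11SX

open Cfsg.Agent.Lib.Helper28.TCKernel Cfsg.Agent.Lib.Helper28.SGS

theorem chunk : ∀ k, k < 1 → allTree M11ST.chkPt 4 (k * 2 ^ 4) = true
  | 0, _ => M11SC0.chk
  | (k + 1), h => absurd h (by omega)

theorem checks : Checks 11 3 27 4 4 TM11NLT.tp M11ST.xt M11ST.rk M11ST.par M11ST.sy M11ST.lv M11ST.bs M11ST.ns
    M11ST.defs M11ST.prs where
  point := fun p hp => allTree_chunks M11ST.chkPt 4 1 chunk p (lt_of_lt_of_le hp (by decide))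
  hX := by decide
  bd := by decide +kernel
  pbd := by decide +kernel
  fix := by decide +kernel
  lvX := fun s hs => nthD_of_length_le 0 M11ST.lvl s (le_trans (by decide) hs)
  bsn := by decide +kernel
  cnt := by decide +kernel
  hd := by decide

theorem prod : prodN M11ST.ns 4 = 7920 := by decide +kernel

end Cfsg.Agent.Lib.Helper28.M11SX
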