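import Cfsg.Agent.Lib.Helper28.TCMainLe

/-!
Order bound for a presented group from the index of a cyclic subgroup generated by a word
one of whose powers is a relator.
-/

set_option autoImplicit false

namespace Cfsg.Agent.Lib.Helper28.PresCyc

open Cfsg.Spor Cfsg.Agent.Lib.Helper28.TCPres

theorem cyc_bound {G : Type*} [Group G] (H : Subgroup G) (n m : Nat)
    (hidx : H.index ≠ 0 ∧ H.index ≤ n) (hm : 0 < m) (x : G) (hx : x ^ m = 1)
    (hH : H = Subgroup.closure {x}) : Finite G ∧ Nat.card G ≤ n * m := by
  have hz : H = Subgroup.zpowers x := by rw [hH, Subgroup.zpowers_eq_closure]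
  have hdvd : orderOf x ∣ m := orderOf_dvd_of_pow_eq_one hx
  have hle : orderOf x ≤ m := Nat.le_of_dvd hm hdvd
  have hpos : 0 < orderOf x := Nat.pos_of_dvd_of_pos hdvd hm
  have hcard : Nat.card H = orderOf x := by rw [hz]; exact Nat.card_zpowers x
  have hfin : Finite H := Nat.finite_of_card_ne_zero (by rw [hcard]; omega)
  exact TCMainLe.card_le_of_index_le H n m hidx hfin (by rw [hcard]; exact hle)

/-- the image of the subgroup generated by one word. -/
theorem map_single_word {α : Type} [DecidableEq α] (edges : List (α × ℕ × α))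
    (extra : List (FreeGroup α)) (r : FreeGroup α) :
    (Subgroup.closure {s | s ∈ [r]}).map
        (PresentedGroup.mk (coxRelators edges ∪ {r | r ∈ extra})) =
      Subgroup.closure {(PresentedGroup.mk (coxRelators edges ∪ {r | r ∈ extra}) r :
        Grp edges extra)} := by
  rw [MonoidHom.map_closure]
  congr 1
  ext g
  constructor
  · rintro ⟨s, hs, rfl⟩
    have : s = r := by simpa using hs
    rw [this]; rfl
  · intro hg
    rw [Set.mem_singleton_iff] at hg
    exact ⟨r, by simp, hg.symm⟩

/-- a presented group with a cyclic subgroup `<r>`, `r ^ m` a relator, of index at most `n`. -/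
theorem pres_cyc_bound {α : Type} [DecidableEq α] (edges : List (α × ℕ × α))
    (extra : List (FreeGroup α)) (r : FreeGroup α) (n m : Nat) (hm : 0 < m)
    (hr : r ^ m ∈ extra)
    (hidx : ((Subgroup.closure {s | s ∈ [r]}).map
        (PresentedGroup.mk (coxRelators edges ∪ {r | r ∈ extra}))).index ≠ 0 ∧
      ((Subgroup.closure {s | s ∈ [r]}).map
        (PresentedGroup.mk (coxRelators edges ∪ {r | r ∈ extra}))).index ≤ n) :
    Finite (Grp edges extra) ∧ Nat.card (Grp edges extra) ≤ n * m := by
  refine cyc_bound _ n m hidx hm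
    (PresentedGroup.mk (coxRelators edges ∪ {r | r ∈ extra}) r) ?_ (map_single_word edges extra r)
  rw [← map_pow]
  exact PresentedGroup.one_of_mem (Or.inr hr)

end Cfsg.Agent.Lib.Helper28.PresCyc
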