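import Cfsg.Agent.Lib.Helper28.TM11NLT
import Cfsg.Agent.Lib.Helper28.TCJoin

set_option autoImplicit false
set_option Elab.async false

namespace Cfsg.Agent.Lib.Helper28.TM11NLC0

open Cfsg.Agent.Lib.Helper28.TCKernel Cfsg.Agent.Lib.Helper28.TCJoin Cfsg.Agent.Lib.Helper28.TM11NLT

theorem chk0 : allTree chkPoint 1 0 = true := by decide +kernel
theorem chk1 : allTree chkPoint 1 2 = true := by decide +kernel
theorem chk2 : allTree chkPoint 1 4 = true := by decide +kernel
theorem chk3 : allTree chkPoint 1 6 = true := by decide +kernel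
theorem chk4 : allTree chkPoint 1 8 = true := by decide +kernel
theorem chk5 : allTree chkPoint 1 10 = true := by decide +kernel
theorem chk6 : allTree chkPoint 1 12 = true := by decide +kernel
theorem chk7 : allTree chkPoint 1 14 = true := by decide +kernel
theorem chk : allTree chkPoint 4 0 = true :=
  (join chkPoint 3 0 (join chkPoint 2 0 (join chkPoint 1 0 chk0 chk1) (join chkPoint 1 4 chk2 chk3)) (join chkPoint 2 8 (join chkPoint 1 8 chk4 chk5) (join chkPoint 1 12 chk6 chk7)))

end Cfsg.Agent.Lib.Helper28.TM11NLC0
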