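import Cfsg.Agent.Lib.Helper28.TM11NUT
import Cfsg.Agent.Lib.Helper28.TCJoin

set_option autoImplicit false
set_option Elab.async false

namespace Cfsg.Agent.Lib.Helper28.TM11NUC0

open Cfsg.Agent.Lib.Helper28.TCKernel Cfsg.Agent.Lib.Helper28.TCJoin Cfsg.Agent.Lib.Helper28.TM11NUT

theorem chk0 : allTree chkName 2 0 = true := by decide +kernel
theorem chk1 : allTree chkName 2 4 = true := by decide +kernel
theorem chk2 : allTree chkName 2 8 = true := by decide +kernel
theorem chk3 : allTree chkName 2 12 = true := by decide +kernel
theorem chk4 : allTree chkName 2 16 = true := by decide +kernel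
theorem chk5 : allTree chkName 2 20 = true := by decide +kernel
theorem chk6 : allTree chkName 2 24 = true := by decide +kernel
theorem chk7 : allTree chkName 2 28 = true := by decide +kernel
theorem chk : allTree chkName 5 0 = true :=
  (join chkName 4 0 (join chkName 3 0 (join chkName 2 0 chk0 chk1) (join chkName 2 8 chk2 chk3)) (join chkName 3 16 (join chkName 2 16 chk4 chk5) (join chkName 2 24 chk6 chk7)))
theorem cnt : cntTree (aliveB dsig 18) 5 0 = 11 := by decide +kernel

end Cfsg.Agent.Lib.Helper28.TM11NUC0
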