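import Cfsg.Agent.Lib.Helper28.TCMain
import Cfsg.Agent.Lib.Helper28.PresM11p
import Cfsg.Agent.Lib.Helper28.TM11NUC0
import Cfsg.Agent.Lib.Helper28.TM11NLC0

set_option autoImplicit false

namespace Cfsg.Agent.Lib.Helper28.TM11NX

open Cfsg.Spor Cfsg.Agent.Lib.Helper28.TCKernel Cfsg.Agent.Lib.Helper28.TCSound Cfsg.Agent.Lib.Helper28.TCPerm Cfsg.Agent.Lib.Helper28.TCPres Cfsg.Agent.Lib.Helper28.TCMain

/-- the subgroup generators -/
def sgSrc : List (FreeGroup M11p.Gen) := [M11p.b, M11p.a * M11p.b * M11p.a * M11p.b * M11p.a * M11p.b⁻¹ * M11p.a]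

theorem chunkU : ∀ k, k < 1 → allTree TM11NUT.chkName 5 (k * 2 ^ 5) = true
  | 0, _ => TM11NUC0.chk
  | (k + 1), h => absurd h (by omega)

theorem chkU (v : Nat) : TM11NUT.chkName v = true := by
  rcases Nat.lt_or_ge v (2 ^ 5) with h | h
  · exact allTree_chunks TM11NUT.chkName 5 1 chunkU v h
  · exact chk_of_zero _ _ _ _ _ _ _ _ _ _ _ _ _ _ v
      (fun y => fld3_eq_zero _ _ _ _ _ _ _ _ y v 1 (by decide)
        (le_trans (by decide : 1 * 2 ^ (5 + 0) ≤ 2 ^ 5) h))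
      (fld1_eq_zero _ _ _ _ _ _ _ _ v
        (le_trans (by decide : TM11NUT.dtop.length * 2 ^ (5 + 0) ≤ 2 ^ 5) h))
      (le_trans (by decide : 18 ≤ 2 ^ 5) h)

theorem chunkL : ∀ k, k < 1 → allTree TM11NLT.chkPoint 4 (k * 2 ^ 4) = true
  | 0, _ => TM11NLC0.chk
  | (k + 1), h => absurd h (by omega)

theorem chkL (a : Nat) (ha : a < 11) : TM11NLT.chkPoint a = true :=
  allTree_chunks TM11NLT.chkPoint 4 1 chunkL a (lt_of_lt_of_le ha (by decide))

theorem permOK : PermChecks 11 TM11NLT.tp PresM11p.inv TM11NLT.pa TM11NLT.pl PresM11p.relW TM11NLT.sgW TM11NLT.tw 4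
    TM11NLT.roots 3 where
  point := fun a ha => chkL a ha
  invL := by decide +kernel
  wsL := by decide +kernel
  sgL := by decide +kernel
  twL := by decide +kernel
  root1 := by decide +kernel
  rootpos := by decide +kernel

/-- index and orbit structure of the subgroup -/
theorem final :
    ((Subgroup.closure {s | s ∈ sgSrc}).map (PresentedGroup.mk (coxRelators M11p.edges ∪ {r | r ∈ M11p.extra}))).index = 11 ∧
    ∃ ψ : (PresentedGroup (coxRelators M11p.edges ∪ {r | r ∈ M11p.extra})) ⧸ ((Subgroup.closure {s | s ∈ sgSrc}).map (PresentedGroup.mk (coxRelators M11p.edges ∪ {r | r ∈ M11p.extra}))) → Fin 11,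
      Function.Injective ψ ∧
      ∀ r, r < 11 → (∀ r' ∈ (0 :: TM11NLT.roots), clsOf TM11NLT.roots r' = clsOf TM11NLT.roots r → r' = r) →
        ∃ q, ψ '' (MulAction.orbit ((Subgroup.closure {s | s ∈ sgSrc}).map (PresentedGroup.mk (coxRelators M11p.edges ∪ {r | r ∈ M11p.extra}))) q) = {b : Fin 11 | clsOf TM11NLT.roots b.1 = clsOf TM11NLT.roots r} :=
  main PresM11p.ok {s | s ∈ sgSrc} sgSrc rfl TM11NLT.sgW (by decide +kernel)
    18 11 5 1 63 TM11NUT.tgt TM11NUT.sig TM11NUT.crt TM11NUT.hnt TM11NUT.dsig TM11NUT.mu TM11NUT.dcrt TM11NUT.dst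
    TM11NUT.par TM11NUT.plet TM11NUT.certs TM11NUT.hints (by decide +kernel)
    (fun y v => fld3_le _ _ _ _ _ _ _ _ y v) (fun v => fld1_le _ _ _ _ _ _ _ _ v) chkU
    (by decide +kernel) (by decide) TM11NUC0.cnt
    TM11NLT.tp TM11NLT.pa TM11NLT.pl TM11NLT.tw 4 TM11NLT.roots permOK (by decide) (by decide +kernel)

end Cfsg.Agent.Lib.Helper28.TM11NX
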