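import Cfsg.Agent.Lib.Helper28.TCMainLe
import Cfsg.Agent.Lib.Helper28.PresM11p
import Cfsg.Agent.Lib.Helper28.TM11cUC0

set_option autoImplicit false

namespace Cfsg.Agent.Lib.Helper28.TM11cX

open Cfsg.Spor Cfsg.Agent.Lib.Helper28.TCKernel Cfsg.Agent.Lib.Helper28.TCSound Cfsg.Agent.Lib.Helper28.TCPres Cfsg.Agent.Lib.Helper28.TCMainLe

/-- the subgroup generators -/
def sgSrc : List (FreeGroup M11p.Gen) := [M11p.a * M11p.b]

theorem chunkU : ∀ k, k < 1 → allTree TM11cUT.chkName 13 (k * 2 ^ 13) = true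
  | 0, _ => TM11cUC0.chk
  | (k + 1), h => absurd h (by omega)

theorem chkU (v : Nat) : TM11cUT.chkName v = true := by
  rcases Nat.lt_or_ge v (2 ^ 13) with h | h
  · exact allTree_chunks TM11cUT.chkName 13 1 chunkU v h
  · exact chk_of_zero _ _ _ _ _ _ _ _ _ _ _ _ _ _ v
      (fun y => fld3_eq_zero _ _ _ _ _ _ _ _ y v 1 (by decide)
        (le_trans (by decide : 1 * 2 ^ (8 + 5) ≤ 2 ^ 13) h))
      (fld1_eq_zero _ _ _ _ _ _ _ _ v
        (le_trans (by decide : TM11cUT.dtop.length * 2 ^ (8 + 5) ≤ 2 ^ 13) h))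
      (le_trans (by decide : 5822 ≤ 2 ^ 13) h)

/-- the index of the subgroup is positive and at most 720 -/
theorem final_le : ((Subgroup.closure {s | s ∈ sgSrc}).map (PresentedGroup.mk (coxRelators M11p.edges ∪ {r | r ∈ M11p.extra}))).index ≠ 0 ∧ ((Subgroup.closure {s | s ∈ sgSrc}).map (PresentedGroup.mk (coxRelators M11p.edges ∪ {r | r ∈ M11p.extra}))).index ≤ 720 :=
  main_le PresM11p.ok {s | s ∈ sgSrc} sgSrc rfl TM11cUT.sgW (by decide +kernel) (by decide +kernel)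
    5822 720 13 5 32767 TM11cUT.tgt TM11cUT.sig TM11cUT.crt TM11cUT.hnt TM11cUT.dsig TM11cUT.mu TM11cUT.dcrt TM11cUT.dst
    TM11cUT.par TM11cUT.plet TM11cUT.certs TM11cUT.hints (by decide +kernel)
    (fun y v => fld3_le _ _ _ _ _ _ _ _ y v) (fun v => fld1_le _ _ _ _ _ _ _ _ v) chkU
    (by decide +kernel) (by decide) TM11cUC0.cnt

end Cfsg.Agent.Lib.Helper28.TM11cX
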