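import Cfsg.Agent.Lib.Helper28.StructN
import Cfsg.Agent.Lib.Helper28.PresCyc
import Cfsg.Agent.Lib.Helper28.TM11cX
import Cfsg.Agent.Lib.Helper28.TM11NX
import Cfsg.Agent.Lib.Helper28.M11SX
import Cfsg.Agent.Lib.Helper7.SimpleSylow

/-!
The group presented by `a, b` with `a^2, b^4, (ab)^11, (ab^2)^6` and
`ababab⁻¹abab²ab⁻¹abab⁻¹ab⁻¹` is simple of order 7920.

Order at most `720 * 11` by coset enumeration over `<ab>`; it acts on the 11 cosets of
`<b, ababab⁻¹a>`, faithfully by a stabiliser chain of order 7920, doubly transitively.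
-/

set_option autoImplicit false

namespace Cfsg.Agent.Lib.Helper28.M11pMain

open Cfsg.Spor Cfsg.Agent.Lib.Helper28.TCKernel Cfsg.Agent.Lib.Helper28.TCSound
open Cfsg.Agent.Lib.Helper28.TCPerm Cfsg.Agent.Lib.Helper28.TCPres

theorem bound : Finite (Grp M11p.edges M11p.extra) ∧
    Nat.card (Grp M11p.edges M11p.extra) ≤ 7920 := by
  have h := PresCyc.pres_cyc_bound M11p.edges M11p.extra (M11p.a * M11p.b) 720 11 (by decide)
    (by unfold M11p.extra; exact List.mem_cons_of_mem _ List.mem_cons_self) TM11cX.final_le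
  exact ⟨h.1, le_trans h.2 (by decide)⟩

theorem hidx : (Subgroup.closure ((wp (ltG M11p.edges M11p.extra PresM11p.dec)) ''
    {w | w ∈ TM11NLT.sgW})).index = 11 := by
  rw [← map_closure_eq PresM11p.ok {s | s ∈ TM11NX.sgSrc} TM11NX.sgSrc rfl TM11NLT.sgW
    (by decide +kernel)]
  exact TM11NX.final.1

theorem struct : ∃ (φ : Grp M11p.edges M11p.extra →* Equiv.Perm (Fin 11)),
    Nat.card (Grp M11p.edges M11p.extra) = 7920 ∧ Function.Injective φ ∧
    (∀ b : Fin 11, ∃ g : Grp M11p.edges M11p.extra, φ g ⟨0, by decide⟩ = b) ∧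
    (∀ x y : Fin 11, x ≠ ⟨0, by decide⟩ → y ≠ ⟨0, by decide⟩ →
      ∃ h : Grp M11p.edges M11p.extra, φ h ⟨0, by decide⟩ = ⟨0, by decide⟩ ∧ φ h x = y) := by
  have hb := bound
  have hfin := hb.1
  obtain ⟨φ, el, hcard, hinj, hφ', hel, heq, hSt, htr, hcls⟩ :=
    StructN.structN PresM11p.ok TM11NX.permOK (by decide) hidx (by decide +kernel)
      (by decide +kernel) M11SX.checks 7920 M11SX.prod hb.1 hb.2
  have hc1 : ∀ x : Fin 11, x ≠ ⟨0, by decide⟩ → clsOf TM11NLT.roots x.1 = 1 := by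
    decide +kernel
  exact ⟨φ, hcard, hinj, htr, fun x y hx hy => hcls x y (by rw [hc1 x hx, hc1 y hy])⟩

theorem simple_card : IsSimpleGroup (Grp M11p.edges M11p.extra) ∧
    Nat.card (Grp M11p.edges M11p.extra) = 7920 := by
  have hfin := bound.1
  obtain ⟨φ, hcard, hinj, htr, hcls⟩ := struct
  let _ : MulAction (Grp M11p.edges M11p.extra) (Fin 11) := MulAction.compHom (Fin 11) φ
  have hsm : ∀ (g : Grp M11p.edges M11p.extra) (x : Fin 11), g • x = φ g x := fun g x => rfl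
  have h2 : ∀ a b c d : Fin 11, a ≠ b → c ≠ d →
      ∃ g : Grp M11p.edges M11p.extra, g • a = c ∧ g • b = d := by
    intro a b c d hab hcd
    obtain ⟨g1, hg1⟩ := htr a
    obtain ⟨g2, hg2⟩ := htr c
    have hb' : (φ g1)⁻¹ b ≠ ⟨0, by decide⟩ := by
      intro e
      apply hab
      rw [← hg1, ← e]
      simp
    have hd' : (φ g2)⁻¹ d ≠ ⟨0, by decide⟩ := by
      intro e
      apply hcd
      rw [← hg2, ← e]
      simp
    obtain ⟨h, hh0, hh⟩ := hcls ((φ g1)⁻¹ b) ((φ g2)⁻¹ d) hb' hd'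
    refine ⟨g2 * h * g1⁻¹, ?_, ?_⟩
    · rw [hsm, map_mul, map_mul, map_inv, Equiv.Perm.mul_apply, Equiv.Perm.mul_apply]
      have e1 : (φ g1)⁻¹ a = ⟨0, by decide⟩ := by rw [← hg1]; simp
      rw [e1, hh0, hg2]
    · rw [hsm, map_mul, map_mul, map_inv, Equiv.Perm.mul_apply, Equiv.Perm.mul_apply, hh]
      simp
  have hfaith : ∀ g : Grp M11p.edges M11p.extra, (∀ x : Fin 11, g • x = x) → g = 1 := by
    intro g hg
    apply hinj
    rw [map_one]
    ext x
    have := hg x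
    rw [hsm] at this
    rw [this]; rfl
  refine ⟨?_, hcard⟩
  exact Cfsg.Agent.Lib.Helper7.SimpleSylow.simple_of_degree_p (X := Fin 11) (p := 11) (q := 5)
    (m := 720) (by norm_num) (by norm_num) (by simp) hfaith h2 (by rw [hcard]) (by norm_num)
    (by norm_num) (by
      intro j hj
      have hle : j ≤ 10 := Nat.le_of_dvd (by norm_num) hj
      interval_cases j <;> simp_all)

end Cfsg.Agent.Lib.Helper28.M11pMain
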