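import Cfsg.Agent.Lib.Helper28.IwaGen

/-!
Certificates for a normal subgroup containing all generators: each letter is a product of
conjugates of seed words known to lie in the subgroup and of words in letters already known.
-/

set_option autoImplicit false

namespace Cfsg.Agent.Lib.Helper28.NcDrv2

open Cfsg.Agent.Lib.Helper28.TCKernel Cfsg.Agent.Lib.Helper28.TCSound
open Cfsg.Agent.Lib.Helper28.TCPres Cfsg.Agent.Lib.Helper28.IwaGen

variable {G : Type*} [Group G]

/-- a part `(g, m)`: the conjugate by the word `g` of the word `m`, a seed or a word in known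
letters. -/
def partOK (L : Nat) (known : List Nat) (seeds : List (List Nat)) (p : List Nat × List Nat) :
    Bool :=
  (decide (p.2 ∈ seeds) || p.2.all (fun x => memB known x)) && p.1.all (fun x => Nat.blt x L)

/-- the product of the conjugates. -/
def expandP (inv : Nat → Nat) : List (List Nat × List Nat) → List Nat
  | [] => []
  | p :: ps => (p.1 ++ p.2 ++ invw inv p.1) ++ expandP inv ps

/-- derivations `(y, ps)`: the letter `y` is the product of the parts `ps`; at the end all
letters are known. -/
def drv2OK (L : Nat) (inv : Nat → Nat) (prs : List (List Nat × List Nat))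
    (seeds : List (List Nat)) :
    List Nat → List (Nat × List (List Nat × List Nat)) → Bool
  | known, [] => allLt (fun y => memB known y) L
  | known, t :: rest =>
    t.2.all (partOK L known seeds) && decide ((expandP inv t.2, [t.1]) ∈ prs) &&
      drv2OK L inv prs seeds (t.1 :: known) rest

theorem expand_mem (N : Subgroup G) (hN : N.Normal) (lt : Nat → G) (inv : Nat → Nat) (L : Nat)
    (hI : ∀ y, y < L → lt (inv y) = (lt y)⁻¹)
    (seeds : List (List Nat)) (hseed : ∀ s ∈ seeds, wp lt s ∈ N)
    (known : List Nat) (hk : ∀ y ∈ known, lt y ∈ N)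
    (ps : List (List Nat × List Nat)) (h : ∀ p ∈ ps, partOK L known seeds p = true) :
    wp lt (expandP inv ps) ∈ N := by
  induction ps with
  | nil => show wp lt [] ∈ N; rw [wp_nil]; exact N.one_mem
  | cons p ps ih =>
    have hp := h p List.mem_cons_self
    unfold partOK at hp
    rw [Bool.and_eq_true, Bool.or_eq_true, decide_eq_true_eq, List.all_eq_true,
      List.all_eq_true] at hp
    obtain ⟨hp1, hp2⟩ := hp
    have hm : wp lt p.2 ∈ N := by
      rcases hp1 with h1 | h1
      · exact hseed _ h1
      · exact wp_mem N lt _ (fun x hx => hk x ((memB_spec known x).mp (h1 x hx)))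
    show wp lt ((p.1 ++ p.2 ++ invw inv p.1) ++ expandP inv ps) ∈ N
    rw [wp_append, wp_append, wp_append,
      wp_invw lt inv L hI _ (fun x hx => Nat.le_of_ble_eq_true (hp2 x hx))]
    exact N.mul_mem (hN.conj_mem _ hm _) (ih (fun q hq => h q (List.mem_cons_of_mem _ hq)))

theorem nc_of_drv2 (N : Subgroup G) (hN : N.Normal) (lt : Nat → G) (inv : Nat → Nat) (L : Nat)
    (hI : ∀ y, y < L → lt (inv y) = (lt y)⁻¹)
    (prs : List (List Nat × List Nat)) (hq : ∀ uv ∈ prs, wp lt uv.1 = wp lt uv.2)
    (seeds : List (List Nat)) (hseed : ∀ s ∈ seeds, wp lt s ∈ N)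
    (drv : List (Nat × List (List Nat × List Nat))) (known : List Nat)
    (hk : ∀ y ∈ known, lt y ∈ N)
    (h : drv2OK L inv prs seeds known drv = true) : ∀ y, y < L → lt y ∈ N := by
  induction drv generalizing known with
  | nil =>
    intro y hy
    unfold drv2OK at h
    rw [allLt_spec] at h
    exact hk y ((memB_spec known y).mp (h y hy))
  | cons t rest ih =>
    unfold drv2OK at h
    rw [Bool.and_eq_true, Bool.and_eq_true, List.all_eq_true, decide_eq_true_eq] at h
    obtain ⟨⟨h1, h3⟩, h4⟩ := h
    refine ih (t.1 :: known) ?_ h4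
    intro y hy
    rcases List.mem_cons.mp hy with e | e
    · rw [e]
      have e1 := hq _ h3
      have e2 : wp lt [t.1] = lt t.1 := by rw [wp_cons, wp_nil, mul_one]
      rw [← e2, ← e1]
      exact expand_mem N hN lt inv L hI seeds hseed known hk t.2 h1
    · exact hk y e

end Cfsg.Agent.Lib.Helper28.NcDrv2
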