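import Cfsg.Agent.Lib.Helper28.SubHom
import Cfsg.Agent.Lib.Helper28.T1692X
import Cfsg.Agent.Lib.Helper28.ONData

/-!
The base `0, 110790, 74747` of the representation of the presented O'Nan group on 122760
points: checks of the orbit words (5586 images of the second point under words fixing the first,
672 images of the third point under words fixing the first two).
-/

set_option autoImplicit false

namespace Cfsg.Agent.Lib.Helper28.ONBase

open Cfsg.Spor Cfsg.Agent.Lib.Helper28.TCKernel Cfsg.Agent.Lib.Helper28.TCSound
open Cfsg.Agent.Lib.Helper28.TCPerm Cfsg.Agent.Lib.Helper28.TCPres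
open Cfsg.Agent.Lib.Helper28.CeGen Cfsg.Agent.Lib.Helper28.SubHom

/-- all letters of the word are below `L`. -/
def lettersB (L : Nat) (w : List Nat) : Bool :=
  List.rec (motive := fun _ => Bool) true (fun s _ ih => andK (Nat.blt s L) ih) w

theorem lettersB_spec (L : Nat) (w : List Nat) (h : lettersB L w = true) : ∀ s ∈ w, s < L := by
  induction w with
  | nil => intro s hs; exact absurd hs List.not_mem_nil
  | cons x t ih =>
    have e : lettersB L (x :: t) = andK (Nat.blt x L) (lettersB L t) := rfl
    rw [e, andK_true] at h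
    intro s hs
    rcases List.mem_cons.mp hs with e1 | e1
    · rw [e1]; exact Nat.le_of_ble_eq_true h.1
    · exact ih h.2 s e1

theorem hL1 : ∀ w ∈ ONData.ows1, ∀ s ∈ w, s < 8 := by
  have h : allW (lettersB 8) ONData.ows1 = true := by decide +kernel
  intro w hw
  exact lettersB_spec 8 w ((allW_spec _ _).mp h w hw)

theorem hL2 : ∀ w ∈ ONData.ows2, ∀ s ∈ w, s < 8 := by
  have h : allW (lettersB 8) ONData.ows2 = true := by decide +kernel
  intro w hw
  exact lettersB_spec 8 w ((allW_spec _ _).mp h w hw)

theorem hf1 : ∀ w ∈ ONData.ows1, scanP T1692LT.tp w 0 = 0 := by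
  have h : allW (fun w => Nat.beq (scanP T1692LT.tp w 0) 0) ONData.ows1 = true := by
    decide +kernel
  intro w hw
  exact Nat.eq_of_beq_eq_true ((allW_spec _ _).mp h w hw)

theorem hf2 : ∀ w ∈ ONData.ows2, scanP T1692LT.tp w 0 = 0 ∧ scanP T1692LT.tp w 110790 = 110790 := by
  have h : allW (fun w => andK (Nat.beq (scanP T1692LT.tp w 0) 0)
      (Nat.beq (scanP T1692LT.tp w 110790) 110790)) ONData.ows2 = true := by
    decide +kernel
  intro w hw
  have h1 := (allW_spec _ _).mp h w hw
  rw [andK_true] at h1
  exact ⟨Nat.eq_of_beq_eq_true h1.1, Nat.eq_of_beq_eq_true h1.2⟩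

theorem hi1 : incOK (fun w => scanP T1692LT.tp w 110790) ONData.ows1 0 = true := by
  decide +kernel

theorem hi2 : incOK (fun w => scanP T1692LT.tp w 74747) ONData.ows2 0 = true := by
  decide +kernel

theorem hlen : (460815505920 : Nat) = 122760 * ONData.ows1.length * ONData.ows2.length := by
  decide +kernel

end Cfsg.Agent.Lib.Helper28.ONBase
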