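import Cfsg.Agent.Lib.Helper28.Iwa
import Cfsg.Agent.Lib.Helper29.SimpSyl

/-!
A simplicity criterion for a faithful primitive permutation representation on `n` points: if a
prime `p` divides `n`, `p ^ 2` does not divide the order of the group, and the normal closure of
an element `x` with `x ^ p = 1` is the whole group, then the group is simple (a non-trivial
normal subgroup is transitive, so its order is divisible by `p`, so it contains `x`; the Sylow
step is `Helper29.SimpSyl.mem_of_prime_order`).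
-/

set_option autoImplicit false

namespace Cfsg.Agent.Lib.Helper28.SimpSylPerm

open Cfsg.Agent.Lib.Helper28.Iwa

variable {G : Type*} [Group G] {n : Nat}

theorem simple_of_prim_sylow_perm [Finite G] [Nontrivial G] (hn : 0 < n)
    (φ : G →* Equiv.Perm (Fin n)) (hinj : Function.Injective φ)
    (htr : ∀ b : Fin n, ∃ g : G, φ g ⟨0, hn⟩ = b)
    (hprim : ∀ B : Set (Fin n), (⟨0, hn⟩ : Fin n) ∈ B →
      (∀ g : G, φ g '' B = B ∨ Disjoint (φ g '' B) B) → B = {⟨0, hn⟩} ∨ B = Set.univ)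
    (p : ℕ) [Fact p.Prime] (hp : p ∣ n) (hp2 : ¬ p ^ 2 ∣ Nat.card G) (x : G) (hx : x ^ p = 1)
    (hcl : Subgroup.normalClosure {x} = ⊤) : IsSimpleGroup G := by
  refine ⟨fun N hN => ?_⟩
  by_cases hbot : N = ⊥
  · exact Or.inl hbot
  right
  let B : Set (Fin n) := {b | ∃ m ∈ N, φ m ⟨0, hn⟩ = b}
  have h0 : (⟨0, hn⟩ : Fin n) ∈ B := ⟨1, N.one_mem, by rw [map_one]; rfl⟩
  have hB : ∀ g : G, φ g '' B = B ∨ Disjoint (φ g '' B) B := by
    intro g
    by_cases hd : Disjoint (φ g '' B) B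
    · exact Or.inr hd
    · left
      rw [Set.not_disjoint_iff] at hd
      obtain ⟨x, ⟨b, ⟨m, hm, rfl⟩, rfl⟩, ⟨m', hm', e⟩⟩ := hd
      have hg0 : ∃ m0 ∈ N, φ m0 ⟨0, hn⟩ = φ g ⟨0, hn⟩ := by
        refine ⟨g * m⁻¹ * g⁻¹ * m', N.mul_mem (hN.conj_mem _ (N.inv_mem hm) g) hm', ?_⟩
        rw [pmul, e, pmul, pmul, pinv1, pinv1]
      obtain ⟨m0, hm0, e0⟩ := hg0
      ext y
      constructor
      · rintro ⟨b, ⟨m1, hm1, rfl⟩, rfl⟩
        refine ⟨g * m1 * g⁻¹ * m0, N.mul_mem (hN.conj_mem _ hm1 g) hm0, ?_⟩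
        rw [pmul, e0, pmul, pmul, pinv1]
      · rintro ⟨m1, hm1, rfl⟩
        refine ⟨φ (g⁻¹ * m1 * m0⁻¹ * g) ⟨0, hn⟩, ⟨g⁻¹ * (m1 * m0⁻¹) * g⁻¹⁻¹, ?_, ?_⟩, ?_⟩
        · exact hN.conj_mem _ (N.mul_mem hm1 (N.inv_mem hm0)) g⁻¹
        · rw [inv_inv, mul_assoc g⁻¹ m1 m0⁻¹]
        · rw [pmul, pmul, pmul, ← e0, pinv1, pinv2]
  rcases hprim B h0 hB with hB1 | hB2
  · exfalso
    apply hbot
    rw [Subgroup.eq_bot_iff_forall]
    intro m hm
    apply hinj
    rw [map_one]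
    ext b
    obtain ⟨g, rfl⟩ := htr b
    have h1 : φ (g⁻¹ * m * g⁻¹⁻¹) ⟨0, hn⟩ ∈ B := ⟨_, hN.conj_mem _ hm g⁻¹, rfl⟩
    rw [hB1, Set.mem_singleton_iff, inv_inv, pmul, pmul] at h1
    have h2 := congrArg (φ g) h1
    rw [pinv2] at h2
    rw [h2]; rfl
  · have hdvd : n ∣ Nat.card N := by
      let _ : MulAction N (Fin n) := MulAction.compHom (Fin n) (φ.comp N.subtype)
      have hsm : ∀ (m : N) (a : Fin n), m • a = φ m.1 a := fun m a => rfl
      have hpt : MulAction.IsPretransitive N (Fin n) := by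
        constructor
        intro a b
        have ha : a ∈ B := by rw [hB2]; trivial
        have hb : b ∈ B := by rw [hB2]; trivial
        obtain ⟨m1, hm1, e1⟩ := ha
        obtain ⟨m2, hm2, e2⟩ := hb
        refine ⟨⟨m2 * m1⁻¹, N.mul_mem hm2 (N.inv_mem hm1)⟩, ?_⟩
        rw [hsm, ← e1, ← e2, pmul, pinv1]
      have h1 := MulAction.index_stabilizer_of_transitive N (⟨0, hn⟩ : Fin n)
      rw [Nat.card_fin] at h1
      rw [← h1]
      exact Subgroup.index_dvd_card _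
    have hxN : x ∈ N :=
      Cfsg.Agent.Lib.Helper29.SimpSyl.mem_of_prime_order p hp2 N (hp.trans hdvd) x hx
    rw [eq_top_iff, ← hcl]
    apply Subgroup.normalClosure_le_normal
    intro z hz
    rw [Set.mem_singleton_iff] at hz
    rw [hz]
    exact hxN

end Cfsg.Agent.Lib.Helper28.SimpSylPerm
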