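import Cfsg.Agent.Lib.Helper28.ONBase
import Cfsg.Agent.Lib.Helper28.PermStruct
import Cfsg.Agent.Lib.Helper28.NcDrv2
import Cfsg.Agent.Lib.Helper28.SimpSylPerm
import Cfsg.Agent.Lib.Helper28.PrimCert
import Cfsg.Agent.Lib.Helper28.OrdChain
import Cfsg.Agent.Lib.Helper28.ONSData
import Cfsg.Agent.Lib.Helper86.L37.ONOrd

/-!
The presented O'Nan group is simple of order 460815505920.

Order: `<a, ..., f>` has index 122760 (coset enumeration) and order at most 3753792 (helper86's
coset certificates); the stabiliser chain on the base `0, 110790, 74747` of the representation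
on 122760 points gives the lower bound and makes the representation faithful.  Simplicity: the
representation is primitive (certificate on the five classes of points), 31 divides 122760 and
31^2 does not divide the order, and the normal closure of the element `g b c e d` of order 31
contains all generators (helper29's derivation; word identities checked on the base).
-/

set_option autoImplicit false

namespace Cfsg.Agent.Lib.Helper28.ONSimple

open Cfsg.Spor Cfsg.Agent.Lib.Helper28.TCKernel Cfsg.Agent.Lib.Helper28.TCSound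
open Cfsg.Agent.Lib.Helper28.TCPerm Cfsg.Agent.Lib.Helper28.TCPres
open Cfsg.Agent.Lib.Helper28.CeGen Cfsg.Agent.Lib.Helper28.SubHom Cfsg.Agent.Lib.Helper28.ONBase

theorem H_eq : (Subgroup.closure {s | s ∈ T1692X.sgSrc}).map
      (PresentedGroup.mk (coxRelators ON.edges ∪ {r | r ∈ ON.extra})) =
    Cfsg.Agent.Lib.Helper86.ONOrd.H6 := by
  rw [map_closure_eq PresON.ok _ T1692X.sgSrc rfl T1692LT.sgW (by decide +kernel)]
  unfold Cfsg.Agent.Lib.Helper86.ONOrd.H6
  congr 1
  ext g
  constructor
  · rintro ⟨w, hw, rfl⟩
    change w ∈ [[2], [3], [4], [5], [6], [7]] at hw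
    simp only [List.mem_cons, List.not_mem_nil, or_false] at hw
    rcases hw with rfl | rfl | rfl | rfl | rfl | rfl
    · exact ⟨0, by norm_num, by rw [wp_cons, wp_nil, mul_one]; rfl⟩
    · exact ⟨1, by norm_num, by rw [wp_cons, wp_nil, mul_one]; rfl⟩
    · exact ⟨2, by norm_num, by rw [wp_cons, wp_nil, mul_one]; rfl⟩
    · exact ⟨3, by norm_num, by rw [wp_cons, wp_nil, mul_one]; rfl⟩
    · exact ⟨4, by norm_num, by rw [wp_cons, wp_nil, mul_one]; rfl⟩
    · exact ⟨5, by norm_num, by rw [wp_cons, wp_nil, mul_one]; rfl⟩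
  · rintro ⟨x, hx, rfl⟩
    have hx' : x < 6 := hx
    refine ⟨[x + 2], ?_, by rw [wp_cons, wp_nil, mul_one]; rfl⟩
    change [x + 2] ∈ [[2], [3], [4], [5], [6], [7]]
    interval_cases x <;> decide

theorem card_le : Finite (Grp ON.edges ON.extra) ∧
    Nat.card (Grp ON.edges ON.extra) ≤ 460815505920 := by
  obtain ⟨hfin, hc⟩ := Cfsg.Agent.Lib.Helper86.ONOrd.H6_card
  have hidx := T1692X.final.1
  rw [H_eq] at hidx
  have h := OrdChain.card_le_of_index _ 122760 3753792 hidx (by decide) hfin hc
  exact ⟨h.1, le_trans h.2 (by norm_num)⟩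

theorem eqP0 : SGS.eqAt T1692LT.tp ONSData.prs 0 = true := by decide +kernel
theorem eqP1 : SGS.eqAt T1692LT.tp ONSData.prs 110790 = true := by decide +kernel
theorem eqP2 : SGS.eqAt T1692LT.tp ONSData.prs 74747 = true := by decide +kernel

theorem wp_replicate {G : Type*} [Group G] (lt : Nat → G) (w : List Nat) (k : Nat) :
    wp lt (List.replicate k w).flatten = wp lt w ^ k := by
  induction k with
  | zero => simp [wp]
  | succ k ih => rw [List.replicate_succ, List.flatten_cons, wp_append, ih, pow_succ']

theorem main : IsSimpleGroup (Grp ON.edges ON.extra) ∧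
    Nat.card (Grp ON.edges ON.extra) = 460815505920 := by
  obtain ⟨hfin, hle⟩ := card_le
  have hn : 0 < 122760 := by decide
  obtain ⟨φ, hφ', htr, hcls⟩ := PermStruct.perm_struct PresON.ok T1692X.permOK hn
    (by decide +kernel) (by decide +kernel)
  have hge := base3_ge φ (ltG ON.edges ON.extra PresON.dec) hφ' hn htr 110790 74747
    (by decide) (by decide) ONData.ows1 ONData.ows2 hL1 hL2 hf1 hf2 hi1 hi2
    460815505920 hlen
  have hc : Nat.card (Grp ON.edges ON.extra) = 460815505920 := le_antisymm hle hge
  have hbase := base3 φ (ltG ON.edges ON.extra PresON.dec) hφ' hn htr 110790 74747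
    (by decide) (by decide) ONData.ows1 ONData.ows2 hL1 hL2 hf1 hf2 hi1 hi2
    460815505920 hlen (by decide) hle
  have hinj : Function.Injective φ := by
    rw [injective_iff_map_eq_one]
    intro g hg
    apply hbase
    intro q _
    rw [hg]; rfl
  have hprim := PrimCert.prim_of_certs hn φ (ltG ON.edges ON.extra PresON.dec) 8 T1692LT.tp hφ'
    T1692LT.roots hcls ONSData.pcerts (by decide +kernel)
  have hq := prs_of_base φ (ltG ON.edges ON.extra PresON.dec) hφ' _ hbase ONSData.prs
    (by decide +kernel)
    (by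
      intro q hq
      rcases List.mem_cons.mp hq with e | hq
      · rw [e]; exact eqP2
      rcases List.mem_cons.mp hq with e | hq
      · rw [e]; exact eqP1
      · rw [List.mem_singleton.mp hq]; exact eqP0)
  have hI : ∀ y, y < 8 → ltG ON.edges ON.extra PresON.dec (PresON.inv y) =
      (ltG ON.edges ON.extra PresON.dec y)⁻¹ := ltG_inv PresON.ok
  have hx31 : wp (ltG ON.edges ON.extra PresON.dec) ONSData.xW ^ 31 = 1 := by
    have e := hq (ONSData.x31, []) (by decide +kernel)
    have e2 : ONSData.x31 = (List.replicate 31 ONSData.xW).flatten := by decide +kernel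
    rw [← wp_replicate, ← e2]
    exact e
  have hN : (Subgroup.normalClosure
      {wp (ltG ON.edges ON.extra PresON.dec) ONSData.xW}).Normal :=
    Subgroup.normalClosure_normal
  have hxN : wp (ltG ON.edges ON.extra PresON.dec) ONSData.xW ∈ Subgroup.normalClosure
      {wp (ltG ON.edges ON.extra PresON.dec) ONSData.xW} :=
    Subgroup.subset_normalClosure (Set.mem_singleton _)
  have hseed : ∀ s ∈ ONSData.seeds, wp (ltG ON.edges ON.extra PresON.dec) s ∈
      Subgroup.normalClosure {wp (ltG ON.edges ON.extra PresON.dec) ONSData.xW} := by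
    intro s hs
    have h1 : s = ONSData.xW ∨ s = ONSData.xiW := by
      simpa [ONSData.seeds] using hs
    rcases h1 with h1 | h1
    · rw [h1]; exact hxN
    · have e : ONSData.xiW = invw PresON.inv ONSData.xW := by decide +kernel
      rw [h1, e, wp_invw _ PresON.inv 8 hI _ (by decide +kernel)]
      exact Subgroup.inv_mem _ hxN
  have hall := NcDrv2.nc_of_drv2 _ hN (ltG ON.edges ON.extra PresON.dec) PresON.inv 8 hI
    ONSData.prs hq ONSData.seeds hseed ONSData.drv []
    (fun y hy => absurd hy List.not_mem_nil) (by decide +kernel)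
  have hcl : Subgroup.normalClosure {wp (ltG ON.edges ON.extra PresON.dec) ONSData.xW} = ⊤ := by
    rw [eq_top_iff, ← genG PresON.ok, Subgroup.closure_le]
    rintro _ ⟨y, hy, rfl⟩
    exact hall y hy
  have hnt : Nontrivial (Grp ON.edges ON.extra) :=
    Finite.one_lt_card_iff_nontrivial.mp (by rw [hc]; decide)
  have hp31 : Fact (Nat.Prime 31) := ⟨by norm_num⟩
  exact ⟨SimpSylPerm.simple_of_prim_sylow_perm hn φ hinj htr hprim 31 (by decide)
    (by rw [hc]; decide) _ hx31 hcl, hc⟩

end Cfsg.Agent.Lib.Helper28.ONSimple
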