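import Cfsg.Agent.Lib.Helper28.TCPres
import Cfsg.Prelude.Def_Spor_ON

set_option autoImplicit false

namespace Cfsg.Agent.Lib.Helper28.PresON

open Cfsg.Spor Cfsg.Agent.Lib.Helper28.TCKernel Cfsg.Agent.Lib.Helper28.TCPres

/-- letter of a generator or of its inverse -/
def code : ON.Gen × Bool → Nat
  | (.g, true) => 0
  | (.g, false) => 1
  | (.a, _) => 2
  | (.b, _) => 3
  | (.c, _) => 4
  | (.d, _) => 5
  | (.e, _) => 6
  | (.f, _) => 7
def decl : List (ON.Gen × Bool) := [(.g, true), (.g, false), (.a, true), (.b, true), (.c, true), (.d, true), (.e, true), (.f, true)]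
/-- generator and sign of a letter -/
def dec (y : Nat) : ON.Gen × Bool := decl.getD y (.g, true)
def invL : List Nat := [1, 0, 2, 3, 4, 5, 6, 7]
def inv : Nat → Nat := nthD 0 invL
def gens : List ON.Gen := [.g, .a, .b, .c, .d, .e, .f]
def pairs : List (ON.Gen × ON.Gen) := [(.a, .b), (.a, .c), (.a, .d), (.a, .e), (.a, .f), (.b, .c), (.b, .d), (.b, .e), (.b, .f), (.c, .d), (.c, .e), (.c, .f), (.d, .e), (.d, .f), (.e, .f)]
def relW : List (List Nat) := [[2, 3, 2, 3, 2, 3],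
  [2, 4, 2, 4],
  [2, 5, 2, 5],
  [2, 6, 2, 6],
  [2, 7, 2, 7],
  [3, 4, 3, 4, 3, 4],
  [3, 5, 3, 5],
  [3, 6, 3, 6],
  [3, 7, 3, 7],
  [4, 5, 4, 5, 4, 5, 4, 5, 4, 5, 4, 5, 4, 5, 4, 5],
  [4, 6, 4, 6],
  [4, 7, 4, 7],
  [5, 6, 5, 6, 5, 6],
  [5, 7, 5, 7],
  [6, 7, 6, 7, 6, 7],
  [2, 7, 1, 1],
  [2, 7, 5, 4, 5, 4, 5, 4, 5, 4],
  [4, 1, 5, 1, 5, 4, 5, 0, 5, 0],
  [5, 1, 4, 1, 4, 5, 4, 0, 4, 0],
  [3, 4, 5, 0, 3, 4, 5, 0, 3, 4, 5, 0, 3, 4, 5, 0, 3, 4, 5, 0],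
  [0, 3, 4, 0, 4, 3, 0, 3, 4, 0, 4],
  [0, 6, 5, 0, 5, 6, 0, 6, 5, 0, 5]]
theorem ok : PresOK ON.edges ON.extra code dec inv 8 gens pairs relW where
  gens_all := by intro x; cases x <;> decide
  code_true := by decide +kernel
  code_false := by decide +kernel
  dec_code := by decide +kernel
  inv_ok := by decide +kernel
  node_inv := by decide +kernel
  pairs_nodes := by decide +kernel
  pairs_all := by decide +kernel
  label_symm := by decide +kernel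
  rel_words := by decide +kernel
  rel_letters := by decide +kernel

end Cfsg.Agent.Lib.Helper28.PresON
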