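import Cfsg.Agent.Lib.Helper28.CeGen

/-!
Homomorphisms from a presented group into a group with a table permutation representation,
checked on a base: a list of points whose pointwise stabiliser is trivial because the orbit
lengths along the list multiply to the order of the group.
-/

set_option autoImplicit false

namespace Cfsg.Agent.Lib.Helper28.SubHom

open Cfsg.Spor Cfsg.Agent.Lib.Helper28.TCKernel Cfsg.Agent.Lib.Helper28.TCSound
open Cfsg.Agent.Lib.Helper28.TCPerm Cfsg.Agent.Lib.Helper28.TCPres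
open Cfsg.Agent.Lib.Helper28.CeGen

section fix

variable {G : Type*} [Group G] {α : Type*}

/-- the pointwise stabiliser of a list of points. -/
def fixS (φ : G →* Equiv.Perm α) (l : List α) : Subgroup G where
  carrier := {g | ∀ q ∈ l, φ g q = q}
  one_mem' := by
    intro q _
    rw [map_one]; rfl
  mul_mem' := by
    intro a b ha hb q hq
    rw [map_mul, Equiv.Perm.mul_apply, hb q hq, ha q hq]
  inv_mem' := by
    intro a ha q hq
    rw [map_inv, Equiv.Perm.inv_eq_iff_eq]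
    exact (ha q hq).symm

theorem fix_nil_card (φ : G →* Equiv.Perm α) : Nat.card (fixS φ ([] : List α)) = Nat.card G := by
  have h : fixS φ ([] : List α) = ⊤ := by
    rw [eq_top_iff]
    intro g _ q hq
    exact absurd hq List.not_mem_nil
  rw [h, Subgroup.card_top]

theorem fix_step [Finite G] (φ : G →* Equiv.Perm α) (l : List α) (ω : α) (r : Nat)
    (pts : Fin r → G) (hS : ∀ i, pts i ∈ fixS φ l)
    (hpts : ∀ i j, φ (pts i) ω = φ (pts j) ω → i = j) :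
    Nat.card (fixS φ (ω :: l)) * r ≤ Nat.card (fixS φ l) := by
  have h := Nat.card_le_card_of_injective
    (fun p : (fixS φ (ω :: l)) × Fin r =>
      (⟨pts p.2 * p.1.1, (fixS φ l).mul_mem (hS p.2)
        (fun q hq => p.1.2 q (List.mem_cons_of_mem _ hq))⟩ : fixS φ l)) (by
    rintro ⟨⟨s, hs⟩, i⟩ ⟨⟨t, ht⟩, j⟩ hpq
    have e : pts i * s = pts j * t := congrArg Subtype.val hpq
    have hsω : φ s ω = ω := hs ω List.mem_cons_self
    have htω : φ t ω = ω := ht ω List.mem_cons_self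
    have e2 : φ (pts i) ω = φ (pts j) ω := by
      have a1 : φ (pts i * s) ω = φ (pts i) ω := by
        rw [map_mul, Equiv.Perm.mul_apply, hsω]
      have a2 : φ (pts j * t) ω = φ (pts j) ω := by
        rw [map_mul, Equiv.Perm.mul_apply, htω]
      rw [← a1, ← a2, e]
    have hij := hpts i j e2
    subst hij
    have e3 : s = t := mul_left_cancel e
    subst e3
    rfl)
  rwa [Nat.card_prod, Nat.card_fin] at h

end fix

section words

variable {G : Type*} [Group G] [Finite G] {n L : Nat} {tp : Nat → Nat → Nat}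

/-- a lower bound for an orbit of the pointwise stabiliser of `l`, from words. -/
theorem fix_step_words (φ : G →* Equiv.Perm (Fin n)) (lt : Nat → G)
    (hφ : ∀ y, y < L → ∀ a : Fin n, (((φ (lt y))⁻¹ a : Fin n) : Nat) = tp y a)
    (l : List (Fin n)) (ω : Nat) (hω : ω < n) (ows : List (List Nat))
    (hL : ∀ w ∈ ows, ∀ s ∈ w, s < L)
    (hfix : ∀ w ∈ ows, ∀ q ∈ l, scanP tp w q.1 = q.1)
    (h : incOK (fun w => scanP tp w ω) ows 0 = true) :
    Nat.card (fixS φ (⟨ω, hω⟩ :: l)) * ows.length ≤ Nat.card (fixS φ l) := by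
  obtain ⟨-, hpw⟩ := incOK_spec _ ows 0 h
  have h1 : ∀ (w : List Nat), (∀ s ∈ w, s < L) → ∀ a : Fin n,
      ((φ (wp lt w)⁻¹ a : Fin n) : Nat) = scanP tp w a := by
    intro w hw a
    rw [map_inv]
    exact scan_eq φ lt hφ w hw a
  apply fix_step φ l ⟨ω, hω⟩ ows.length (fun i => (wp lt (ows.get i))⁻¹)
  · intro i q hq
    apply Fin.ext
    rw [h1 _ (hL _ (List.get_mem ows i)) q]
    exact hfix _ (List.get_mem ows i) q hq
  · intro i j e
    apply inc_inj (fun w => scanP tp w ω) ows hpw i j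
    show scanP tp (ows.get i) ω = scanP tp (ows.get j) ω
    rw [← h1 _ (hL _ (List.get_mem ows i)) ⟨ω, hω⟩,
      ← h1 _ (hL _ (List.get_mem ows j)) ⟨ω, hω⟩, e]

/-- the orbit lengths along three points bound the pointwise stabiliser. -/
theorem chain3 (φ : G →* Equiv.Perm (Fin n)) (lt : Nat → G)
    (hφ : ∀ y, y < L → ∀ a : Fin n, (((φ (lt y))⁻¹ a : Fin n) : Nat) = tp y a)
    (hn : 0 < n) (htr : ∀ b : Fin n, ∃ g : G, φ g ⟨0, hn⟩ = b)
    (ω1 ω2 : Nat) (hω1 : ω1 < n) (hω2 : ω2 < n) (ows1 ows2 : List (List Nat))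
    (hL1 : ∀ w ∈ ows1, ∀ s ∈ w, s < L) (hL2 : ∀ w ∈ ows2, ∀ s ∈ w, s < L)
    (hf1 : ∀ w ∈ ows1, scanP tp w 0 = 0)
    (hf2 : ∀ w ∈ ows2, scanP tp w 0 = 0 ∧ scanP tp w ω1 = ω1)
    (hi1 : incOK (fun w => scanP tp w ω1) ows1 0 = true)
    (hi2 : incOK (fun w => scanP tp w ω2) ows2 0 = true) :
    Nat.card (fixS φ [(⟨ω2, hω2⟩ : Fin n), ⟨ω1, hω1⟩, ⟨0, hn⟩]) * ows2.length *
      ows1.length * n ≤ Nat.card G := by
  have s0 : Nat.card (fixS φ [(⟨0, hn⟩ : Fin n)]) * n ≤ Nat.card (fixS φ ([] : List (Fin n))) := by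
    have h := fix_step φ ([] : List (Fin n)) ⟨0, hn⟩ n
      (fun i => Classical.choose (htr i))
      (fun i q hq => absurd hq List.not_mem_nil)
      (fun i j e => by
        rw [Classical.choose_spec (htr i), Classical.choose_spec (htr j)] at e
        exact e)
    exact h
  rw [fix_nil_card] at s0
  have s1 := fix_step_words φ lt hφ [(⟨0, hn⟩ : Fin n)] ω1 hω1 ows1 hL1
    (fun w hw q hq => by
      rw [List.mem_singleton.mp hq]
      exact hf1 w hw) hi1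
  have s2 := fix_step_words φ lt hφ [(⟨ω1, hω1⟩ : Fin n), ⟨0, hn⟩] ω2 hω2 ows2 hL2
    (fun w hw q hq => by
      rcases List.mem_cons.mp hq with e | e
      · rw [e]; exact (hf2 w hw).2
      · rw [List.mem_singleton.mp e]; exact (hf2 w hw).1) hi2
  have h1 : Nat.card (fixS φ [(⟨ω2, hω2⟩ : Fin n), ⟨ω1, hω1⟩, ⟨0, hn⟩]) * ows2.length *
      ows1.length ≤ Nat.card (fixS φ [(⟨0, hn⟩ : Fin n)]) :=
    le_trans (Nat.mul_le_mul_right _ s2) s1
  exact le_trans (Nat.mul_le_mul_right _ h1) s0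

/-- the product of the orbit lengths is a lower bound for the order of the group. -/
theorem base3_ge (φ : G →* Equiv.Perm (Fin n)) (lt : Nat → G)
    (hφ : ∀ y, y < L → ∀ a : Fin n, (((φ (lt y))⁻¹ a : Fin n) : Nat) = tp y a)
    (hn : 0 < n) (htr : ∀ b : Fin n, ∃ g : G, φ g ⟨0, hn⟩ = b)
    (ω1 ω2 : Nat) (hω1 : ω1 < n) (hω2 : ω2 < n) (ows1 ows2 : List (List Nat))
    (hL1 : ∀ w ∈ ows1, ∀ s ∈ w, s < L) (hL2 : ∀ w ∈ ows2, ∀ s ∈ w, s < L)
    (hf1 : ∀ w ∈ ows1, scanP tp w 0 = 0)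
    (hf2 : ∀ w ∈ ows2, scanP tp w 0 = 0 ∧ scanP tp w ω1 = ω1)
    (hi1 : incOK (fun w => scanP tp w ω1) ows1 0 = true)
    (hi2 : incOK (fun w => scanP tp w ω2) ows2 0 = true)
    (m : Nat) (hm : m = n * ows1.length * ows2.length) : m ≤ Nat.card G := by
  have h2 := chain3 φ lt hφ hn htr ω1 ω2 hω1 hω2 ows1 ows2 hL1 hL2 hf1 hf2 hi1 hi2
  have hpos : 1 ≤ Nat.card (fixS φ [(⟨ω2, hω2⟩ : Fin n), ⟨ω1, hω1⟩, ⟨0, hn⟩]) := Nat.card_pos
  calc m = 1 * ows2.length * ows1.length * n := by rw [hm]; ring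
    _ ≤ Nat.card (fixS φ [(⟨ω2, hω2⟩ : Fin n), ⟨ω1, hω1⟩, ⟨0, hn⟩]) * ows2.length *
          ows1.length * n :=
        Nat.mul_le_mul_right _ (Nat.mul_le_mul_right _ (Nat.mul_le_mul_right _ hpos))
    _ ≤ Nat.card G := h2

/-- three points with trivial pointwise stabiliser. -/
theorem base3 (φ : G →* Equiv.Perm (Fin n)) (lt : Nat → G)
    (hφ : ∀ y, y < L → ∀ a : Fin n, (((φ (lt y))⁻¹ a : Fin n) : Nat) = tp y a)
    (hn : 0 < n) (htr : ∀ b : Fin n, ∃ g : G, φ g ⟨0, hn⟩ = b)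
    (ω1 ω2 : Nat) (hω1 : ω1 < n) (hω2 : ω2 < n) (ows1 ows2 : List (List Nat))
    (hL1 : ∀ w ∈ ows1, ∀ s ∈ w, s < L) (hL2 : ∀ w ∈ ows2, ∀ s ∈ w, s < L)
    (hf1 : ∀ w ∈ ows1, scanP tp w 0 = 0)
    (hf2 : ∀ w ∈ ows2, scanP tp w 0 = 0 ∧ scanP tp w ω1 = ω1)
    (hi1 : incOK (fun w => scanP tp w ω1) ows1 0 = true)
    (hi2 : incOK (fun w => scanP tp w ω2) ows2 0 = true)
    (m : Nat) (hm : m = n * ows1.length * ows2.length) (hpos : 0 < m)
    (hnum : Nat.card G ≤ m) :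
    ∀ g : G, (∀ q ∈ [(⟨ω2, hω2⟩ : Fin n), ⟨ω1, hω1⟩, ⟨0, hn⟩], φ g q = q) → g = 1 := by
  have h2 := chain3 φ lt hφ hn htr ω1 ω2 hω1 hω2 ows1 ows2 hL1 hL2 hf1 hf2 hi1 hi2
  have h3 : Nat.card (fixS φ [(⟨ω2, hω2⟩ : Fin n), ⟨ω1, hω1⟩, ⟨0, hn⟩]) * m ≤ m := by
    calc Nat.card (fixS φ [(⟨ω2, hω2⟩ : Fin n), ⟨ω1, hω1⟩, ⟨0, hn⟩]) * m
        = Nat.card (fixS φ [(⟨ω2, hω2⟩ : Fin n), ⟨ω1, hω1⟩, ⟨0, hn⟩]) * ows2.length *
            ows1.length * n := by rw [hm]; ring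
      _ ≤ Nat.card G := h2
      _ ≤ m := hnum
  have h4 : Nat.card (fixS φ [(⟨ω2, hω2⟩ : Fin n), ⟨ω1, hω1⟩, ⟨0, hn⟩]) ≤ 1 := by
    by_contra hA
    have hA2 : 2 ≤ Nat.card (fixS φ [(⟨ω2, hω2⟩ : Fin n), ⟨ω1, hω1⟩, ⟨0, hn⟩]) := by omega
    have h5 : 2 * m ≤ Nat.card (fixS φ [(⟨ω2, hω2⟩ : Fin n), ⟨ω1, hω1⟩, ⟨0, hn⟩]) * m :=
      Nat.mul_le_mul_right _ hA2
    omega
  have hbot := Subgroup.eq_bot_of_card_le _ h4
  intro g hg
  have hmem : g ∈ fixS φ [(⟨ω2, hω2⟩ : Fin n), ⟨ω1, hω1⟩, ⟨0, hn⟩] := hg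
  rw [hbot, Subgroup.mem_bot] at hmem
  exact hmem

omit [Finite G] in
/-- word identities checked on a base. -/
theorem prs_of_base (φ : G →* Equiv.Perm (Fin n)) (lt : Nat → G)
    (hφ : ∀ y, y < L → ∀ a : Fin n, (((φ (lt y))⁻¹ a : Fin n) : Nat) = tp y a)
    (bl : List (Fin n)) (hbase : ∀ g : G, (∀ q ∈ bl, φ g q = q) → g = 1)
    (prs : List (List Nat × List Nat))
    (hpL : ∀ uv ∈ prs, (∀ y ∈ uv.1, y < L) ∧ (∀ y ∈ uv.2, y < L))
    (h : ∀ q ∈ bl, SGS.eqAt tp prs q.1 = true) :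
    ∀ uv ∈ prs, wp lt uv.1 = wp lt uv.2 := by
  intro uv huv
  have h1 : wp lt uv.1 * (wp lt uv.2)⁻¹ = 1 := by
    apply hbase
    intro q hq
    have e1 := scan_eq φ lt hφ uv.1 (hpL uv huv).1 q
    have e2 := scan_eq φ lt hφ uv.2 (hpL uv huv).2 q
    have e3 : (φ (wp lt uv.1))⁻¹ q = (φ (wp lt uv.2))⁻¹ q :=
      Fin.ext (by rw [e1, e2, (SGS.eqAt_spec tp prs q.1).mp (h q hq) uv huv])
    rw [map_mul, map_inv, Equiv.Perm.mul_apply, ← e3]
    exact Equiv.apply_symm_apply (φ (wp lt uv.1)) q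
  exact mul_inv_eq_one.mp h1

end words

section hom

variable {G : Type*} [Group G] {n L : Nat} {tp : Nat → Nat → Nat}
  {α : Type} [DecidableEq α]
  {edges : List (α × ℕ × α)} {extra : List (FreeGroup α)} {code : α × Bool → Nat}
  {dec : Nat → α × Bool} {inv : Nat → Nat} {Lp : Nat} {gens : List α} {pairs : List (α × α)}
  {relW : List (List Nat)}

/-- a homomorphism from a presented group, the relators being checked on a base. -/
theorem sub_hom (O : PresOK edges extra code dec inv Lp gens pairs relW)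
    (φ : G →* Equiv.Perm (Fin n)) (lt : Nat → G)
    (hφ : ∀ y, y < L → ∀ a : Fin n, (((φ (lt y))⁻¹ a : Fin n) : Nat) = tp y a)
    (invG : Nat → Nat) (hIG : ∀ y, y < L → lt (invG y) = (lt y)⁻¹)
    (bl : List (Fin n)) (hbase : ∀ g : G, (∀ q ∈ bl, φ g q = q) → g = 1)
    (kws : List (List Nat)) (hkL : ∀ y, y < Lp → ∀ s ∈ nthD [] kws y, s < L)
    (hkI : ∀ y, y < Lp → nthD [] kws (inv y) = invw invG (nthD [] kws y))
    (hrel : ∀ q ∈ bl, relsAt (tpOf tp kws) relW q.1 = true) :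
    ∃ θ : Grp edges extra →* G, ∀ y, y < Lp →
      θ (ltG edges extra dec y) = wp lt (nthD [] kws y) := by
  let g : Nat → G := fun y => wp lt (nthD [] kws y)
  have hφK : ∀ y, y < Lp → ∀ a : Fin n, (((φ (g y))⁻¹ a : Fin n) : Nat) = tpOf tp kws y a :=
    fun y hy a => scan_eq φ lt hφ (nthD [] kws y) (hkL y hy) a
  have hI : ∀ y, y < Lp → g (inv y) = (g y)⁻¹ := by
    intro y hy
    show wp lt (nthD [] kws (inv y)) = (wp lt (nthD [] kws y))⁻¹
    rw [hkI y hy]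
    exact wp_invw lt invG L hIG _ (hkL y hy)
  have hR : ∀ w ∈ relW, wp g w = 1 := by
    intro w hw
    apply hbase
    intro q hq
    have h1 := scan_eq φ g hφK w (O.rel_letters w hw) q
    rw [(relsAt_spec (tpOf tp kws) relW q.1).mp (hrel q hq) w hw] at h1
    have h2 : (φ (wp g w))⁻¹ q = q := Fin.ext h1
    rw [Equiv.Perm.inv_eq_iff_eq] at h2
    exact h2.symm
  exact exists_hom O g hI hR

/-- a simple presented group embedded by a homomorphism checked on a base. -/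
theorem sub_simple (O : PresOK edges extra code dec inv Lp gens pairs relW)
    (hs : IsSimpleGroup (Grp edges extra)) (c : Nat) (hc : Nat.card (Grp edges extra) = c)
    (φ : G →* Equiv.Perm (Fin n)) (lt : Nat → G)
    (hφ : ∀ y, y < L → ∀ a : Fin n, (((φ (lt y))⁻¹ a : Fin n) : Nat) = tp y a)
    (invG : Nat → Nat) (hIG : ∀ y, y < L → lt (invG y) = (lt y)⁻¹)
    (bl : List (Fin n)) (hbase : ∀ g : G, (∀ q ∈ bl, φ g q = q) → g = 1)
    (kws : List (List Nat)) (hkL : ∀ y, y < Lp → ∀ s ∈ nthD [] kws y, s < L)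
    (hkI : ∀ y, y < Lp → nthD [] kws (inv y) = invw invG (nthD [] kws y))
    (hrel : ∀ q ∈ bl, relsAt (tpOf tp kws) relW q.1 = true)
    (y0 : Nat) (hy0 : y0 < Lp) (q0 : Nat) (hq0 : q0 < n)
    (hne : scanP tp (nthD [] kws y0) q0 ≠ q0) :
    ∃ K : Subgroup G, IsSimpleGroup K ∧ Nat.card K = c := by
  obtain ⟨θ, hθ⟩ := sub_hom O φ lt hφ invG hIG bl hbase kws hkL hkI hrel
  have hnt : θ (ltG edges extra dec y0) ≠ 1 := by
    intro e
    rw [hθ y0 hy0] at e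
    have h1 := scan_eq φ lt hφ (nthD [] kws y0) (hkL y0 hy0) ⟨q0, hq0⟩
    rw [e, map_one, inv_one] at h1
    exact hne h1.symm
  have hinj : Function.Injective θ := by
    rw [← MonoidHom.ker_eq_bot_iff]
    rcases hs.eq_bot_or_eq_top_of_normal θ.ker (MonoidHom.normal_ker θ) with h | h
    · exact h
    · exfalso
      apply hnt
      have : ltG edges extra dec y0 ∈ θ.ker := by rw [h]; exact Subgroup.mem_top _
      exact MonoidHom.mem_ker.mp this
  let e : Grp edges extra ≃* θ.range := MonoidHom.ofInjective hinj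
  refine ⟨θ.range, ?_, ?_⟩
  · have := hs
    exact e.symm.isSimpleGroup
  · rw [← hc]
    exact (Nat.card_congr e.toEquiv).symm

end hom

end Cfsg.Agent.Lib.Helper28.SubHom
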