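import Cfsg.Agent.Lib.Helper28.T1680LT

set_option autoImplicit false

namespace Cfsg.Agent.Lib.Helper28.T1680LC0

open Cfsg.Agent.Lib.Helper28.TCKernel Cfsg.Agent.Lib.Helper28.T1680LT

theorem chk : allTree chkPoint 11 0 = true := by decide +kernel

end Cfsg.Agent.Lib.Helper28.T1680LC0
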