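import Cfsg.Agent.Lib.Helper28.TCKernel
import Cfsg.Agent.Lib.Helper28.T1680LD0

set_option autoImplicit false

namespace Cfsg.Agent.Lib.Helper28.T1680LT

open Cfsg.Agent.Lib.Helper28.TCKernel

def p0top : List (List Nat) := [T1680LD0.p0g0]
def p1top : List (List Nat) := [T1680LD0.p1g0]
def p2top : List (List Nat) := [T1680LD0.p2g0]
def p3top : List (List Nat) := [T1680LD0.p3g0]
def p4top : List (List Nat) := [T1680LD0.p4g0]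
def p5top : List (List Nat) := [T1680LD0.p5g0]
def p6top : List (List Nat) := [T1680LD0.p6g0]
def ptops : List (List (List Nat)) := [p0top, p1top, p2top, p3top, p4top, p5top, p6top]
def ttop : List (List Nat) := [T1680LD0.tg0]
def tp : Nat → Nat → Nat := fld3z ptops 10 1 1 1023 11 2047
def pa : Nat → Nat := fld1 ttop 10 1 1 1023 16 0 2047
def pl : Nat → Nat := fld1 ttop 10 1 1 1023 16 11 31
def relW : List (List Nat) := [[0, 1, 0, 1, 0, 1, 0, 1, 0, 1],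
  [0, 2, 0, 2],
  [0, 3, 0, 3],
  [0, 4, 0, 4],
  [0, 5, 0, 5],
  [0, 6, 0, 6],
  [1, 2, 1, 2, 1, 2],
  [1, 3, 1, 3],
  [1, 4, 1, 4],
  [1, 5, 1, 5, 1, 5],
  [1, 6, 1, 6, 1, 6],
  [2, 3, 2, 3, 2, 3, 2, 3, 2, 3, 2, 3, 2, 3, 2, 3],
  [2, 4, 2, 4],
  [2, 5, 2, 5],
  [2, 6, 2, 6],
  [3, 4, 3, 4, 3, 4],
  [3, 5, 3, 5],
  [3, 6, 3, 6],
  [4, 5, 4, 5],
  [4, 6, 4, 6],
  [5, 6, 5, 6, 5, 6, 5, 6],
  [0, 3, 2, 3, 2, 3, 2, 3, 2],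
  [0, 6, 5, 6, 5],
  [0, 1, 2, 5, 0, 1, 2, 5, 0, 1, 2, 5, 0, 1, 2, 5, 0, 1, 2, 5],
  [1, 5, 6, 1, 5, 6, 1, 5, 6, 1, 5, 6, 1, 5, 6],
  [1, 2, 3, 2, 3, 1, 2, 3, 2, 3, 1, 2, 3, 2, 3, 1, 2, 3, 2, 3, 1, 2, 3, 2, 3, 4, 1, 2, 3, 2, 3, 1, 2, 3, 2, 3, 1, 2, 3, 2, 3, 1, 2, 3, 2, 3, 1, 2, 3, 2, 3, 4, 1, 2, 3, 2, 3, 1, 2, 3, 2, 3, 1, 2, 3, 2, 3, 1, 2, 3, 2, 3, 1, 2, 3, 2, 3, 4]]
def sgW : List (List Nat) := [[0],
  [1],
  [2],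
  [3],
  [4],
  [5]]
def tw : List (List Nat) := [[0],
  [1],
  [2],
  [3],
  [4],
  [5],
  [0],
  [1],
  [2],
  [3],
  [4],
  [5],
  [0],
  [1],
  [2],
  [3],
  [4],
  [5],
  [6]]
def invL : List Nat := [0, 1, 2, 3, 4, 5, 6]
def inv : Nat → Nat := nthD 0 invL
def roots : List Nat := [1, 1366]
def nK : Nat := 12
def nL : Nat := 7
def nn : Nat := 1782
def nD : Nat := 11
/-- the per-point check -/
def chkPoint (a : Nat) : Bool :=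
  pointOK tp inv pa pl relW sgW tw 12 roots 7 1782 a

end Cfsg.Agent.Lib.Helper28.T1680LT
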