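import Cfsg.Agent.Lib.Helper28.T1680UT

set_option autoImplicit false

namespace Cfsg.Agent.Lib.Helper28.T1680UC0

open Cfsg.Agent.Lib.Helper28.TCKernel Cfsg.Agent.Lib.Helper28.T1680UT

theorem chk : allTree chkName 14 0 = true := by decide +kernel
theorem cnt : cntTree (aliveB dsig 12363) 14 0 = 1782 := by decide +kernel

end Cfsg.Agent.Lib.Helper28.T1680UC0
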