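import Cfsg.Agent.Lib.Helper28.TCMain
import Cfsg.Agent.Lib.Helper28.PresSuz
import Cfsg.Agent.Lib.Helper28.T1680UC0
import Cfsg.Agent.Lib.Helper28.T1680LC0

set_option autoImplicit false

namespace Cfsg.Agent.Lib.Helper28.T1680X

open Cfsg.Spor Cfsg.Agent.Lib.Helper28.TCKernel Cfsg.Agent.Lib.Helper28.TCSound Cfsg.Agent.Lib.Helper28.TCPerm Cfsg.Agent.Lib.Helper28.TCPres Cfsg.Agent.Lib.Helper28.TCMain

/-- the subgroup generators -/
def sgSrc : List (FreeGroup Suz.Gen) := [Suz.a, Suz.b, Suz.c, Suz.d, Suz.e, Suz.f]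

theorem chunkU : ∀ k, k < 1 → allTree T1680UT.chkName 14 (k * 2 ^ 14) = true
  | 0, _ => T1680UC0.chk
  | (k + 1), h => absurd h (by omega)

theorem chkU (v : Nat) : T1680UT.chkName v = true := by
  rcases Nat.lt_or_ge v (2 ^ 14) with h | h
  · exact allTree_chunks T1680UT.chkName 14 1 chunkU v h
  · exact chk_of_zero _ _ _ _ _ _ _ _ _ _ _ _ _ _ v
      (fun y => fld3_eq_zero _ _ _ _ _ _ _ _ y v 2 (by decide)
        (le_trans (by decide : 2 * 2 ^ (8 + 5) ≤ 2 ^ 14) h))
      (fld1_eq_zero _ _ _ _ _ _ _ _ v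
        (le_trans (by decide : T1680UT.dtop.length * 2 ^ (7 + 5) ≤ 2 ^ 14) h))
      (le_trans (by decide : 12363 ≤ 2 ^ 14) h)

theorem chunkL : ∀ k, k < 1 → allTree T1680LT.chkPoint 11 (k * 2 ^ 11) = true
  | 0, _ => T1680LC0.chk
  | (k + 1), h => absurd h (by omega)

theorem chkL (a : Nat) (ha : a < 1782) : T1680LT.chkPoint a = true :=
  allTree_chunks T1680LT.chkPoint 11 1 chunkL a (lt_of_lt_of_le ha (by decide))

theorem permOK : PermChecks 1782 T1680LT.tp PresSuz.inv T1680LT.pa T1680LT.pl PresSuz.relW T1680LT.sgW T1680LT.tw 12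
    T1680LT.roots 7 where
  point := fun a ha => chkL a ha
  invL := by decide +kernel
  wsL := by decide +kernel
  sgL := by decide +kernel
  twL := by decide +kernel
  root1 := by decide +kernel
  rootpos := by decide +kernel

/-- index and orbit structure of the subgroup -/
theorem final :
    ((Subgroup.closure {s | s ∈ sgSrc}).map (PresentedGroup.mk (coxRelators Suz.edges ∪ {r | r ∈ Suz.extra}))).index = 1782 ∧
    ∃ ψ : (PresentedGroup (coxRelators Suz.edges ∪ {r | r ∈ Suz.extra})) ⧸ ((Subgroup.closure {s | s ∈ sgSrc}).map (PresentedGroup.mk (coxRelators Suz.edges ∪ {r | r ∈ Suz.extra}))) → Fin 1782,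
      Function.Injective ψ ∧
      ∀ r, r < 1782 → (∀ r' ∈ (0 :: T1680LT.roots), clsOf T1680LT.roots r' = clsOf T1680LT.roots r → r' = r) →
        ∃ q, ψ '' (MulAction.orbit ((Subgroup.closure {s | s ∈ sgSrc}).map (PresentedGroup.mk (coxRelators Suz.edges ∪ {r | r ∈ Suz.extra}))) q) = {b : Fin 1782 | clsOf T1680LT.roots b.1 = clsOf T1680LT.roots r} :=
  main PresSuz.ok {s | s ∈ sgSrc} sgSrc rfl T1680LT.sgW (by decide +kernel)
    12363 1782 14 5 131071 T1680UT.tgt T1680UT.sig T1680UT.crt T1680UT.hnt T1680UT.dsig T1680UT.mu T1680UT.dcrt T1680UT.dst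
    T1680UT.par T1680UT.plet T1680UT.certs T1680UT.hints (by decide +kernel)
    (fun y v => fld3_le _ _ _ _ _ _ _ _ y v) (fun v => fld1_le _ _ _ _ _ _ _ _ v) chkU
    (by decide +kernel) (by decide) T1680UC0.cnt
    T1680LT.tp T1680LT.pa T1680LT.pl T1680LT.tw 12 T1680LT.roots permOK (by decide) (by decide +kernel)

end Cfsg.Agent.Lib.Helper28.T1680X
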