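import Cfsg.Agent.Lib.Helper28.T1690LT
import Cfsg.Agent.Lib.Helper28.TCJoin

set_option autoImplicit false
set_option Elab.async false

namespace Cfsg.Agent.Lib.Helper28.T1690LC1

open Cfsg.Agent.Lib.Helper28.TCKernel Cfsg.Agent.Lib.Helper28.TCJoin Cfsg.Agent.Lib.Helper28.T1690LT

theorem chk0 : allTree chkPoint 10 8192 = true := by decide +kernel
theorem chk1 : allTree chkPoint 10 9216 = true := by decide +kernel
theorem chk2 : allTree chkPoint 10 10240 = true := by decide +kernel
theorem chk3 : allTree chkPoint 10 11264 = true := by decide +kernel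
theorem chk4 : allTree chkPoint 10 12288 = true := by decide +kernel
theorem chk5 : allTree chkPoint 10 13312 = true := by decide +kernel
theorem chk6 : allTree chkPoint 10 14336 = true := by decide +kernel
theorem chk7 : allTree chkPoint 10 15360 = true := by decide +kernel
theorem chk : allTree chkPoint 13 8192 = true :=
  (join chkPoint 12 8192 (join chkPoint 11 8192 (join chkPoint 10 8192 chk0 chk1) (join chkPoint 10 10240 chk2 chk3)) (join chkPoint 11 12288 (join chkPoint 10 12288 chk4 chk5) (join chkPoint 10 14336 chk6 chk7)))

end Cfsg.Agent.Lib.Helper28.T1690LC1
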