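import Cfsg.Agent.Lib.Helper28.T1690LT
import Cfsg.Agent.Lib.Helper28.TCJoin

set_option autoImplicit false
set_option Elab.async false

namespace Cfsg.Agent.Lib.Helper28.T1690LC10

open Cfsg.Agent.Lib.Helper28.TCKernel Cfsg.Agent.Lib.Helper28.TCJoin Cfsg.Agent.Lib.Helper28.T1690LT

theorem chk0 : allTree chkPoint 10 81920 = true := by decide +kernel
theorem chk1 : allTree chkPoint 10 82944 = true := by decide +kernel
theorem chk2 : allTree chkPoint 10 83968 = true := by decide +kernel
theorem chk3 : allTree chkPoint 10 84992 = true := by decide +kernel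
theorem chk4 : allTree chkPoint 10 86016 = true := by decide +kernel
theorem chk5 : allTree chkPoint 10 87040 = true := by decide +kernel
theorem chk6 : allTree chkPoint 10 88064 = true := by decide +kernel
theorem chk7 : allTree chkPoint 10 89088 = true := by decide +kernel
theorem chk : allTree chkPoint 13 81920 = true :=
  (join chkPoint 12 81920 (join chkPoint 11 81920 (join chkPoint 10 81920 chk0 chk1) (join chkPoint 10 83968 chk2 chk3)) (join chkPoint 11 86016 (join chkPoint 10 86016 chk4 chk5) (join chkPoint 10 88064 chk6 chk7)))

end Cfsg.Agent.Lib.Helper28.T1690LC10
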