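import Cfsg.Agent.Lib.Helper28.T1690LT
import Cfsg.Agent.Lib.Helper28.TCJoin

set_option autoImplicit false
set_option Elab.async false

namespace Cfsg.Agent.Lib.Helper28.T1690LC11

open Cfsg.Agent.Lib.Helper28.TCKernel Cfsg.Agent.Lib.Helper28.TCJoin Cfsg.Agent.Lib.Helper28.T1690LT

theorem chk0 : allTree chkPoint 10 90112 = true := by decide +kernel
theorem chk1 : allTree chkPoint 10 91136 = true := by decide +kernel
theorem chk2 : allTree chkPoint 10 92160 = true := by decide +kernel
theorem chk3 : allTree chkPoint 10 93184 = true := by decide +kernel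
theorem chk4 : allTree chkPoint 10 94208 = true := by decide +kernel
theorem chk5 : allTree chkPoint 10 95232 = true := by decide +kernel
theorem chk6 : allTree chkPoint 10 96256 = true := by decide +kernel
theorem chk7 : allTree chkPoint 10 97280 = true := by decide +kernel
theorem chk : allTree chkPoint 13 90112 = true :=
  (join chkPoint 12 90112 (join chkPoint 11 90112 (join chkPoint 10 90112 chk0 chk1) (join chkPoint 10 92160 chk2 chk3)) (join chkPoint 11 94208 (join chkPoint 10 94208 chk4 chk5) (join chkPoint 10 96256 chk6 chk7)))

end Cfsg.Agent.Lib.Helper28.T1690LC11
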