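import Cfsg.Agent.Lib.Helper28.T1690LT
import Cfsg.Agent.Lib.Helper28.TCJoin

set_option autoImplicit false
set_option Elab.async false

namespace Cfsg.Agent.Lib.Helper28.T1690LC12

open Cfsg.Agent.Lib.Helper28.TCKernel Cfsg.Agent.Lib.Helper28.TCJoin Cfsg.Agent.Lib.Helper28.T1690LT

theorem chk0 : allTree chkPoint 10 98304 = true := by decide +kernel
theorem chk1 : allTree chkPoint 10 99328 = true := by decide +kernel
theorem chk2 : allTree chkPoint 10 100352 = true := by decide +kernel
theorem chk3 : allTree chkPoint 10 101376 = true := by decide +kernel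
theorem chk4 : allTree chkPoint 10 102400 = true := by decide +kernel
theorem chk5 : allTree chkPoint 10 103424 = true := by decide +kernel
theorem chk6 : allTree chkPoint 10 104448 = true := by decide +kernel
theorem chk7 : allTree chkPoint 10 105472 = true := by decide +kernel
theorem chk : allTree chkPoint 13 98304 = true :=
  (join chkPoint 12 98304 (join chkPoint 11 98304 (join chkPoint 10 98304 chk0 chk1) (join chkPoint 10 100352 chk2 chk3)) (join chkPoint 11 102400 (join chkPoint 10 102400 chk4 chk5) (join chkPoint 10 104448 chk6 chk7)))

end Cfsg.Agent.Lib.Helper28.T1690LC12
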