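import Cfsg.Agent.Lib.Helper28.T1690LT
import Cfsg.Agent.Lib.Helper28.TCJoin

set_option autoImplicit false
set_option Elab.async false

namespace Cfsg.Agent.Lib.Helper28.T1690LC13

open Cfsg.Agent.Lib.Helper28.TCKernel Cfsg.Agent.Lib.Helper28.TCJoin Cfsg.Agent.Lib.Helper28.T1690LT

theorem chk0 : allTree chkPoint 10 106496 = true := by decide +kernel
theorem chk1 : allTree chkPoint 10 107520 = true := by decide +kernel
theorem chk2 : allTree chkPoint 10 108544 = true := by decide +kernel
theorem chk3 : allTree chkPoint 10 109568 = true := by decide +kernel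
theorem chk4 : allTree chkPoint 10 110592 = true := by decide +kernel
theorem chk5 : allTree chkPoint 10 111616 = true := by decide +kernel
theorem chk6 : allTree chkPoint 10 112640 = true := by decide +kernel
theorem chk7 : allTree chkPoint 10 113664 = true := by decide +kernel
theorem chk : allTree chkPoint 13 106496 = true :=
  (join chkPoint 12 106496 (join chkPoint 11 106496 (join chkPoint 10 106496 chk0 chk1) (join chkPoint 10 108544 chk2 chk3)) (join chkPoint 11 110592 (join chkPoint 10 110592 chk4 chk5) (join chkPoint 10 112640 chk6 chk7)))

end Cfsg.Agent.Lib.Helper28.T1690LC13
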