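import Cfsg.Agent.Lib.Helper28.T1690LT
import Cfsg.Agent.Lib.Helper28.TCJoin

set_option autoImplicit false
set_option Elab.async false

namespace Cfsg.Agent.Lib.Helper28.T1690LC14

open Cfsg.Agent.Lib.Helper28.TCKernel Cfsg.Agent.Lib.Helper28.TCJoin Cfsg.Agent.Lib.Helper28.T1690LT

theorem chk0 : allTree chkPoint 10 114688 = true := by decide +kernel
theorem chk1 : allTree chkPoint 10 115712 = true := by decide +kernel
theorem chk2 : allTree chkPoint 10 116736 = true := by decide +kernel
theorem chk3 : allTree chkPoint 10 117760 = true := by decide +kernel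
theorem chk4 : allTree chkPoint 10 118784 = true := by decide +kernel
theorem chk5 : allTree chkPoint 10 119808 = true := by decide +kernel
theorem chk6 : allTree chkPoint 10 120832 = true := by decide +kernel
theorem chk7 : allTree chkPoint 10 121856 = true := by decide +kernel
theorem chk : allTree chkPoint 13 114688 = true :=
  (join chkPoint 12 114688 (join chkPoint 11 114688 (join chkPoint 10 114688 chk0 chk1) (join chkPoint 10 116736 chk2 chk3)) (join chkPoint 11 118784 (join chkPoint 10 118784 chk4 chk5) (join chkPoint 10 120832 chk6 chk7)))

end Cfsg.Agent.Lib.Helper28.T1690LC14
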