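import Cfsg.Agent.Lib.Helper28.T1690LT
import Cfsg.Agent.Lib.Helper28.TCJoin

set_option autoImplicit false
set_option Elab.async false

namespace Cfsg.Agent.Lib.Helper28.T1690LC15

open Cfsg.Agent.Lib.Helper28.TCKernel Cfsg.Agent.Lib.Helper28.TCJoin Cfsg.Agent.Lib.Helper28.T1690LT

theorem chk0 : allTree chkPoint 10 122880 = true := by decide +kernel
theorem chk1 : allTree chkPoint 10 123904 = true := by decide +kernel
theorem chk2 : allTree chkPoint 10 124928 = true := by decide +kernel
theorem chk3 : allTree chkPoint 10 125952 = true := by decide +kernel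
theorem chk4 : allTree chkPoint 10 126976 = true := by decide +kernel
theorem chk5 : allTree chkPoint 10 128000 = true := by decide +kernel
theorem chk6 : allTree chkPoint 10 129024 = true := by decide +kernel
theorem chk7 : allTree chkPoint 10 130048 = true := by decide +kernel
theorem chk : allTree chkPoint 13 122880 = true :=
  (join chkPoint 12 122880 (join chkPoint 11 122880 (join chkPoint 10 122880 chk0 chk1) (join chkPoint 10 124928 chk2 chk3)) (join chkPoint 11 126976 (join chkPoint 10 126976 chk4 chk5) (join chkPoint 10 129024 chk6 chk7)))

end Cfsg.Agent.Lib.Helper28.T1690LC15
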