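import Cfsg.Agent.Lib.Helper28.T1690LT
import Cfsg.Agent.Lib.Helper28.TCJoin

set_option autoImplicit false
set_option Elab.async false

namespace Cfsg.Agent.Lib.Helper28.T1690LC16

open Cfsg.Agent.Lib.Helper28.TCKernel Cfsg.Agent.Lib.Helper28.TCJoin Cfsg.Agent.Lib.Helper28.T1690LT

theorem chk0 : allTree chkPoint 10 131072 = true := by decide +kernel
theorem chk1 : allTree chkPoint 10 132096 = true := by decide +kernel
theorem chk2 : allTree chkPoint 10 133120 = true := by decide +kernel
theorem chk3 : allTree chkPoint 10 134144 = true := by decide +kernel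
theorem chk4 : allTree chkPoint 10 135168 = true := by decide +kernel
theorem chk5 : allTree chkPoint 10 136192 = true := by decide +kernel
theorem chk6 : allTree chkPoint 10 137216 = true := by decide +kernel
theorem chk7 : allTree chkPoint 10 138240 = true := by decide +kernel
theorem chk : allTree chkPoint 13 131072 = true :=
  (join chkPoint 12 131072 (join chkPoint 11 131072 (join chkPoint 10 131072 chk0 chk1) (join chkPoint 10 133120 chk2 chk3)) (join chkPoint 11 135168 (join chkPoint 10 135168 chk4 chk5) (join chkPoint 10 137216 chk6 chk7)))

end Cfsg.Agent.Lib.Helper28.T1690LC16
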