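import Cfsg.Agent.Lib.Helper28.T1690LT
import Cfsg.Agent.Lib.Helper28.TCJoin

set_option autoImplicit false
set_option Elab.async false

namespace Cfsg.Agent.Lib.Helper28.T1690LC17

open Cfsg.Agent.Lib.Helper28.TCKernel Cfsg.Agent.Lib.Helper28.TCJoin Cfsg.Agent.Lib.Helper28.T1690LT

theorem chk0 : allTree chkPoint 10 139264 = true := by decide +kernel
theorem chk1 : allTree chkPoint 10 140288 = true := by decide +kernel
theorem chk2 : allTree chkPoint 10 141312 = true := by decide +kernel
theorem chk3 : allTree chkPoint 10 142336 = true := by decide +kernel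
theorem chk4 : allTree chkPoint 10 143360 = true := by decide +kernel
theorem chk5 : allTree chkPoint 10 144384 = true := by decide +kernel
theorem chk6 : allTree chkPoint 10 145408 = true := by decide +kernel
theorem chk7 : allTree chkPoint 10 146432 = true := by decide +kernel
theorem chk : allTree chkPoint 13 139264 = true :=
  (join chkPoint 12 139264 (join chkPoint 11 139264 (join chkPoint 10 139264 chk0 chk1) (join chkPoint 10 141312 chk2 chk3)) (join chkPoint 11 143360 (join chkPoint 10 143360 chk4 chk5) (join chkPoint 10 145408 chk6 chk7)))

end Cfsg.Agent.Lib.Helper28.T1690LC17
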