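import Cfsg.Agent.Lib.Helper28.T1690LT
import Cfsg.Agent.Lib.Helper28.TCJoin

set_option autoImplicit false
set_option Elab.async false

namespace Cfsg.Agent.Lib.Helper28.T1690LC18

open Cfsg.Agent.Lib.Helper28.TCKernel Cfsg.Agent.Lib.Helper28.TCJoin Cfsg.Agent.Lib.Helper28.T1690LT

theorem chk0 : allTree chkPoint 10 147456 = true := by decide +kernel
theorem chk1 : allTree chkPoint 10 148480 = true := by decide +kernel
theorem chk2 : allTree chkPoint 10 149504 = true := by decide +kernel
theorem chk3 : allTree chkPoint 10 150528 = true := by decide +kernel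
theorem chk4 : allTree chkPoint 10 151552 = true := by decide +kernel
theorem chk5 : allTree chkPoint 10 152576 = true := by decide +kernel
theorem chk6 : allTree chkPoint 10 153600 = true := by decide +kernel
theorem chk7 : allTree chkPoint 10 154624 = true := by decide +kernel
theorem chk : allTree chkPoint 13 147456 = true :=
  (join chkPoint 12 147456 (join chkPoint 11 147456 (join chkPoint 10 147456 chk0 chk1) (join chkPoint 10 149504 chk2 chk3)) (join chkPoint 11 151552 (join chkPoint 10 151552 chk4 chk5) (join chkPoint 10 153600 chk6 chk7)))

end Cfsg.Agent.Lib.Helper28.T1690LC18
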