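import Cfsg.Agent.Lib.Helper28.T1690LT
import Cfsg.Agent.Lib.Helper28.TCJoin

set_option autoImplicit false
set_option Elab.async false

namespace Cfsg.Agent.Lib.Helper28.T1690LC19

open Cfsg.Agent.Lib.Helper28.TCKernel Cfsg.Agent.Lib.Helper28.TCJoin Cfsg.Agent.Lib.Helper28.T1690LT

theorem chk0 : allTree chkPoint 10 155648 = true := by decide +kernel
theorem chk1 : allTree chkPoint 10 156672 = true := by decide +kernel
theorem chk2 : allTree chkPoint 10 157696 = true := by decide +kernel
theorem chk3 : allTree chkPoint 10 158720 = true := by decide +kernel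
theorem chk4 : allTree chkPoint 10 159744 = true := by decide +kernel
theorem chk5 : allTree chkPoint 10 160768 = true := by decide +kernel
theorem chk6 : allTree chkPoint 10 161792 = true := by decide +kernel
theorem chk7 : allTree chkPoint 10 162816 = true := by decide +kernel
theorem chk : allTree chkPoint 13 155648 = true :=
  (join chkPoint 12 155648 (join chkPoint 11 155648 (join chkPoint 10 155648 chk0 chk1) (join chkPoint 10 157696 chk2 chk3)) (join chkPoint 11 159744 (join chkPoint 10 159744 chk4 chk5) (join chkPoint 10 161792 chk6 chk7)))

end Cfsg.Agent.Lib.Helper28.T1690LC19
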