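import Cfsg.Agent.Lib.Helper28.T1690LT
import Cfsg.Agent.Lib.Helper28.TCJoin

set_option autoImplicit false
set_option Elab.async false

namespace Cfsg.Agent.Lib.Helper28.T1690LC20

open Cfsg.Agent.Lib.Helper28.TCKernel Cfsg.Agent.Lib.Helper28.TCJoin Cfsg.Agent.Lib.Helper28.T1690LT

theorem chk0 : allTree chkPoint 10 163840 = true := by decide +kernel
theorem chk1 : allTree chkPoint 10 164864 = true := by decide +kernel
theorem chk2 : allTree chkPoint 10 165888 = true := by decide +kernel
theorem chk3 : allTree chkPoint 10 166912 = true := by decide +kernel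
theorem chk4 : allTree chkPoint 10 167936 = true := by decide +kernel
theorem chk5 : allTree chkPoint 10 168960 = true := by decide +kernel
theorem chk6 : allTree chkPoint 10 169984 = true := by decide +kernel
theorem chk7 : allTree chkPoint 10 171008 = true := by decide +kernel
theorem chk : allTree chkPoint 13 163840 = true :=
  (join chkPoint 12 163840 (join chkPoint 11 163840 (join chkPoint 10 163840 chk0 chk1) (join chkPoint 10 165888 chk2 chk3)) (join chkPoint 11 167936 (join chkPoint 10 167936 chk4 chk5) (join chkPoint 10 169984 chk6 chk7)))

end Cfsg.Agent.Lib.Helper28.T1690LC20
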