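import Cfsg.Agent.Lib.Helper28.T1690LT
import Cfsg.Agent.Lib.Helper28.TCJoin

set_option autoImplicit false
set_option Elab.async false

namespace Cfsg.Agent.Lib.Helper28.T1690LC21

open Cfsg.Agent.Lib.Helper28.TCKernel Cfsg.Agent.Lib.Helper28.TCJoin Cfsg.Agent.Lib.Helper28.T1690LT

theorem chk0 : allTree chkPoint 10 172032 = true := by decide +kernel
theorem chk1 : allTree chkPoint 10 173056 = true := by decide +kernel
theorem chk2 : allTree chkPoint 10 174080 = true := by decide +kernel
theorem chk3 : allTree chkPoint 10 175104 = true := by decide +kernel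
theorem chk4 : allTree chkPoint 10 176128 = true := by decide +kernel
theorem chk5 : allTree chkPoint 10 177152 = true := by decide +kernel
theorem chk6 : allTree chkPoint 10 178176 = true := by decide +kernel
theorem chk7 : allTree chkPoint 10 179200 = true := by decide +kernel
theorem chk : allTree chkPoint 13 172032 = true :=
  (join chkPoint 12 172032 (join chkPoint 11 172032 (join chkPoint 10 172032 chk0 chk1) (join chkPoint 10 174080 chk2 chk3)) (join chkPoint 11 176128 (join chkPoint 10 176128 chk4 chk5) (join chkPoint 10 178176 chk6 chk7)))

end Cfsg.Agent.Lib.Helper28.T1690LC21
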