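import Cfsg.Agent.Lib.Helper28.T1690LT
import Cfsg.Agent.Lib.Helper28.TCJoin

set_option autoImplicit false
set_option Elab.async false

namespace Cfsg.Agent.Lib.Helper28.T1690LC22

open Cfsg.Agent.Lib.Helper28.TCKernel Cfsg.Agent.Lib.Helper28.TCJoin Cfsg.Agent.Lib.Helper28.T1690LT

theorem chk0 : allTree chkPoint 10 180224 = true := by decide +kernel
theorem chk1 : allTree chkPoint 10 181248 = true := by decide +kernel
theorem chk2 : allTree chkPoint 10 182272 = true := by decide +kernel
theorem chk3 : allTree chkPoint 10 183296 = true := by decide +kernel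
theorem chk4 : allTree chkPoint 10 184320 = true := by decide +kernel
theorem chk5 : allTree chkPoint 10 185344 = true := by decide +kernel
theorem chk6 : allTree chkPoint 10 186368 = true := by decide +kernel
theorem chk7 : allTree chkPoint 10 187392 = true := by decide +kernel
theorem chk : allTree chkPoint 13 180224 = true :=
  (join chkPoint 12 180224 (join chkPoint 11 180224 (join chkPoint 10 180224 chk0 chk1) (join chkPoint 10 182272 chk2 chk3)) (join chkPoint 11 184320 (join chkPoint 10 184320 chk4 chk5) (join chkPoint 10 186368 chk6 chk7)))

end Cfsg.Agent.Lib.Helper28.T1690LC22
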