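import Cfsg.Agent.Lib.Helper28.T1690LT
import Cfsg.Agent.Lib.Helper28.TCJoin

set_option autoImplicit false
set_option Elab.async false

namespace Cfsg.Agent.Lib.Helper28.T1690LC23

open Cfsg.Agent.Lib.Helper28.TCKernel Cfsg.Agent.Lib.Helper28.TCJoin Cfsg.Agent.Lib.Helper28.T1690LT

theorem chk0 : allTree chkPoint 10 188416 = true := by decide +kernel
theorem chk1 : allTree chkPoint 10 189440 = true := by decide +kernel
theorem chk2 : allTree chkPoint 10 190464 = true := by decide +kernel
theorem chk3 : allTree chkPoint 10 191488 = true := by decide +kernel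
theorem chk4 : allTree chkPoint 10 192512 = true := by decide +kernel
theorem chk5 : allTree chkPoint 10 193536 = true := by decide +kernel
theorem chk6 : allTree chkPoint 10 194560 = true := by decide +kernel
theorem chk7 : allTree chkPoint 10 195584 = true := by decide +kernel
theorem chk : allTree chkPoint 13 188416 = true :=
  (join chkPoint 12 188416 (join chkPoint 11 188416 (join chkPoint 10 188416 chk0 chk1) (join chkPoint 10 190464 chk2 chk3)) (join chkPoint 11 192512 (join chkPoint 10 192512 chk4 chk5) (join chkPoint 10 194560 chk6 chk7)))

end Cfsg.Agent.Lib.Helper28.T1690LC23
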