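import Cfsg.Agent.Lib.Helper28.T1690LT
import Cfsg.Agent.Lib.Helper28.TCJoin

set_option autoImplicit false
set_option Elab.async false

namespace Cfsg.Agent.Lib.Helper28.T1690LC24

open Cfsg.Agent.Lib.Helper28.TCKernel Cfsg.Agent.Lib.Helper28.TCJoin Cfsg.Agent.Lib.Helper28.T1690LT

theorem chk0 : allTree chkPoint 10 196608 = true := by decide +kernel
theorem chk1 : allTree chkPoint 10 197632 = true := by decide +kernel
theorem chk2 : allTree chkPoint 10 198656 = true := by decide +kernel
theorem chk3 : allTree chkPoint 10 199680 = true := by decide +kernel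
theorem chk4 : allTree chkPoint 10 200704 = true := by decide +kernel
theorem chk5 : allTree chkPoint 10 201728 = true := by decide +kernel
theorem chk6 : allTree chkPoint 10 202752 = true := by decide +kernel
theorem chk7 : allTree chkPoint 10 203776 = true := by decide +kernel
theorem chk : allTree chkPoint 13 196608 = true :=
  (join chkPoint 12 196608 (join chkPoint 11 196608 (join chkPoint 10 196608 chk0 chk1) (join chkPoint 10 198656 chk2 chk3)) (join chkPoint 11 200704 (join chkPoint 10 200704 chk4 chk5) (join chkPoint 10 202752 chk6 chk7)))

end Cfsg.Agent.Lib.Helper28.T1690LC24
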