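import Cfsg.Agent.Lib.Helper28.T1690LT
import Cfsg.Agent.Lib.Helper28.TCJoin

set_option autoImplicit false
set_option Elab.async false

namespace Cfsg.Agent.Lib.Helper28.T1690LC25

open Cfsg.Agent.Lib.Helper28.TCKernel Cfsg.Agent.Lib.Helper28.TCJoin Cfsg.Agent.Lib.Helper28.T1690LT

theorem chk0 : allTree chkPoint 10 204800 = true := by decide +kernel
theorem chk1 : allTree chkPoint 10 205824 = true := by decide +kernel
theorem chk2 : allTree chkPoint 10 206848 = true := by decide +kernel
theorem chk3 : allTree chkPoint 10 207872 = true := by decide +kernel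
theorem chk4 : allTree chkPoint 10 208896 = true := by decide +kernel
theorem chk5 : allTree chkPoint 10 209920 = true := by decide +kernel
theorem chk6 : allTree chkPoint 10 210944 = true := by decide +kernel
theorem chk7 : allTree chkPoint 10 211968 = true := by decide +kernel
theorem chk : allTree chkPoint 13 204800 = true :=
  (join chkPoint 12 204800 (join chkPoint 11 204800 (join chkPoint 10 204800 chk0 chk1) (join chkPoint 10 206848 chk2 chk3)) (join chkPoint 11 208896 (join chkPoint 10 208896 chk4 chk5) (join chkPoint 10 210944 chk6 chk7)))

end Cfsg.Agent.Lib.Helper28.T1690LC25
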