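import Cfsg.Agent.Lib.Helper28.T1690LT
import Cfsg.Agent.Lib.Helper28.TCJoin

set_option autoImplicit false
set_option Elab.async false

namespace Cfsg.Agent.Lib.Helper28.T1690LC26

open Cfsg.Agent.Lib.Helper28.TCKernel Cfsg.Agent.Lib.Helper28.TCJoin Cfsg.Agent.Lib.Helper28.T1690LT

theorem chk0 : allTree chkPoint 10 212992 = true := by decide +kernel
theorem chk1 : allTree chkPoint 10 214016 = true := by decide +kernel
theorem chk2 : allTree chkPoint 10 215040 = true := by decide +kernel
theorem chk3 : allTree chkPoint 10 216064 = true := by decide +kernel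
theorem chk4 : allTree chkPoint 10 217088 = true := by decide +kernel
theorem chk5 : allTree chkPoint 10 218112 = true := by decide +kernel
theorem chk6 : allTree chkPoint 10 219136 = true := by decide +kernel
theorem chk7 : allTree chkPoint 10 220160 = true := by decide +kernel
theorem chk : allTree chkPoint 13 212992 = true :=
  (join chkPoint 12 212992 (join chkPoint 11 212992 (join chkPoint 10 212992 chk0 chk1) (join chkPoint 10 215040 chk2 chk3)) (join chkPoint 11 217088 (join chkPoint 10 217088 chk4 chk5) (join chkPoint 10 219136 chk6 chk7)))

end Cfsg.Agent.Lib.Helper28.T1690LC26
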