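import Cfsg.Agent.Lib.Helper28.T1690LT
import Cfsg.Agent.Lib.Helper28.TCJoin

set_option autoImplicit false
set_option Elab.async false

namespace Cfsg.Agent.Lib.Helper28.T1690LC27

open Cfsg.Agent.Lib.Helper28.TCKernel Cfsg.Agent.Lib.Helper28.TCJoin Cfsg.Agent.Lib.Helper28.T1690LT

theorem chk0 : allTree chkPoint 10 221184 = true := by decide +kernel
theorem chk1 : allTree chkPoint 10 222208 = true := by decide +kernel
theorem chk2 : allTree chkPoint 10 223232 = true := by decide +kernel
theorem chk3 : allTree chkPoint 10 224256 = true := by decide +kernel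
theorem chk4 : allTree chkPoint 10 225280 = true := by decide +kernel
theorem chk5 : allTree chkPoint 10 226304 = true := by decide +kernel
theorem chk6 : allTree chkPoint 10 227328 = true := by decide +kernel
theorem chk7 : allTree chkPoint 10 228352 = true := by decide +kernel
theorem chk : allTree chkPoint 13 221184 = true :=
  (join chkPoint 12 221184 (join chkPoint 11 221184 (join chkPoint 10 221184 chk0 chk1) (join chkPoint 10 223232 chk2 chk3)) (join chkPoint 11 225280 (join chkPoint 10 225280 chk4 chk5) (join chkPoint 10 227328 chk6 chk7)))

end Cfsg.Agent.Lib.Helper28.T1690LC27
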