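import Cfsg.Agent.Lib.Helper28.T1690LT
import Cfsg.Agent.Lib.Helper28.TCJoin

set_option autoImplicit false
set_option Elab.async false

namespace Cfsg.Agent.Lib.Helper28.T1690LC28

open Cfsg.Agent.Lib.Helper28.TCKernel Cfsg.Agent.Lib.Helper28.TCJoin Cfsg.Agent.Lib.Helper28.T1690LT

theorem chk0 : allTree chkPoint 10 229376 = true := by decide +kernel
theorem chk1 : allTree chkPoint 10 230400 = true := by decide +kernel
theorem chk2 : allTree chkPoint 10 231424 = true := by decide +kernel
theorem chk3 : allTree chkPoint 10 232448 = true := by decide +kernel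
theorem chk4 : allTree chkPoint 10 233472 = true := by decide +kernel
theorem chk5 : allTree chkPoint 10 234496 = true := by decide +kernel
theorem chk6 : allTree chkPoint 10 235520 = true := by decide +kernel
theorem chk7 : allTree chkPoint 10 236544 = true := by decide +kernel
theorem chk : allTree chkPoint 13 229376 = true :=
  (join chkPoint 12 229376 (join chkPoint 11 229376 (join chkPoint 10 229376 chk0 chk1) (join chkPoint 10 231424 chk2 chk3)) (join chkPoint 11 233472 (join chkPoint 10 233472 chk4 chk5) (join chkPoint 10 235520 chk6 chk7)))

end Cfsg.Agent.Lib.Helper28.T1690LC28
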