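import Cfsg.Agent.Lib.Helper28.T1690LT
import Cfsg.Agent.Lib.Helper28.TCJoin

set_option autoImplicit false
set_option Elab.async false

namespace Cfsg.Agent.Lib.Helper28.T1690LC29

open Cfsg.Agent.Lib.Helper28.TCKernel Cfsg.Agent.Lib.Helper28.TCJoin Cfsg.Agent.Lib.Helper28.T1690LT

theorem chk0 : allTree chkPoint 10 237568 = true := by decide +kernel
theorem chk1 : allTree chkPoint 10 238592 = true := by decide +kernel
theorem chk2 : allTree chkPoint 10 239616 = true := by decide +kernel
theorem chk3 : allTree chkPoint 10 240640 = true := by decide +kernel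
theorem chk4 : allTree chkPoint 10 241664 = true := by decide +kernel
theorem chk5 : allTree chkPoint 10 242688 = true := by decide +kernel
theorem chk6 : allTree chkPoint 10 243712 = true := by decide +kernel
theorem chk7 : allTree chkPoint 10 244736 = true := by decide +kernel
theorem chk : allTree chkPoint 13 237568 = true :=
  (join chkPoint 12 237568 (join chkPoint 11 237568 (join chkPoint 10 237568 chk0 chk1) (join chkPoint 10 239616 chk2 chk3)) (join chkPoint 11 241664 (join chkPoint 10 241664 chk4 chk5) (join chkPoint 10 243712 chk6 chk7)))

end Cfsg.Agent.Lib.Helper28.T1690LC29
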