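import Cfsg.Agent.Lib.Helper28.T1690LT
import Cfsg.Agent.Lib.Helper28.TCJoin

set_option autoImplicit false
set_option Elab.async false

namespace Cfsg.Agent.Lib.Helper28.T1690LC30

open Cfsg.Agent.Lib.Helper28.TCKernel Cfsg.Agent.Lib.Helper28.TCJoin Cfsg.Agent.Lib.Helper28.T1690LT

theorem chk0 : allTree chkPoint 10 245760 = true := by decide +kernel
theorem chk1 : allTree chkPoint 10 246784 = true := by decide +kernel
theorem chk2 : allTree chkPoint 10 247808 = true := by decide +kernel
theorem chk3 : allTree chkPoint 10 248832 = true := by decide +kernel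
theorem chk4 : allTree chkPoint 10 249856 = true := by decide +kernel
theorem chk5 : allTree chkPoint 10 250880 = true := by decide +kernel
theorem chk6 : allTree chkPoint 10 251904 = true := by decide +kernel
theorem chk7 : allTree chkPoint 10 252928 = true := by decide +kernel
theorem chk : allTree chkPoint 13 245760 = true :=
  (join chkPoint 12 245760 (join chkPoint 11 245760 (join chkPoint 10 245760 chk0 chk1) (join chkPoint 10 247808 chk2 chk3)) (join chkPoint 11 249856 (join chkPoint 10 249856 chk4 chk5) (join chkPoint 10 251904 chk6 chk7)))

end Cfsg.Agent.Lib.Helper28.T1690LC30
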