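import Cfsg.Agent.Lib.Helper28.T1690LT
import Cfsg.Agent.Lib.Helper28.TCJoin

set_option autoImplicit false
set_option Elab.async false

namespace Cfsg.Agent.Lib.Helper28.T1690LC31

open Cfsg.Agent.Lib.Helper28.TCKernel Cfsg.Agent.Lib.Helper28.TCJoin Cfsg.Agent.Lib.Helper28.T1690LT

theorem chk0 : allTree chkPoint 10 253952 = true := by decide +kernel
theorem chk1 : allTree chkPoint 10 254976 = true := by decide +kernel
theorem chk2 : allTree chkPoint 10 256000 = true := by decide +kernel
theorem chk3 : allTree chkPoint 10 257024 = true := by decide +kernel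
theorem chk4 : allTree chkPoint 10 258048 = true := by decide +kernel
theorem chk5 : allTree chkPoint 10 259072 = true := by decide +kernel
theorem chk6 : allTree chkPoint 10 260096 = true := by decide +kernel
theorem chk7 : allTree chkPoint 10 261120 = true := by decide +kernel
theorem chk : allTree chkPoint 13 253952 = true :=
  (join chkPoint 12 253952 (join chkPoint 11 253952 (join chkPoint 10 253952 chk0 chk1) (join chkPoint 10 256000 chk2 chk3)) (join chkPoint 11 258048 (join chkPoint 10 258048 chk4 chk5) (join chkPoint 10 260096 chk6 chk7)))

end Cfsg.Agent.Lib.Helper28.T1690LC31
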