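import Cfsg.Agent.Lib.Helper28.T1690LT
import Cfsg.Agent.Lib.Helper28.TCJoin

set_option autoImplicit false
set_option Elab.async false

namespace Cfsg.Agent.Lib.Helper28.T1690LC32

open Cfsg.Agent.Lib.Helper28.TCKernel Cfsg.Agent.Lib.Helper28.TCJoin Cfsg.Agent.Lib.Helper28.T1690LT

theorem chk0 : allTree chkPoint 10 262144 = true := by decide +kernel
theorem chk1 : allTree chkPoint 10 263168 = true := by decide +kernel
theorem chk2 : allTree chkPoint 10 264192 = true := by decide +kernel
theorem chk3 : allTree chkPoint 10 265216 = true := by decide +kernel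
theorem chk4 : allTree chkPoint 10 266240 = true := by decide +kernel
theorem chk5 : allTree chkPoint 10 267264 = true := by decide +kernel
theorem chk6 : allTree chkPoint 10 268288 = true := by decide +kernel
theorem chk7 : allTree chkPoint 10 269312 = true := by decide +kernel
theorem chk : allTree chkPoint 13 262144 = true :=
  (join chkPoint 12 262144 (join chkPoint 11 262144 (join chkPoint 10 262144 chk0 chk1) (join chkPoint 10 264192 chk2 chk3)) (join chkPoint 11 266240 (join chkPoint 10 266240 chk4 chk5) (join chkPoint 10 268288 chk6 chk7)))

end Cfsg.Agent.Lib.Helper28.T1690LC32
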