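import Cfsg.Agent.Lib.Helper28.T1690LT
import Cfsg.Agent.Lib.Helper28.TCJoin

set_option autoImplicit false
set_option Elab.async false

namespace Cfsg.Agent.Lib.Helper28.T1690LC33

open Cfsg.Agent.Lib.Helper28.TCKernel Cfsg.Agent.Lib.Helper28.TCJoin Cfsg.Agent.Lib.Helper28.T1690LT

theorem chk0 : allTree chkPoint 10 270336 = true := by decide +kernel
theorem chk1 : allTree chkPoint 10 271360 = true := by decide +kernel
theorem chk2 : allTree chkPoint 10 272384 = true := by decide +kernel
theorem chk3 : allTree chkPoint 10 273408 = true := by decide +kernel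
theorem chk4 : allTree chkPoint 10 274432 = true := by decide +kernel
theorem chk5 : allTree chkPoint 10 275456 = true := by decide +kernel
theorem chk6 : allTree chkPoint 10 276480 = true := by decide +kernel
theorem chk7 : allTree chkPoint 10 277504 = true := by decide +kernel
theorem chk : allTree chkPoint 13 270336 = true :=
  (join chkPoint 12 270336 (join chkPoint 11 270336 (join chkPoint 10 270336 chk0 chk1) (join chkPoint 10 272384 chk2 chk3)) (join chkPoint 11 274432 (join chkPoint 10 274432 chk4 chk5) (join chkPoint 10 276480 chk6 chk7)))

end Cfsg.Agent.Lib.Helper28.T1690LC33
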