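import Cfsg.Agent.Lib.Helper28.T1690LT
import Cfsg.Agent.Lib.Helper28.TCJoin

set_option autoImplicit false
set_option Elab.async false

namespace Cfsg.Agent.Lib.Helper28.T1690LC34

open Cfsg.Agent.Lib.Helper28.TCKernel Cfsg.Agent.Lib.Helper28.TCJoin Cfsg.Agent.Lib.Helper28.T1690LT

theorem chk0 : allTree chkPoint 10 278528 = true := by decide +kernel
theorem chk1 : allTree chkPoint 10 279552 = true := by decide +kernel
theorem chk2 : allTree chkPoint 10 280576 = true := by decide +kernel
theorem chk3 : allTree chkPoint 10 281600 = true := by decide +kernel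
theorem chk4 : allTree chkPoint 10 282624 = true := by decide +kernel
theorem chk5 : allTree chkPoint 10 283648 = true := by decide +kernel
theorem chk6 : allTree chkPoint 10 284672 = true := by decide +kernel
theorem chk7 : allTree chkPoint 10 285696 = true := by decide +kernel
theorem chk : allTree chkPoint 13 278528 = true :=
  (join chkPoint 12 278528 (join chkPoint 11 278528 (join chkPoint 10 278528 chk0 chk1) (join chkPoint 10 280576 chk2 chk3)) (join chkPoint 11 282624 (join chkPoint 10 282624 chk4 chk5) (join chkPoint 10 284672 chk6 chk7)))

end Cfsg.Agent.Lib.Helper28.T1690LC34
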