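import Cfsg.Agent.Lib.Helper28.T1690LT
import Cfsg.Agent.Lib.Helper28.TCJoin

set_option autoImplicit false
set_option Elab.async false

namespace Cfsg.Agent.Lib.Helper28.T1690LC35

open Cfsg.Agent.Lib.Helper28.TCKernel Cfsg.Agent.Lib.Helper28.TCJoin Cfsg.Agent.Lib.Helper28.T1690LT

theorem chk0 : allTree chkPoint 10 286720 = true := by decide +kernel
theorem chk1 : allTree chkPoint 10 287744 = true := by decide +kernel
theorem chk2 : allTree chkPoint 10 288768 = true := by decide +kernel
theorem chk3 : allTree chkPoint 10 289792 = true := by decide +kernel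
theorem chk4 : allTree chkPoint 10 290816 = true := by decide +kernel
theorem chk5 : allTree chkPoint 10 291840 = true := by decide +kernel
theorem chk6 : allTree chkPoint 10 292864 = true := by decide +kernel
theorem chk7 : allTree chkPoint 10 293888 = true := by decide +kernel
theorem chk : allTree chkPoint 13 286720 = true :=
  (join chkPoint 12 286720 (join chkPoint 11 286720 (join chkPoint 10 286720 chk0 chk1) (join chkPoint 10 288768 chk2 chk3)) (join chkPoint 11 290816 (join chkPoint 10 290816 chk4 chk5) (join chkPoint 10 292864 chk6 chk7)))

end Cfsg.Agent.Lib.Helper28.T1690LC35
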