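import Cfsg.Agent.Lib.Helper28.T1690LT
import Cfsg.Agent.Lib.Helper28.TCJoin

set_option autoImplicit false
set_option Elab.async false

namespace Cfsg.Agent.Lib.Helper28.T1690LC36

open Cfsg.Agent.Lib.Helper28.TCKernel Cfsg.Agent.Lib.Helper28.TCJoin Cfsg.Agent.Lib.Helper28.T1690LT

theorem chk0 : allTree chkPoint 10 294912 = true := by decide +kernel
theorem chk1 : allTree chkPoint 10 295936 = true := by decide +kernel
theorem chk2 : allTree chkPoint 10 296960 = true := by decide +kernel
theorem chk3 : allTree chkPoint 10 297984 = true := by decide +kernel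
theorem chk4 : allTree chkPoint 10 299008 = true := by decide +kernel
theorem chk5 : allTree chkPoint 10 300032 = true := by decide +kernel
theorem chk6 : allTree chkPoint 10 301056 = true := by decide +kernel
theorem chk7 : allTree chkPoint 10 302080 = true := by decide +kernel
theorem chk : allTree chkPoint 13 294912 = true :=
  (join chkPoint 12 294912 (join chkPoint 11 294912 (join chkPoint 10 294912 chk0 chk1) (join chkPoint 10 296960 chk2 chk3)) (join chkPoint 11 299008 (join chkPoint 10 299008 chk4 chk5) (join chkPoint 10 301056 chk6 chk7)))

end Cfsg.Agent.Lib.Helper28.T1690LC36
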