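import Cfsg.Agent.Lib.Helper28.T1690LT
import Cfsg.Agent.Lib.Helper28.TCJoin

set_option autoImplicit false
set_option Elab.async false

namespace Cfsg.Agent.Lib.Helper28.T1690LC37

open Cfsg.Agent.Lib.Helper28.TCKernel Cfsg.Agent.Lib.Helper28.TCJoin Cfsg.Agent.Lib.Helper28.T1690LT

theorem chk0 : allTree chkPoint 10 303104 = true := by decide +kernel
theorem chk1 : allTree chkPoint 10 304128 = true := by decide +kernel
theorem chk2 : allTree chkPoint 10 305152 = true := by decide +kernel
theorem chk3 : allTree chkPoint 10 306176 = true := by decide +kernel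
theorem chk4 : allTree chkPoint 10 307200 = true := by decide +kernel
theorem chk5 : allTree chkPoint 10 308224 = true := by decide +kernel
theorem chk6 : allTree chkPoint 10 309248 = true := by decide +kernel
theorem chk7 : allTree chkPoint 10 310272 = true := by decide +kernel
theorem chk : allTree chkPoint 13 303104 = true :=
  (join chkPoint 12 303104 (join chkPoint 11 303104 (join chkPoint 10 303104 chk0 chk1) (join chkPoint 10 305152 chk2 chk3)) (join chkPoint 11 307200 (join chkPoint 10 307200 chk4 chk5) (join chkPoint 10 309248 chk6 chk7)))

end Cfsg.Agent.Lib.Helper28.T1690LC37
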