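import Cfsg.Agent.Lib.Helper28.T1690LT
import Cfsg.Agent.Lib.Helper28.TCJoin

set_option autoImplicit false
set_option Elab.async false

namespace Cfsg.Agent.Lib.Helper28.T1690LC38

open Cfsg.Agent.Lib.Helper28.TCKernel Cfsg.Agent.Lib.Helper28.TCJoin Cfsg.Agent.Lib.Helper28.T1690LT

theorem chk0 : allTree chkPoint 10 311296 = true := by decide +kernel
theorem chk1 : allTree chkPoint 10 312320 = true := by decide +kernel
theorem chk2 : allTree chkPoint 10 313344 = true := by decide +kernel
theorem chk3 : allTree chkPoint 10 314368 = true := by decide +kernel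
theorem chk4 : allTree chkPoint 10 315392 = true := by decide +kernel
theorem chk5 : allTree chkPoint 10 316416 = true := by decide +kernel
theorem chk6 : allTree chkPoint 10 317440 = true := by decide +kernel
theorem chk7 : allTree chkPoint 10 318464 = true := by decide +kernel
theorem chk : allTree chkPoint 13 311296 = true :=
  (join chkPoint 12 311296 (join chkPoint 11 311296 (join chkPoint 10 311296 chk0 chk1) (join chkPoint 10 313344 chk2 chk3)) (join chkPoint 11 315392 (join chkPoint 10 315392 chk4 chk5) (join chkPoint 10 317440 chk6 chk7)))

end Cfsg.Agent.Lib.Helper28.T1690LC38
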