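import Cfsg.Agent.Lib.Helper28.T1690LT
import Cfsg.Agent.Lib.Helper28.TCJoin

set_option autoImplicit false
set_option Elab.async false

namespace Cfsg.Agent.Lib.Helper28.T1690LC39

open Cfsg.Agent.Lib.Helper28.TCKernel Cfsg.Agent.Lib.Helper28.TCJoin Cfsg.Agent.Lib.Helper28.T1690LT

theorem chk0 : allTree chkPoint 10 319488 = true := by decide +kernel
theorem chk1 : allTree chkPoint 10 320512 = true := by decide +kernel
theorem chk2 : allTree chkPoint 10 321536 = true := by decide +kernel
theorem chk3 : allTree chkPoint 10 322560 = true := by decide +kernel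
theorem chk4 : allTree chkPoint 10 323584 = true := by decide +kernel
theorem chk5 : allTree chkPoint 10 324608 = true := by decide +kernel
theorem chk6 : allTree chkPoint 10 325632 = true := by decide +kernel
theorem chk7 : allTree chkPoint 10 326656 = true := by decide +kernel
theorem chk : allTree chkPoint 13 319488 = true :=
  (join chkPoint 12 319488 (join chkPoint 11 319488 (join chkPoint 10 319488 chk0 chk1) (join chkPoint 10 321536 chk2 chk3)) (join chkPoint 11 323584 (join chkPoint 10 323584 chk4 chk5) (join chkPoint 10 325632 chk6 chk7)))

end Cfsg.Agent.Lib.Helper28.T1690LC39
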