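import Cfsg.Agent.Lib.Helper28.T1690LT
import Cfsg.Agent.Lib.Helper28.TCJoin

set_option autoImplicit false
set_option Elab.async false

namespace Cfsg.Agent.Lib.Helper28.T1690LC4

open Cfsg.Agent.Lib.Helper28.TCKernel Cfsg.Agent.Lib.Helper28.TCJoin Cfsg.Agent.Lib.Helper28.T1690LT

theorem chk0 : allTree chkPoint 10 32768 = true := by decide +kernel
theorem chk1 : allTree chkPoint 10 33792 = true := by decide +kernel
theorem chk2 : allTree chkPoint 10 34816 = true := by decide +kernel
theorem chk3 : allTree chkPoint 10 35840 = true := by decide +kernel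
theorem chk4 : allTree chkPoint 10 36864 = true := by decide +kernel
theorem chk5 : allTree chkPoint 10 37888 = true := by decide +kernel
theorem chk6 : allTree chkPoint 10 38912 = true := by decide +kernel
theorem chk7 : allTree chkPoint 10 39936 = true := by decide +kernel
theorem chk : allTree chkPoint 13 32768 = true :=
  (join chkPoint 12 32768 (join chkPoint 11 32768 (join chkPoint 10 32768 chk0 chk1) (join chkPoint 10 34816 chk2 chk3)) (join chkPoint 11 36864 (join chkPoint 10 36864 chk4 chk5) (join chkPoint 10 38912 chk6 chk7)))

end Cfsg.Agent.Lib.Helper28.T1690LC4
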