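import Cfsg.Agent.Lib.Helper28.T1690LT
import Cfsg.Agent.Lib.Helper28.TCJoin

set_option autoImplicit false
set_option Elab.async false

namespace Cfsg.Agent.Lib.Helper28.T1690LC40

open Cfsg.Agent.Lib.Helper28.TCKernel Cfsg.Agent.Lib.Helper28.TCJoin Cfsg.Agent.Lib.Helper28.T1690LT

theorem chk0 : allTree chkPoint 10 327680 = true := by decide +kernel
theorem chk1 : allTree chkPoint 10 328704 = true := by decide +kernel
theorem chk2 : allTree chkPoint 10 329728 = true := by decide +kernel
theorem chk3 : allTree chkPoint 10 330752 = true := by decide +kernel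
theorem chk4 : allTree chkPoint 10 331776 = true := by decide +kernel
theorem chk5 : allTree chkPoint 10 332800 = true := by decide +kernel
theorem chk6 : allTree chkPoint 10 333824 = true := by decide +kernel
theorem chk7 : allTree chkPoint 10 334848 = true := by decide +kernel
theorem chk : allTree chkPoint 13 327680 = true :=
  (join chkPoint 12 327680 (join chkPoint 11 327680 (join chkPoint 10 327680 chk0 chk1) (join chkPoint 10 329728 chk2 chk3)) (join chkPoint 11 331776 (join chkPoint 10 331776 chk4 chk5) (join chkPoint 10 333824 chk6 chk7)))

end Cfsg.Agent.Lib.Helper28.T1690LC40
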