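import Cfsg.Agent.Lib.Helper28.T1690LT
import Cfsg.Agent.Lib.Helper28.TCJoin

set_option autoImplicit false
set_option Elab.async false

namespace Cfsg.Agent.Lib.Helper28.T1690LC41

open Cfsg.Agent.Lib.Helper28.TCKernel Cfsg.Agent.Lib.Helper28.TCJoin Cfsg.Agent.Lib.Helper28.T1690LT

theorem chk0 : allTree chkPoint 10 335872 = true := by decide +kernel
theorem chk1 : allTree chkPoint 10 336896 = true := by decide +kernel
theorem chk2 : allTree chkPoint 10 337920 = true := by decide +kernel
theorem chk3 : allTree chkPoint 10 338944 = true := by decide +kernel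
theorem chk4 : allTree chkPoint 10 339968 = true := by decide +kernel
theorem chk5 : allTree chkPoint 10 340992 = true := by decide +kernel
theorem chk6 : allTree chkPoint 10 342016 = true := by decide +kernel
theorem chk7 : allTree chkPoint 10 343040 = true := by decide +kernel
theorem chk : allTree chkPoint 13 335872 = true :=
  (join chkPoint 12 335872 (join chkPoint 11 335872 (join chkPoint 10 335872 chk0 chk1) (join chkPoint 10 337920 chk2 chk3)) (join chkPoint 11 339968 (join chkPoint 10 339968 chk4 chk5) (join chkPoint 10 342016 chk6 chk7)))

end Cfsg.Agent.Lib.Helper28.T1690LC41
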