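import Cfsg.Agent.Lib.Helper28.T1690LT
import Cfsg.Agent.Lib.Helper28.TCJoin

set_option autoImplicit false
set_option Elab.async false

namespace Cfsg.Agent.Lib.Helper28.T1690LC42

open Cfsg.Agent.Lib.Helper28.TCKernel Cfsg.Agent.Lib.Helper28.TCJoin Cfsg.Agent.Lib.Helper28.T1690LT

theorem chk0 : allTree chkPoint 10 344064 = true := by decide +kernel
theorem chk1 : allTree chkPoint 10 345088 = true := by decide +kernel
theorem chk2 : allTree chkPoint 10 346112 = true := by decide +kernel
theorem chk3 : allTree chkPoint 10 347136 = true := by decide +kernel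
theorem chk4 : allTree chkPoint 10 348160 = true := by decide +kernel
theorem chk5 : allTree chkPoint 10 349184 = true := by decide +kernel
theorem chk6 : allTree chkPoint 10 350208 = true := by decide +kernel
theorem chk7 : allTree chkPoint 10 351232 = true := by decide +kernel
theorem chk : allTree chkPoint 13 344064 = true :=
  (join chkPoint 12 344064 (join chkPoint 11 344064 (join chkPoint 10 344064 chk0 chk1) (join chkPoint 10 346112 chk2 chk3)) (join chkPoint 11 348160 (join chkPoint 10 348160 chk4 chk5) (join chkPoint 10 350208 chk6 chk7)))

end Cfsg.Agent.Lib.Helper28.T1690LC42
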