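import Cfsg.Agent.Lib.Helper28.T1690LT
import Cfsg.Agent.Lib.Helper28.TCJoin

set_option autoImplicit false
set_option Elab.async false

namespace Cfsg.Agent.Lib.Helper28.T1690LC43

open Cfsg.Agent.Lib.Helper28.TCKernel Cfsg.Agent.Lib.Helper28.TCJoin Cfsg.Agent.Lib.Helper28.T1690LT

theorem chk0 : allTree chkPoint 10 352256 = true := by decide +kernel
theorem chk1 : allTree chkPoint 10 353280 = true := by decide +kernel
theorem chk2 : allTree chkPoint 10 354304 = true := by decide +kernel
theorem chk3 : allTree chkPoint 10 355328 = true := by decide +kernel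
theorem chk4 : allTree chkPoint 10 356352 = true := by decide +kernel
theorem chk5 : allTree chkPoint 10 357376 = true := by decide +kernel
theorem chk6 : allTree chkPoint 10 358400 = true := by decide +kernel
theorem chk7 : allTree chkPoint 10 359424 = true := by decide +kernel
theorem chk : allTree chkPoint 13 352256 = true :=
  (join chkPoint 12 352256 (join chkPoint 11 352256 (join chkPoint 10 352256 chk0 chk1) (join chkPoint 10 354304 chk2 chk3)) (join chkPoint 11 356352 (join chkPoint 10 356352 chk4 chk5) (join chkPoint 10 358400 chk6 chk7)))

end Cfsg.Agent.Lib.Helper28.T1690LC43
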