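import Cfsg.Agent.Lib.Helper28.T1690LT
import Cfsg.Agent.Lib.Helper28.TCJoin

set_option autoImplicit false
set_option Elab.async false

namespace Cfsg.Agent.Lib.Helper28.T1690LC44

open Cfsg.Agent.Lib.Helper28.TCKernel Cfsg.Agent.Lib.Helper28.TCJoin Cfsg.Agent.Lib.Helper28.T1690LT

theorem chk0 : allTree chkPoint 10 360448 = true := by decide +kernel
theorem chk1 : allTree chkPoint 10 361472 = true := by decide +kernel
theorem chk2 : allTree chkPoint 10 362496 = true := by decide +kernel
theorem chk3 : allTree chkPoint 10 363520 = true := by decide +kernel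
theorem chk4 : allTree chkPoint 10 364544 = true := by decide +kernel
theorem chk5 : allTree chkPoint 10 365568 = true := by decide +kernel
theorem chk6 : allTree chkPoint 10 366592 = true := by decide +kernel
theorem chk7 : allTree chkPoint 10 367616 = true := by decide +kernel
theorem chk : allTree chkPoint 13 360448 = true :=
  (join chkPoint 12 360448 (join chkPoint 11 360448 (join chkPoint 10 360448 chk0 chk1) (join chkPoint 10 362496 chk2 chk3)) (join chkPoint 11 364544 (join chkPoint 10 364544 chk4 chk5) (join chkPoint 10 366592 chk6 chk7)))

end Cfsg.Agent.Lib.Helper28.T1690LC44
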