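import Cfsg.Agent.Lib.Helper28.T1690LT
import Cfsg.Agent.Lib.Helper28.TCJoin

set_option autoImplicit false
set_option Elab.async false

namespace Cfsg.Agent.Lib.Helper28.T1690LC45

open Cfsg.Agent.Lib.Helper28.TCKernel Cfsg.Agent.Lib.Helper28.TCJoin Cfsg.Agent.Lib.Helper28.T1690LT

theorem chk0 : allTree chkPoint 10 368640 = true := by decide +kernel
theorem chk1 : allTree chkPoint 10 369664 = true := by decide +kernel
theorem chk2 : allTree chkPoint 10 370688 = true := by decide +kernel
theorem chk3 : allTree chkPoint 10 371712 = true := by decide +kernel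
theorem chk4 : allTree chkPoint 10 372736 = true := by decide +kernel
theorem chk5 : allTree chkPoint 10 373760 = true := by decide +kernel
theorem chk6 : allTree chkPoint 10 374784 = true := by decide +kernel
theorem chk7 : allTree chkPoint 10 375808 = true := by decide +kernel
theorem chk : allTree chkPoint 13 368640 = true :=
  (join chkPoint 12 368640 (join chkPoint 11 368640 (join chkPoint 10 368640 chk0 chk1) (join chkPoint 10 370688 chk2 chk3)) (join chkPoint 11 372736 (join chkPoint 10 372736 chk4 chk5) (join chkPoint 10 374784 chk6 chk7)))

end Cfsg.Agent.Lib.Helper28.T1690LC45
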