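import Cfsg.Agent.Lib.Helper28.T1690LT
import Cfsg.Agent.Lib.Helper28.TCJoin

set_option autoImplicit false
set_option Elab.async false

namespace Cfsg.Agent.Lib.Helper28.T1690LC46

open Cfsg.Agent.Lib.Helper28.TCKernel Cfsg.Agent.Lib.Helper28.TCJoin Cfsg.Agent.Lib.Helper28.T1690LT

theorem chk0 : allTree chkPoint 10 376832 = true := by decide +kernel
theorem chk1 : allTree chkPoint 10 377856 = true := by decide +kernel
theorem chk2 : allTree chkPoint 10 378880 = true := by decide +kernel
theorem chk3 : allTree chkPoint 10 379904 = true := by decide +kernel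
theorem chk4 : allTree chkPoint 10 380928 = true := by decide +kernel
theorem chk5 : allTree chkPoint 10 381952 = true := by decide +kernel
theorem chk6 : allTree chkPoint 10 382976 = true := by decide +kernel
theorem chk7 : allTree chkPoint 10 384000 = true := by decide +kernel
theorem chk : allTree chkPoint 13 376832 = true :=
  (join chkPoint 12 376832 (join chkPoint 11 376832 (join chkPoint 10 376832 chk0 chk1) (join chkPoint 10 378880 chk2 chk3)) (join chkPoint 11 380928 (join chkPoint 10 380928 chk4 chk5) (join chkPoint 10 382976 chk6 chk7)))

end Cfsg.Agent.Lib.Helper28.T1690LC46
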