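import Cfsg.Agent.Lib.Helper28.T1690LT
import Cfsg.Agent.Lib.Helper28.TCJoin

set_option autoImplicit false
set_option Elab.async false

namespace Cfsg.Agent.Lib.Helper28.T1690LC47

open Cfsg.Agent.Lib.Helper28.TCKernel Cfsg.Agent.Lib.Helper28.TCJoin Cfsg.Agent.Lib.Helper28.T1690LT

theorem chk0 : allTree chkPoint 10 385024 = true := by decide +kernel
theorem chk1 : allTree chkPoint 10 386048 = true := by decide +kernel
theorem chk2 : allTree chkPoint 10 387072 = true := by decide +kernel
theorem chk3 : allTree chkPoint 10 388096 = true := by decide +kernel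
theorem chk4 : allTree chkPoint 10 389120 = true := by decide +kernel
theorem chk5 : allTree chkPoint 10 390144 = true := by decide +kernel
theorem chk6 : allTree chkPoint 10 391168 = true := by decide +kernel
theorem chk7 : allTree chkPoint 10 392192 = true := by decide +kernel
theorem chk : allTree chkPoint 13 385024 = true :=
  (join chkPoint 12 385024 (join chkPoint 11 385024 (join chkPoint 10 385024 chk0 chk1) (join chkPoint 10 387072 chk2 chk3)) (join chkPoint 11 389120 (join chkPoint 10 389120 chk4 chk5) (join chkPoint 10 391168 chk6 chk7)))

end Cfsg.Agent.Lib.Helper28.T1690LC47
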