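import Cfsg.Agent.Lib.Helper28.T1690LT
import Cfsg.Agent.Lib.Helper28.TCJoin

set_option autoImplicit false
set_option Elab.async false

namespace Cfsg.Agent.Lib.Helper28.T1690LC48

open Cfsg.Agent.Lib.Helper28.TCKernel Cfsg.Agent.Lib.Helper28.TCJoin Cfsg.Agent.Lib.Helper28.T1690LT

theorem chk0 : allTree chkPoint 10 393216 = true := by decide +kernel
theorem chk1 : allTree chkPoint 10 394240 = true := by decide +kernel
theorem chk2 : allTree chkPoint 10 395264 = true := by decide +kernel
theorem chk3 : allTree chkPoint 10 396288 = true := by decide +kernel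
theorem chk4 : allTree chkPoint 10 397312 = true := by decide +kernel
theorem chk5 : allTree chkPoint 10 398336 = true := by decide +kernel
theorem chk6 : allTree chkPoint 10 399360 = true := by decide +kernel
theorem chk7 : allTree chkPoint 10 400384 = true := by decide +kernel
theorem chk : allTree chkPoint 13 393216 = true :=
  (join chkPoint 12 393216 (join chkPoint 11 393216 (join chkPoint 10 393216 chk0 chk1) (join chkPoint 10 395264 chk2 chk3)) (join chkPoint 11 397312 (join chkPoint 10 397312 chk4 chk5) (join chkPoint 10 399360 chk6 chk7)))

end Cfsg.Agent.Lib.Helper28.T1690LC48
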