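import Cfsg.Agent.Lib.Helper28.T1690LT
import Cfsg.Agent.Lib.Helper28.TCJoin

set_option autoImplicit false
set_option Elab.async false

namespace Cfsg.Agent.Lib.Helper28.T1690LC49

open Cfsg.Agent.Lib.Helper28.TCKernel Cfsg.Agent.Lib.Helper28.TCJoin Cfsg.Agent.Lib.Helper28.T1690LT

theorem chk0 : allTree chkPoint 10 401408 = true := by decide +kernel
theorem chk1 : allTree chkPoint 10 402432 = true := by decide +kernel
theorem chk2 : allTree chkPoint 10 403456 = true := by decide +kernel
theorem chk3 : allTree chkPoint 10 404480 = true := by decide +kernel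
theorem chk4 : allTree chkPoint 10 405504 = true := by decide +kernel
theorem chk5 : allTree chkPoint 10 406528 = true := by decide +kernel
theorem chk6 : allTree chkPoint 10 407552 = true := by decide +kernel
theorem chk7 : allTree chkPoint 10 408576 = true := by decide +kernel
theorem chk : allTree chkPoint 13 401408 = true :=
  (join chkPoint 12 401408 (join chkPoint 11 401408 (join chkPoint 10 401408 chk0 chk1) (join chkPoint 10 403456 chk2 chk3)) (join chkPoint 11 405504 (join chkPoint 10 405504 chk4 chk5) (join chkPoint 10 407552 chk6 chk7)))

end Cfsg.Agent.Lib.Helper28.T1690LC49
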