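import Cfsg.Agent.Lib.Helper28.T1690LT
import Cfsg.Agent.Lib.Helper28.TCJoin

set_option autoImplicit false
set_option Elab.async false

namespace Cfsg.Agent.Lib.Helper28.T1690LC5

open Cfsg.Agent.Lib.Helper28.TCKernel Cfsg.Agent.Lib.Helper28.TCJoin Cfsg.Agent.Lib.Helper28.T1690LT

theorem chk0 : allTree chkPoint 10 40960 = true := by decide +kernel
theorem chk1 : allTree chkPoint 10 41984 = true := by decide +kernel
theorem chk2 : allTree chkPoint 10 43008 = true := by decide +kernel
theorem chk3 : allTree chkPoint 10 44032 = true := by decide +kernel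
theorem chk4 : allTree chkPoint 10 45056 = true := by decide +kernel
theorem chk5 : allTree chkPoint 10 46080 = true := by decide +kernel
theorem chk6 : allTree chkPoint 10 47104 = true := by decide +kernel
theorem chk7 : allTree chkPoint 10 48128 = true := by decide +kernel
theorem chk : allTree chkPoint 13 40960 = true :=
  (join chkPoint 12 40960 (join chkPoint 11 40960 (join chkPoint 10 40960 chk0 chk1) (join chkPoint 10 43008 chk2 chk3)) (join chkPoint 11 45056 (join chkPoint 10 45056 chk4 chk5) (join chkPoint 10 47104 chk6 chk7)))

end Cfsg.Agent.Lib.Helper28.T1690LC5
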