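import Cfsg.Agent.Lib.Helper28.T1690LT
import Cfsg.Agent.Lib.Helper28.TCJoin

set_option autoImplicit false
set_option Elab.async false

namespace Cfsg.Agent.Lib.Helper28.T1690LC50

open Cfsg.Agent.Lib.Helper28.TCKernel Cfsg.Agent.Lib.Helper28.TCJoin Cfsg.Agent.Lib.Helper28.T1690LT

theorem chk0 : allTree chkPoint 10 409600 = true := by decide +kernel
theorem chk1 : allTree chkPoint 10 410624 = true := by decide +kernel
theorem chk2 : allTree chkPoint 10 411648 = true := by decide +kernel
theorem chk3 : allTree chkPoint 10 412672 = true := by decide +kernel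
theorem chk4 : allTree chkPoint 10 413696 = true := by decide +kernel
theorem chk5 : allTree chkPoint 10 414720 = true := by decide +kernel
theorem chk6 : allTree chkPoint 10 415744 = true := by decide +kernel
theorem chk7 : allTree chkPoint 10 416768 = true := by decide +kernel
theorem chk : allTree chkPoint 13 409600 = true :=
  (join chkPoint 12 409600 (join chkPoint 11 409600 (join chkPoint 10 409600 chk0 chk1) (join chkPoint 10 411648 chk2 chk3)) (join chkPoint 11 413696 (join chkPoint 10 413696 chk4 chk5) (join chkPoint 10 415744 chk6 chk7)))

end Cfsg.Agent.Lib.Helper28.T1690LC50
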