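import Cfsg.Agent.Lib.Helper28.T1690LT
import Cfsg.Agent.Lib.Helper28.TCJoin

set_option autoImplicit false
set_option Elab.async false

namespace Cfsg.Agent.Lib.Helper28.T1690LC51

open Cfsg.Agent.Lib.Helper28.TCKernel Cfsg.Agent.Lib.Helper28.TCJoin Cfsg.Agent.Lib.Helper28.T1690LT

theorem chk0 : allTree chkPoint 10 417792 = true := by decide +kernel
theorem chk1 : allTree chkPoint 10 418816 = true := by decide +kernel
theorem chk2 : allTree chkPoint 10 419840 = true := by decide +kernel
theorem chk3 : allTree chkPoint 10 420864 = true := by decide +kernel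
theorem chk4 : allTree chkPoint 10 421888 = true := by decide +kernel
theorem chk5 : allTree chkPoint 10 422912 = true := by decide +kernel
theorem chk6 : allTree chkPoint 10 423936 = true := by decide +kernel
theorem chk7 : allTree chkPoint 10 424960 = true := by decide +kernel
theorem chk : allTree chkPoint 13 417792 = true :=
  (join chkPoint 12 417792 (join chkPoint 11 417792 (join chkPoint 10 417792 chk0 chk1) (join chkPoint 10 419840 chk2 chk3)) (join chkPoint 11 421888 (join chkPoint 10 421888 chk4 chk5) (join chkPoint 10 423936 chk6 chk7)))

end Cfsg.Agent.Lib.Helper28.T1690LC51
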