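import Cfsg.Agent.Lib.Helper28.T1690LT
import Cfsg.Agent.Lib.Helper28.TCJoin

set_option autoImplicit false
set_option Elab.async false

namespace Cfsg.Agent.Lib.Helper28.T1690LC52

open Cfsg.Agent.Lib.Helper28.TCKernel Cfsg.Agent.Lib.Helper28.TCJoin Cfsg.Agent.Lib.Helper28.T1690LT

theorem chk0 : allTree chkPoint 10 425984 = true := by decide +kernel
theorem chk1 : allTree chkPoint 10 427008 = true := by decide +kernel
theorem chk2 : allTree chkPoint 10 428032 = true := by decide +kernel
theorem chk3 : allTree chkPoint 10 429056 = true := by decide +kernel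
theorem chk4 : allTree chkPoint 10 430080 = true := by decide +kernel
theorem chk5 : allTree chkPoint 10 431104 = true := by decide +kernel
theorem chk6 : allTree chkPoint 10 432128 = true := by decide +kernel
theorem chk7 : allTree chkPoint 10 433152 = true := by decide +kernel
theorem chk : allTree chkPoint 13 425984 = true :=
  (join chkPoint 12 425984 (join chkPoint 11 425984 (join chkPoint 10 425984 chk0 chk1) (join chkPoint 10 428032 chk2 chk3)) (join chkPoint 11 430080 (join chkPoint 10 430080 chk4 chk5) (join chkPoint 10 432128 chk6 chk7)))

end Cfsg.Agent.Lib.Helper28.T1690LC52
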