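import Cfsg.Agent.Lib.Helper28.T1690LT
import Cfsg.Agent.Lib.Helper28.TCJoin

set_option autoImplicit false
set_option Elab.async false

namespace Cfsg.Agent.Lib.Helper28.T1690LC53

open Cfsg.Agent.Lib.Helper28.TCKernel Cfsg.Agent.Lib.Helper28.TCJoin Cfsg.Agent.Lib.Helper28.T1690LT

theorem chk0 : allTree chkPoint 10 434176 = true := by decide +kernel
theorem chk1 : allTree chkPoint 10 435200 = true := by decide +kernel
theorem chk2 : allTree chkPoint 10 436224 = true := by decide +kernel
theorem chk3 : allTree chkPoint 10 437248 = true := by decide +kernel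
theorem chk4 : allTree chkPoint 10 438272 = true := by decide +kernel
theorem chk5 : allTree chkPoint 10 439296 = true := by decide +kernel
theorem chk6 : allTree chkPoint 10 440320 = true := by decide +kernel
theorem chk7 : allTree chkPoint 10 441344 = true := by decide +kernel
theorem chk : allTree chkPoint 13 434176 = true :=
  (join chkPoint 12 434176 (join chkPoint 11 434176 (join chkPoint 10 434176 chk0 chk1) (join chkPoint 10 436224 chk2 chk3)) (join chkPoint 11 438272 (join chkPoint 10 438272 chk4 chk5) (join chkPoint 10 440320 chk6 chk7)))

end Cfsg.Agent.Lib.Helper28.T1690LC53
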