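import Cfsg.Agent.Lib.Helper28.T1690LT
import Cfsg.Agent.Lib.Helper28.TCJoin

set_option autoImplicit false
set_option Elab.async false

namespace Cfsg.Agent.Lib.Helper28.T1690LC54

open Cfsg.Agent.Lib.Helper28.TCKernel Cfsg.Agent.Lib.Helper28.TCJoin Cfsg.Agent.Lib.Helper28.T1690LT

theorem chk0 : allTree chkPoint 10 442368 = true := by decide +kernel
theorem chk1 : allTree chkPoint 10 443392 = true := by decide +kernel
theorem chk2 : allTree chkPoint 10 444416 = true := by decide +kernel
theorem chk3 : allTree chkPoint 10 445440 = true := by decide +kernel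
theorem chk4 : allTree chkPoint 10 446464 = true := by decide +kernel
theorem chk5 : allTree chkPoint 10 447488 = true := by decide +kernel
theorem chk6 : allTree chkPoint 10 448512 = true := by decide +kernel
theorem chk7 : allTree chkPoint 10 449536 = true := by decide +kernel
theorem chk : allTree chkPoint 13 442368 = true :=
  (join chkPoint 12 442368 (join chkPoint 11 442368 (join chkPoint 10 442368 chk0 chk1) (join chkPoint 10 444416 chk2 chk3)) (join chkPoint 11 446464 (join chkPoint 10 446464 chk4 chk5) (join chkPoint 10 448512 chk6 chk7)))

end Cfsg.Agent.Lib.Helper28.T1690LC54
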