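import Cfsg.Agent.Lib.Helper28.T1690LT
import Cfsg.Agent.Lib.Helper28.TCJoin

set_option autoImplicit false
set_option Elab.async false

namespace Cfsg.Agent.Lib.Helper28.T1690LC55

open Cfsg.Agent.Lib.Helper28.TCKernel Cfsg.Agent.Lib.Helper28.TCJoin Cfsg.Agent.Lib.Helper28.T1690LT

theorem chk0 : allTree chkPoint 10 450560 = true := by decide +kernel
theorem chk1 : allTree chkPoint 10 451584 = true := by decide +kernel
theorem chk2 : allTree chkPoint 10 452608 = true := by decide +kernel
theorem chk3 : allTree chkPoint 10 453632 = true := by decide +kernel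
theorem chk4 : allTree chkPoint 10 454656 = true := by decide +kernel
theorem chk5 : allTree chkPoint 10 455680 = true := by decide +kernel
theorem chk6 : allTree chkPoint 10 456704 = true := by decide +kernel
theorem chk7 : allTree chkPoint 10 457728 = true := by decide +kernel
theorem chk : allTree chkPoint 13 450560 = true :=
  (join chkPoint 12 450560 (join chkPoint 11 450560 (join chkPoint 10 450560 chk0 chk1) (join chkPoint 10 452608 chk2 chk3)) (join chkPoint 11 454656 (join chkPoint 10 454656 chk4 chk5) (join chkPoint 10 456704 chk6 chk7)))

end Cfsg.Agent.Lib.Helper28.T1690LC55
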