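import Cfsg.Agent.Lib.Helper28.T1690LT
import Cfsg.Agent.Lib.Helper28.TCJoin

set_option autoImplicit false
set_option Elab.async false

namespace Cfsg.Agent.Lib.Helper28.T1690LC56

open Cfsg.Agent.Lib.Helper28.TCKernel Cfsg.Agent.Lib.Helper28.TCJoin Cfsg.Agent.Lib.Helper28.T1690LT

theorem chk0 : allTree chkPoint 10 458752 = true := by decide +kernel
theorem chk1 : allTree chkPoint 10 459776 = true := by decide +kernel
theorem chk2 : allTree chkPoint 10 460800 = true := by decide +kernel
theorem chk3 : allTree chkPoint 10 461824 = true := by decide +kernel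
theorem chk4 : allTree chkPoint 10 462848 = true := by decide +kernel
theorem chk5 : allTree chkPoint 10 463872 = true := by decide +kernel
theorem chk6 : allTree chkPoint 10 464896 = true := by decide +kernel
theorem chk7 : allTree chkPoint 10 465920 = true := by decide +kernel
theorem chk : allTree chkPoint 13 458752 = true :=
  (join chkPoint 12 458752 (join chkPoint 11 458752 (join chkPoint 10 458752 chk0 chk1) (join chkPoint 10 460800 chk2 chk3)) (join chkPoint 11 462848 (join chkPoint 10 462848 chk4 chk5) (join chkPoint 10 464896 chk6 chk7)))

end Cfsg.Agent.Lib.Helper28.T1690LC56
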