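import Cfsg.Agent.Lib.Helper28.T1690LT
import Cfsg.Agent.Lib.Helper28.TCJoin

set_option autoImplicit false
set_option Elab.async false

namespace Cfsg.Agent.Lib.Helper28.T1690LC57

open Cfsg.Agent.Lib.Helper28.TCKernel Cfsg.Agent.Lib.Helper28.TCJoin Cfsg.Agent.Lib.Helper28.T1690LT

theorem chk0 : allTree chkPoint 10 466944 = true := by decide +kernel
theorem chk1 : allTree chkPoint 10 467968 = true := by decide +kernel
theorem chk2 : allTree chkPoint 10 468992 = true := by decide +kernel
theorem chk3 : allTree chkPoint 10 470016 = true := by decide +kernel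
theorem chk4 : allTree chkPoint 10 471040 = true := by decide +kernel
theorem chk5 : allTree chkPoint 10 472064 = true := by decide +kernel
theorem chk6 : allTree chkPoint 10 473088 = true := by decide +kernel
theorem chk7 : allTree chkPoint 10 474112 = true := by decide +kernel
theorem chk : allTree chkPoint 13 466944 = true :=
  (join chkPoint 12 466944 (join chkPoint 11 466944 (join chkPoint 10 466944 chk0 chk1) (join chkPoint 10 468992 chk2 chk3)) (join chkPoint 11 471040 (join chkPoint 10 471040 chk4 chk5) (join chkPoint 10 473088 chk6 chk7)))

end Cfsg.Agent.Lib.Helper28.T1690LC57
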