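import Cfsg.Agent.Lib.Helper28.T1690LT
import Cfsg.Agent.Lib.Helper28.TCJoin

set_option autoImplicit false
set_option Elab.async false

namespace Cfsg.Agent.Lib.Helper28.T1690LC58

open Cfsg.Agent.Lib.Helper28.TCKernel Cfsg.Agent.Lib.Helper28.TCJoin Cfsg.Agent.Lib.Helper28.T1690LT

theorem chk0 : allTree chkPoint 10 475136 = true := by decide +kernel
theorem chk1 : allTree chkPoint 10 476160 = true := by decide +kernel
theorem chk2 : allTree chkPoint 10 477184 = true := by decide +kernel
theorem chk3 : allTree chkPoint 10 478208 = true := by decide +kernel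
theorem chk4 : allTree chkPoint 10 479232 = true := by decide +kernel
theorem chk5 : allTree chkPoint 10 480256 = true := by decide +kernel
theorem chk6 : allTree chkPoint 10 481280 = true := by decide +kernel
theorem chk7 : allTree chkPoint 10 482304 = true := by decide +kernel
theorem chk : allTree chkPoint 13 475136 = true :=
  (join chkPoint 12 475136 (join chkPoint 11 475136 (join chkPoint 10 475136 chk0 chk1) (join chkPoint 10 477184 chk2 chk3)) (join chkPoint 11 479232 (join chkPoint 10 479232 chk4 chk5) (join chkPoint 10 481280 chk6 chk7)))

end Cfsg.Agent.Lib.Helper28.T1690LC58
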