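import Cfsg.Agent.Lib.Helper28.T1690LT
import Cfsg.Agent.Lib.Helper28.TCJoin

set_option autoImplicit false
set_option Elab.async false

namespace Cfsg.Agent.Lib.Helper28.T1690LC59

open Cfsg.Agent.Lib.Helper28.TCKernel Cfsg.Agent.Lib.Helper28.TCJoin Cfsg.Agent.Lib.Helper28.T1690LT

theorem chk0 : allTree chkPoint 10 483328 = true := by decide +kernel
theorem chk1 : allTree chkPoint 10 484352 = true := by decide +kernel
theorem chk2 : allTree chkPoint 10 485376 = true := by decide +kernel
theorem chk3 : allTree chkPoint 10 486400 = true := by decide +kernel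
theorem chk4 : allTree chkPoint 10 487424 = true := by decide +kernel
theorem chk5 : allTree chkPoint 10 488448 = true := by decide +kernel
theorem chk6 : allTree chkPoint 10 489472 = true := by decide +kernel
theorem chk7 : allTree chkPoint 10 490496 = true := by decide +kernel
theorem chk : allTree chkPoint 13 483328 = true :=
  (join chkPoint 12 483328 (join chkPoint 11 483328 (join chkPoint 10 483328 chk0 chk1) (join chkPoint 10 485376 chk2 chk3)) (join chkPoint 11 487424 (join chkPoint 10 487424 chk4 chk5) (join chkPoint 10 489472 chk6 chk7)))

end Cfsg.Agent.Lib.Helper28.T1690LC59
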