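import Cfsg.Agent.Lib.Helper28.T1690LT
import Cfsg.Agent.Lib.Helper28.TCJoin

set_option autoImplicit false
set_option Elab.async false

namespace Cfsg.Agent.Lib.Helper28.T1690LC6

open Cfsg.Agent.Lib.Helper28.TCKernel Cfsg.Agent.Lib.Helper28.TCJoin Cfsg.Agent.Lib.Helper28.T1690LT

theorem chk0 : allTree chkPoint 10 49152 = true := by decide +kernel
theorem chk1 : allTree chkPoint 10 50176 = true := by decide +kernel
theorem chk2 : allTree chkPoint 10 51200 = true := by decide +kernel
theorem chk3 : allTree chkPoint 10 52224 = true := by decide +kernel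
theorem chk4 : allTree chkPoint 10 53248 = true := by decide +kernel
theorem chk5 : allTree chkPoint 10 54272 = true := by decide +kernel
theorem chk6 : allTree chkPoint 10 55296 = true := by decide +kernel
theorem chk7 : allTree chkPoint 10 56320 = true := by decide +kernel
theorem chk : allTree chkPoint 13 49152 = true :=
  (join chkPoint 12 49152 (join chkPoint 11 49152 (join chkPoint 10 49152 chk0 chk1) (join chkPoint 10 51200 chk2 chk3)) (join chkPoint 11 53248 (join chkPoint 10 53248 chk4 chk5) (join chkPoint 10 55296 chk6 chk7)))

end Cfsg.Agent.Lib.Helper28.T1690LC6
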