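import Cfsg.Agent.Lib.Helper28.T1690LT
import Cfsg.Agent.Lib.Helper28.TCJoin

set_option autoImplicit false
set_option Elab.async false

namespace Cfsg.Agent.Lib.Helper28.T1690LC60

open Cfsg.Agent.Lib.Helper28.TCKernel Cfsg.Agent.Lib.Helper28.TCJoin Cfsg.Agent.Lib.Helper28.T1690LT

theorem chk0 : allTree chkPoint 10 491520 = true := by decide +kernel
theorem chk1 : allTree chkPoint 10 492544 = true := by decide +kernel
theorem chk2 : allTree chkPoint 10 493568 = true := by decide +kernel
theorem chk3 : allTree chkPoint 10 494592 = true := by decide +kernel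
theorem chk4 : allTree chkPoint 10 495616 = true := by decide +kernel
theorem chk5 : allTree chkPoint 10 496640 = true := by decide +kernel
theorem chk6 : allTree chkPoint 10 497664 = true := by decide +kernel
theorem chk7 : allTree chkPoint 10 498688 = true := by decide +kernel
theorem chk : allTree chkPoint 13 491520 = true :=
  (join chkPoint 12 491520 (join chkPoint 11 491520 (join chkPoint 10 491520 chk0 chk1) (join chkPoint 10 493568 chk2 chk3)) (join chkPoint 11 495616 (join chkPoint 10 495616 chk4 chk5) (join chkPoint 10 497664 chk6 chk7)))

end Cfsg.Agent.Lib.Helper28.T1690LC60
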