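import Cfsg.Agent.Lib.Helper28.T1690LT
import Cfsg.Agent.Lib.Helper28.TCJoin

set_option autoImplicit false
set_option Elab.async false

namespace Cfsg.Agent.Lib.Helper28.T1690LC61

open Cfsg.Agent.Lib.Helper28.TCKernel Cfsg.Agent.Lib.Helper28.TCJoin Cfsg.Agent.Lib.Helper28.T1690LT

theorem chk0 : allTree chkPoint 10 499712 = true := by decide +kernel
theorem chk1 : allTree chkPoint 10 500736 = true := by decide +kernel
theorem chk2 : allTree chkPoint 10 501760 = true := by decide +kernel
theorem chk3 : allTree chkPoint 10 502784 = true := by decide +kernel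
theorem chk4 : allTree chkPoint 10 503808 = true := by decide +kernel
theorem chk5 : allTree chkPoint 10 504832 = true := by decide +kernel
theorem chk6 : allTree chkPoint 10 505856 = true := by decide +kernel
theorem chk7 : allTree chkPoint 10 506880 = true := by decide +kernel
theorem chk : allTree chkPoint 13 499712 = true :=
  (join chkPoint 12 499712 (join chkPoint 11 499712 (join chkPoint 10 499712 chk0 chk1) (join chkPoint 10 501760 chk2 chk3)) (join chkPoint 11 503808 (join chkPoint 10 503808 chk4 chk5) (join chkPoint 10 505856 chk6 chk7)))

end Cfsg.Agent.Lib.Helper28.T1690LC61
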