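import Cfsg.Agent.Lib.Helper28.T1690LT
import Cfsg.Agent.Lib.Helper28.TCJoin

set_option autoImplicit false
set_option Elab.async false

namespace Cfsg.Agent.Lib.Helper28.T1690LC62

open Cfsg.Agent.Lib.Helper28.TCKernel Cfsg.Agent.Lib.Helper28.TCJoin Cfsg.Agent.Lib.Helper28.T1690LT

theorem chk0 : allTree chkPoint 10 507904 = true := by decide +kernel
theorem chk1 : allTree chkPoint 10 508928 = true := by decide +kernel
theorem chk2 : allTree chkPoint 10 509952 = true := by decide +kernel
theorem chk3 : allTree chkPoint 10 510976 = true := by decide +kernel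
theorem chk4 : allTree chkPoint 10 512000 = true := by decide +kernel
theorem chk5 : allTree chkPoint 10 513024 = true := by decide +kernel
theorem chk6 : allTree chkPoint 10 514048 = true := by decide +kernel
theorem chk7 : allTree chkPoint 10 515072 = true := by decide +kernel
theorem chk : allTree chkPoint 13 507904 = true :=
  (join chkPoint 12 507904 (join chkPoint 11 507904 (join chkPoint 10 507904 chk0 chk1) (join chkPoint 10 509952 chk2 chk3)) (join chkPoint 11 512000 (join chkPoint 10 512000 chk4 chk5) (join chkPoint 10 514048 chk6 chk7)))

end Cfsg.Agent.Lib.Helper28.T1690LC62
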