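import Cfsg.Agent.Lib.Helper28.T1690LT
import Cfsg.Agent.Lib.Helper28.TCJoin

set_option autoImplicit false
set_option Elab.async false

namespace Cfsg.Agent.Lib.Helper28.T1690LC63

open Cfsg.Agent.Lib.Helper28.TCKernel Cfsg.Agent.Lib.Helper28.TCJoin Cfsg.Agent.Lib.Helper28.T1690LT

theorem chk0 : allTree chkPoint 10 516096 = true := by decide +kernel
theorem chk1 : allTree chkPoint 10 517120 = true := by decide +kernel
theorem chk2 : allTree chkPoint 10 518144 = true := by decide +kernel
theorem chk3 : allTree chkPoint 10 519168 = true := by decide +kernel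
theorem chk4 : allTree chkPoint 10 520192 = true := by decide +kernel
theorem chk5 : allTree chkPoint 10 521216 = true := by decide +kernel
theorem chk6 : allTree chkPoint 10 522240 = true := by decide +kernel
theorem chk7 : allTree chkPoint 10 523264 = true := by decide +kernel
theorem chk : allTree chkPoint 13 516096 = true :=
  (join chkPoint 12 516096 (join chkPoint 11 516096 (join chkPoint 10 516096 chk0 chk1) (join chkPoint 10 518144 chk2 chk3)) (join chkPoint 11 520192 (join chkPoint 10 520192 chk4 chk5) (join chkPoint 10 522240 chk6 chk7)))

end Cfsg.Agent.Lib.Helper28.T1690LC63
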