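import Cfsg.Agent.Lib.Helper28.T1690LT
import Cfsg.Agent.Lib.Helper28.TCJoin

set_option autoImplicit false
set_option Elab.async false

namespace Cfsg.Agent.Lib.Helper28.T1690LC7

open Cfsg.Agent.Lib.Helper28.TCKernel Cfsg.Agent.Lib.Helper28.TCJoin Cfsg.Agent.Lib.Helper28.T1690LT

theorem chk0 : allTree chkPoint 10 57344 = true := by decide +kernel
theorem chk1 : allTree chkPoint 10 58368 = true := by decide +kernel
theorem chk2 : allTree chkPoint 10 59392 = true := by decide +kernel
theorem chk3 : allTree chkPoint 10 60416 = true := by decide +kernel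
theorem chk4 : allTree chkPoint 10 61440 = true := by decide +kernel
theorem chk5 : allTree chkPoint 10 62464 = true := by decide +kernel
theorem chk6 : allTree chkPoint 10 63488 = true := by decide +kernel
theorem chk7 : allTree chkPoint 10 64512 = true := by decide +kernel
theorem chk : allTree chkPoint 13 57344 = true :=
  (join chkPoint 12 57344 (join chkPoint 11 57344 (join chkPoint 10 57344 chk0 chk1) (join chkPoint 10 59392 chk2 chk3)) (join chkPoint 11 61440 (join chkPoint 10 61440 chk4 chk5) (join chkPoint 10 63488 chk6 chk7)))

end Cfsg.Agent.Lib.Helper28.T1690LC7
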