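import Cfsg.Agent.Lib.Helper28.T1690LT
import Cfsg.Agent.Lib.Helper28.TCJoin

set_option autoImplicit false
set_option Elab.async false

namespace Cfsg.Agent.Lib.Helper28.T1690LC8

open Cfsg.Agent.Lib.Helper28.TCKernel Cfsg.Agent.Lib.Helper28.TCJoin Cfsg.Agent.Lib.Helper28.T1690LT

theorem chk0 : allTree chkPoint 10 65536 = true := by decide +kernel
theorem chk1 : allTree chkPoint 10 66560 = true := by decide +kernel
theorem chk2 : allTree chkPoint 10 67584 = true := by decide +kernel
theorem chk3 : allTree chkPoint 10 68608 = true := by decide +kernel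
theorem chk4 : allTree chkPoint 10 69632 = true := by decide +kernel
theorem chk5 : allTree chkPoint 10 70656 = true := by decide +kernel
theorem chk6 : allTree chkPoint 10 71680 = true := by decide +kernel
theorem chk7 : allTree chkPoint 10 72704 = true := by decide +kernel
theorem chk : allTree chkPoint 13 65536 = true :=
  (join chkPoint 12 65536 (join chkPoint 11 65536 (join chkPoint 10 65536 chk0 chk1) (join chkPoint 10 67584 chk2 chk3)) (join chkPoint 11 69632 (join chkPoint 10 69632 chk4 chk5) (join chkPoint 10 71680 chk6 chk7)))

end Cfsg.Agent.Lib.Helper28.T1690LC8
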