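import Cfsg.Agent.Lib.Helper28.T1690LT
import Cfsg.Agent.Lib.Helper28.TCJoin

set_option autoImplicit false
set_option Elab.async false

namespace Cfsg.Agent.Lib.Helper28.T1690LC9

open Cfsg.Agent.Lib.Helper28.TCKernel Cfsg.Agent.Lib.Helper28.TCJoin Cfsg.Agent.Lib.Helper28.T1690LT

theorem chk0 : allTree chkPoint 10 73728 = true := by decide +kernel
theorem chk1 : allTree chkPoint 10 74752 = true := by decide +kernel
theorem chk2 : allTree chkPoint 10 75776 = true := by decide +kernel
theorem chk3 : allTree chkPoint 10 76800 = true := by decide +kernel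
theorem chk4 : allTree chkPoint 10 77824 = true := by decide +kernel
theorem chk5 : allTree chkPoint 10 78848 = true := by decide +kernel
theorem chk6 : allTree chkPoint 10 79872 = true := by decide +kernel
theorem chk7 : allTree chkPoint 10 80896 = true := by decide +kernel
theorem chk : allTree chkPoint 13 73728 = true :=
  (join chkPoint 12 73728 (join chkPoint 11 73728 (join chkPoint 10 73728 chk0 chk1) (join chkPoint 10 75776 chk2 chk3)) (join chkPoint 11 77824 (join chkPoint 10 77824 chk4 chk5) (join chkPoint 10 79872 chk6 chk7)))

end Cfsg.Agent.Lib.Helper28.T1690LC9
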