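import Cfsg.Agent.Lib.Helper28.T1690UT
import Cfsg.Agent.Lib.Helper28.TCJoin

set_option autoImplicit false
set_option Elab.async false

namespace Cfsg.Agent.Lib.Helper28.T1690UC10

open Cfsg.Agent.Lib.Helper28.TCKernel Cfsg.Agent.Lib.Helper28.TCJoin Cfsg.Agent.Lib.Helper28.T1690UT

theorem chk0 : allTree chkName 10 81920 = true := by decide +kernel
theorem chk1 : allTree chkName 10 82944 = true := by decide +kernel
theorem chk2 : allTree chkName 10 83968 = true := by decide +kernel
theorem chk3 : allTree chkName 10 84992 = true := by decide +kernel
theorem chk4 : allTree chkName 10 86016 = true := by decide +kernel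
theorem chk5 : allTree chkName 10 87040 = true := by decide +kernel
theorem chk6 : allTree chkName 10 88064 = true := by decide +kernel
theorem chk7 : allTree chkName 10 89088 = true := by decide +kernel
theorem chk : allTree chkName 13 81920 = true :=
  (join chkName 12 81920 (join chkName 11 81920 (join chkName 10 81920 chk0 chk1) (join chkName 10 83968 chk2 chk3)) (join chkName 11 86016 (join chkName 10 86016 chk4 chk5) (join chkName 10 88064 chk6 chk7)))

end Cfsg.Agent.Lib.Helper28.T1690UC10
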