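import Cfsg.Agent.Lib.Helper28.T1690UT
import Cfsg.Agent.Lib.Helper28.TCJoin

set_option autoImplicit false
set_option Elab.async false

namespace Cfsg.Agent.Lib.Helper28.T1690UC11

open Cfsg.Agent.Lib.Helper28.TCKernel Cfsg.Agent.Lib.Helper28.TCJoin Cfsg.Agent.Lib.Helper28.T1690UT

theorem chk0 : allTree chkName 10 90112 = true := by decide +kernel
theorem chk1 : allTree chkName 10 91136 = true := by decide +kernel
theorem chk2 : allTree chkName 10 92160 = true := by decide +kernel
theorem chk3 : allTree chkName 10 93184 = true := by decide +kernel
theorem chk4 : allTree chkName 10 94208 = true := by decide +kernel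
theorem chk5 : allTree chkName 10 95232 = true := by decide +kernel
theorem chk6 : allTree chkName 10 96256 = true := by decide +kernel
theorem chk7 : allTree chkName 10 97280 = true := by decide +kernel
theorem chk : allTree chkName 13 90112 = true :=
  (join chkName 12 90112 (join chkName 11 90112 (join chkName 10 90112 chk0 chk1) (join chkName 10 92160 chk2 chk3)) (join chkName 11 94208 (join chkName 10 94208 chk4 chk5) (join chkName 10 96256 chk6 chk7)))

end Cfsg.Agent.Lib.Helper28.T1690UC11
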