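import Cfsg.Agent.Lib.Helper28.T1690UT
import Cfsg.Agent.Lib.Helper28.TCJoin

set_option autoImplicit false
set_option Elab.async false

namespace Cfsg.Agent.Lib.Helper28.T1690UC13

open Cfsg.Agent.Lib.Helper28.TCKernel Cfsg.Agent.Lib.Helper28.TCJoin Cfsg.Agent.Lib.Helper28.T1690UT

theorem chk0 : allTree chkName 10 106496 = true := by decide +kernel
theorem chk1 : allTree chkName 10 107520 = true := by decide +kernel
theorem chk2 : allTree chkName 10 108544 = true := by decide +kernel
theorem chk3 : allTree chkName 10 109568 = true := by decide +kernel
theorem chk4 : allTree chkName 10 110592 = true := by decide +kernel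
theorem chk5 : allTree chkName 10 111616 = true := by decide +kernel
theorem chk6 : allTree chkName 10 112640 = true := by decide +kernel
theorem chk7 : allTree chkName 10 113664 = true := by decide +kernel
theorem chk : allTree chkName 13 106496 = true :=
  (join chkName 12 106496 (join chkName 11 106496 (join chkName 10 106496 chk0 chk1) (join chkName 10 108544 chk2 chk3)) (join chkName 11 110592 (join chkName 10 110592 chk4 chk5) (join chkName 10 112640 chk6 chk7)))

end Cfsg.Agent.Lib.Helper28.T1690UC13
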