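import Cfsg.Agent.Lib.Helper28.T1690UT
import Cfsg.Agent.Lib.Helper28.TCJoin

set_option autoImplicit false
set_option Elab.async false

namespace Cfsg.Agent.Lib.Helper28.T1690UC14

open Cfsg.Agent.Lib.Helper28.TCKernel Cfsg.Agent.Lib.Helper28.TCJoin Cfsg.Agent.Lib.Helper28.T1690UT

theorem chk0 : allTree chkName 10 114688 = true := by decide +kernel
theorem chk1 : allTree chkName 10 115712 = true := by decide +kernel
theorem chk2 : allTree chkName 10 116736 = true := by decide +kernel
theorem chk3 : allTree chkName 10 117760 = true := by decide +kernel
theorem chk4 : allTree chkName 10 118784 = true := by decide +kernel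
theorem chk5 : allTree chkName 10 119808 = true := by decide +kernel
theorem chk6 : allTree chkName 10 120832 = true := by decide +kernel
theorem chk7 : allTree chkName 10 121856 = true := by decide +kernel
theorem chk : allTree chkName 13 114688 = true :=
  (join chkName 12 114688 (join chkName 11 114688 (join chkName 10 114688 chk0 chk1) (join chkName 10 116736 chk2 chk3)) (join chkName 11 118784 (join chkName 10 118784 chk4 chk5) (join chkName 10 120832 chk6 chk7)))

end Cfsg.Agent.Lib.Helper28.T1690UC14
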