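import Cfsg.Agent.Lib.Helper28.T1690UT
import Cfsg.Agent.Lib.Helper28.TCJoin

set_option autoImplicit false
set_option Elab.async false

namespace Cfsg.Agent.Lib.Helper28.T1690UC17

open Cfsg.Agent.Lib.Helper28.TCKernel Cfsg.Agent.Lib.Helper28.TCJoin Cfsg.Agent.Lib.Helper28.T1690UT

theorem chk0 : allTree chkName 10 139264 = true := by decide +kernel
theorem chk1 : allTree chkName 10 140288 = true := by decide +kernel
theorem chk2 : allTree chkName 10 141312 = true := by decide +kernel
theorem chk3 : allTree chkName 10 142336 = true := by decide +kernel
theorem chk4 : allTree chkName 10 143360 = true := by decide +kernel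
theorem chk5 : allTree chkName 10 144384 = true := by decide +kernel
theorem chk6 : allTree chkName 10 145408 = true := by decide +kernel
theorem chk7 : allTree chkName 10 146432 = true := by decide +kernel
theorem chk : allTree chkName 13 139264 = true :=
  (join chkName 12 139264 (join chkName 11 139264 (join chkName 10 139264 chk0 chk1) (join chkName 10 141312 chk2 chk3)) (join chkName 11 143360 (join chkName 10 143360 chk4 chk5) (join chkName 10 145408 chk6 chk7)))

end Cfsg.Agent.Lib.Helper28.T1690UC17
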