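import Cfsg.Agent.Lib.Helper28.T1690UT
import Cfsg.Agent.Lib.Helper28.TCJoin

set_option autoImplicit false
set_option Elab.async false

namespace Cfsg.Agent.Lib.Helper28.T1690UC18

open Cfsg.Agent.Lib.Helper28.TCKernel Cfsg.Agent.Lib.Helper28.TCJoin Cfsg.Agent.Lib.Helper28.T1690UT

theorem chk0 : allTree chkName 10 147456 = true := by decide +kernel
theorem chk1 : allTree chkName 10 148480 = true := by decide +kernel
theorem chk2 : allTree chkName 10 149504 = true := by decide +kernel
theorem chk3 : allTree chkName 10 150528 = true := by decide +kernel
theorem chk4 : allTree chkName 10 151552 = true := by decide +kernel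
theorem chk5 : allTree chkName 10 152576 = true := by decide +kernel
theorem chk6 : allTree chkName 10 153600 = true := by decide +kernel
theorem chk7 : allTree chkName 10 154624 = true := by decide +kernel
theorem chk : allTree chkName 13 147456 = true :=
  (join chkName 12 147456 (join chkName 11 147456 (join chkName 10 147456 chk0 chk1) (join chkName 10 149504 chk2 chk3)) (join chkName 11 151552 (join chkName 10 151552 chk4 chk5) (join chkName 10 153600 chk6 chk7)))

end Cfsg.Agent.Lib.Helper28.T1690UC18
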