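import Cfsg.Agent.Lib.Helper28.T1690UT
import Cfsg.Agent.Lib.Helper28.TCJoin

set_option autoImplicit false
set_option Elab.async false

namespace Cfsg.Agent.Lib.Helper28.T1690UC19

open Cfsg.Agent.Lib.Helper28.TCKernel Cfsg.Agent.Lib.Helper28.TCJoin Cfsg.Agent.Lib.Helper28.T1690UT

theorem chk0 : allTree chkName 10 155648 = true := by decide +kernel
theorem chk1 : allTree chkName 10 156672 = true := by decide +kernel
theorem chk2 : allTree chkName 10 157696 = true := by decide +kernel
theorem chk3 : allTree chkName 10 158720 = true := by decide +kernel
theorem chk4 : allTree chkName 10 159744 = true := by decide +kernel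
theorem chk5 : allTree chkName 10 160768 = true := by decide +kernel
theorem chk6 : allTree chkName 10 161792 = true := by decide +kernel
theorem chk7 : allTree chkName 10 162816 = true := by decide +kernel
theorem chk : allTree chkName 13 155648 = true :=
  (join chkName 12 155648 (join chkName 11 155648 (join chkName 10 155648 chk0 chk1) (join chkName 10 157696 chk2 chk3)) (join chkName 11 159744 (join chkName 10 159744 chk4 chk5) (join chkName 10 161792 chk6 chk7)))

end Cfsg.Agent.Lib.Helper28.T1690UC19
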