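import Cfsg.Agent.Lib.Helper28.T1690UT
import Cfsg.Agent.Lib.Helper28.TCJoin

set_option autoImplicit false
set_option Elab.async false

namespace Cfsg.Agent.Lib.Helper28.T1690UC2

open Cfsg.Agent.Lib.Helper28.TCKernel Cfsg.Agent.Lib.Helper28.TCJoin Cfsg.Agent.Lib.Helper28.T1690UT

theorem chk0 : allTree chkName 10 16384 = true := by decide +kernel
theorem chk1 : allTree chkName 10 17408 = true := by decide +kernel
theorem chk2 : allTree chkName 10 18432 = true := by decide +kernel
theorem chk3 : allTree chkName 10 19456 = true := by decide +kernel
theorem chk4 : allTree chkName 10 20480 = true := by decide +kernel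
theorem chk5 : allTree chkName 10 21504 = true := by decide +kernel
theorem chk6 : allTree chkName 10 22528 = true := by decide +kernel
theorem chk7 : allTree chkName 10 23552 = true := by decide +kernel
theorem chk : allTree chkName 13 16384 = true :=
  (join chkName 12 16384 (join chkName 11 16384 (join chkName 10 16384 chk0 chk1) (join chkName 10 18432 chk2 chk3)) (join chkName 11 20480 (join chkName 10 20480 chk4 chk5) (join chkName 10 22528 chk6 chk7)))

end Cfsg.Agent.Lib.Helper28.T1690UC2
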