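import Cfsg.Agent.Lib.Helper28.T1690UT
import Cfsg.Agent.Lib.Helper28.TCJoin

set_option autoImplicit false
set_option Elab.async false

namespace Cfsg.Agent.Lib.Helper28.T1690UC23

open Cfsg.Agent.Lib.Helper28.TCKernel Cfsg.Agent.Lib.Helper28.TCJoin Cfsg.Agent.Lib.Helper28.T1690UT

theorem chk0 : allTree chkName 10 188416 = true := by decide +kernel
theorem chk1 : allTree chkName 10 189440 = true := by decide +kernel
theorem chk2 : allTree chkName 10 190464 = true := by decide +kernel
theorem chk3 : allTree chkName 10 191488 = true := by decide +kernel
theorem chk4 : allTree chkName 10 192512 = true := by decide +kernel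
theorem chk5 : allTree chkName 10 193536 = true := by decide +kernel
theorem chk6 : allTree chkName 10 194560 = true := by decide +kernel
theorem chk7 : allTree chkName 10 195584 = true := by decide +kernel
theorem chk : allTree chkName 13 188416 = true :=
  (join chkName 12 188416 (join chkName 11 188416 (join chkName 10 188416 chk0 chk1) (join chkName 10 190464 chk2 chk3)) (join chkName 11 192512 (join chkName 10 192512 chk4 chk5) (join chkName 10 194560 chk6 chk7)))

end Cfsg.Agent.Lib.Helper28.T1690UC23
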