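import Cfsg.Agent.Lib.Helper28.T1690UT
import Cfsg.Agent.Lib.Helper28.TCJoin

set_option autoImplicit false
set_option Elab.async false

namespace Cfsg.Agent.Lib.Helper28.T1690UC24

open Cfsg.Agent.Lib.Helper28.TCKernel Cfsg.Agent.Lib.Helper28.TCJoin Cfsg.Agent.Lib.Helper28.T1690UT

theorem chk0 : allTree chkName 10 196608 = true := by decide +kernel
theorem chk1 : allTree chkName 10 197632 = true := by decide +kernel
theorem chk2 : allTree chkName 10 198656 = true := by decide +kernel
theorem chk3 : allTree chkName 10 199680 = true := by decide +kernel
theorem chk4 : allTree chkName 10 200704 = true := by decide +kernel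
theorem chk5 : allTree chkName 10 201728 = true := by decide +kernel
theorem chk6 : allTree chkName 10 202752 = true := by decide +kernel
theorem chk7 : allTree chkName 10 203776 = true := by decide +kernel
theorem chk : allTree chkName 13 196608 = true :=
  (join chkName 12 196608 (join chkName 11 196608 (join chkName 10 196608 chk0 chk1) (join chkName 10 198656 chk2 chk3)) (join chkName 11 200704 (join chkName 10 200704 chk4 chk5) (join chkName 10 202752 chk6 chk7)))

end Cfsg.Agent.Lib.Helper28.T1690UC24
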