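import Cfsg.Agent.Lib.Helper28.T1690UT
import Cfsg.Agent.Lib.Helper28.TCJoin

set_option autoImplicit false
set_option Elab.async false

namespace Cfsg.Agent.Lib.Helper28.T1690UC25

open Cfsg.Agent.Lib.Helper28.TCKernel Cfsg.Agent.Lib.Helper28.TCJoin Cfsg.Agent.Lib.Helper28.T1690UT

theorem chk0 : allTree chkName 10 204800 = true := by decide +kernel
theorem chk1 : allTree chkName 10 205824 = true := by decide +kernel
theorem chk2 : allTree chkName 10 206848 = true := by decide +kernel
theorem chk3 : allTree chkName 10 207872 = true := by decide +kernel
theorem chk4 : allTree chkName 10 208896 = true := by decide +kernel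
theorem chk5 : allTree chkName 10 209920 = true := by decide +kernel
theorem chk6 : allTree chkName 10 210944 = true := by decide +kernel
theorem chk7 : allTree chkName 10 211968 = true := by decide +kernel
theorem chk : allTree chkName 13 204800 = true :=
  (join chkName 12 204800 (join chkName 11 204800 (join chkName 10 204800 chk0 chk1) (join chkName 10 206848 chk2 chk3)) (join chkName 11 208896 (join chkName 10 208896 chk4 chk5) (join chkName 10 210944 chk6 chk7)))

end Cfsg.Agent.Lib.Helper28.T1690UC25
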