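import Cfsg.Agent.Lib.Helper28.T1690UT
import Cfsg.Agent.Lib.Helper28.TCJoin

set_option autoImplicit false
set_option Elab.async false

namespace Cfsg.Agent.Lib.Helper28.T1690UC27

open Cfsg.Agent.Lib.Helper28.TCKernel Cfsg.Agent.Lib.Helper28.TCJoin Cfsg.Agent.Lib.Helper28.T1690UT

theorem chk0 : allTree chkName 10 221184 = true := by decide +kernel
theorem chk1 : allTree chkName 10 222208 = true := by decide +kernel
theorem chk2 : allTree chkName 10 223232 = true := by decide +kernel
theorem chk3 : allTree chkName 10 224256 = true := by decide +kernel
theorem chk4 : allTree chkName 10 225280 = true := by decide +kernel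
theorem chk5 : allTree chkName 10 226304 = true := by decide +kernel
theorem chk6 : allTree chkName 10 227328 = true := by decide +kernel
theorem chk7 : allTree chkName 10 228352 = true := by decide +kernel
theorem chk : allTree chkName 13 221184 = true :=
  (join chkName 12 221184 (join chkName 11 221184 (join chkName 10 221184 chk0 chk1) (join chkName 10 223232 chk2 chk3)) (join chkName 11 225280 (join chkName 10 225280 chk4 chk5) (join chkName 10 227328 chk6 chk7)))

end Cfsg.Agent.Lib.Helper28.T1690UC27
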