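import Cfsg.Agent.Lib.Helper28.T1690UT
import Cfsg.Agent.Lib.Helper28.TCJoin

set_option autoImplicit false
set_option Elab.async false

namespace Cfsg.Agent.Lib.Helper28.T1690UC28

open Cfsg.Agent.Lib.Helper28.TCKernel Cfsg.Agent.Lib.Helper28.TCJoin Cfsg.Agent.Lib.Helper28.T1690UT

theorem chk0 : allTree chkName 10 229376 = true := by decide +kernel
theorem chk1 : allTree chkName 10 230400 = true := by decide +kernel
theorem chk2 : allTree chkName 10 231424 = true := by decide +kernel
theorem chk3 : allTree chkName 10 232448 = true := by decide +kernel
theorem chk4 : allTree chkName 10 233472 = true := by decide +kernel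
theorem chk5 : allTree chkName 10 234496 = true := by decide +kernel
theorem chk6 : allTree chkName 10 235520 = true := by decide +kernel
theorem chk7 : allTree chkName 10 236544 = true := by decide +kernel
theorem chk : allTree chkName 13 229376 = true :=
  (join chkName 12 229376 (join chkName 11 229376 (join chkName 10 229376 chk0 chk1) (join chkName 10 231424 chk2 chk3)) (join chkName 11 233472 (join chkName 10 233472 chk4 chk5) (join chkName 10 235520 chk6 chk7)))

end Cfsg.Agent.Lib.Helper28.T1690UC28
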