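import Cfsg.Agent.Lib.Helper28.T1690UT
import Cfsg.Agent.Lib.Helper28.TCJoin

set_option autoImplicit false
set_option Elab.async false

namespace Cfsg.Agent.Lib.Helper28.T1690UC29

open Cfsg.Agent.Lib.Helper28.TCKernel Cfsg.Agent.Lib.Helper28.TCJoin Cfsg.Agent.Lib.Helper28.T1690UT

theorem chk0 : allTree chkName 10 237568 = true := by decide +kernel
theorem chk1 : allTree chkName 10 238592 = true := by decide +kernel
theorem chk2 : allTree chkName 10 239616 = true := by decide +kernel
theorem chk3 : allTree chkName 10 240640 = true := by decide +kernel
theorem chk4 : allTree chkName 10 241664 = true := by decide +kernel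
theorem chk5 : allTree chkName 10 242688 = true := by decide +kernel
theorem chk6 : allTree chkName 10 243712 = true := by decide +kernel
theorem chk7 : allTree chkName 10 244736 = true := by decide +kernel
theorem chk : allTree chkName 13 237568 = true :=
  (join chkName 12 237568 (join chkName 11 237568 (join chkName 10 237568 chk0 chk1) (join chkName 10 239616 chk2 chk3)) (join chkName 11 241664 (join chkName 10 241664 chk4 chk5) (join chkName 10 243712 chk6 chk7)))

end Cfsg.Agent.Lib.Helper28.T1690UC29
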