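import Cfsg.Agent.Lib.Helper28.T1690UT
import Cfsg.Agent.Lib.Helper28.TCJoin

set_option autoImplicit false
set_option Elab.async false

namespace Cfsg.Agent.Lib.Helper28.T1690UC31

open Cfsg.Agent.Lib.Helper28.TCKernel Cfsg.Agent.Lib.Helper28.TCJoin Cfsg.Agent.Lib.Helper28.T1690UT

theorem chk0 : allTree chkName 10 253952 = true := by decide +kernel
theorem chk1 : allTree chkName 10 254976 = true := by decide +kernel
theorem chk2 : allTree chkName 10 256000 = true := by decide +kernel
theorem chk3 : allTree chkName 10 257024 = true := by decide +kernel
theorem chk4 : allTree chkName 10 258048 = true := by decide +kernel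
theorem chk5 : allTree chkName 10 259072 = true := by decide +kernel
theorem chk6 : allTree chkName 10 260096 = true := by decide +kernel
theorem chk7 : allTree chkName 10 261120 = true := by decide +kernel
theorem chk : allTree chkName 13 253952 = true :=
  (join chkName 12 253952 (join chkName 11 253952 (join chkName 10 253952 chk0 chk1) (join chkName 10 256000 chk2 chk3)) (join chkName 11 258048 (join chkName 10 258048 chk4 chk5) (join chkName 10 260096 chk6 chk7)))

end Cfsg.Agent.Lib.Helper28.T1690UC31
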