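import Cfsg.Agent.Lib.Helper28.T1690UT
import Cfsg.Agent.Lib.Helper28.TCJoin

set_option autoImplicit false
set_option Elab.async false

namespace Cfsg.Agent.Lib.Helper28.T1690UC32

open Cfsg.Agent.Lib.Helper28.TCKernel Cfsg.Agent.Lib.Helper28.TCJoin Cfsg.Agent.Lib.Helper28.T1690UT

theorem chk0 : allTree chkName 10 262144 = true := by decide +kernel
theorem chk1 : allTree chkName 10 263168 = true := by decide +kernel
theorem chk2 : allTree chkName 10 264192 = true := by decide +kernel
theorem chk3 : allTree chkName 10 265216 = true := by decide +kernel
theorem chk4 : allTree chkName 10 266240 = true := by decide +kernel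
theorem chk5 : allTree chkName 10 267264 = true := by decide +kernel
theorem chk6 : allTree chkName 10 268288 = true := by decide +kernel
theorem chk7 : allTree chkName 10 269312 = true := by decide +kernel
theorem chk : allTree chkName 13 262144 = true :=
  (join chkName 12 262144 (join chkName 11 262144 (join chkName 10 262144 chk0 chk1) (join chkName 10 264192 chk2 chk3)) (join chkName 11 266240 (join chkName 10 266240 chk4 chk5) (join chkName 10 268288 chk6 chk7)))

end Cfsg.Agent.Lib.Helper28.T1690UC32
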