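import Cfsg.Agent.Lib.Helper28.T1690UT
import Cfsg.Agent.Lib.Helper28.TCJoin

set_option autoImplicit false
set_option Elab.async false

namespace Cfsg.Agent.Lib.Helper28.T1690UC33

open Cfsg.Agent.Lib.Helper28.TCKernel Cfsg.Agent.Lib.Helper28.TCJoin Cfsg.Agent.Lib.Helper28.T1690UT

theorem chk0 : allTree chkName 10 270336 = true := by decide +kernel
theorem chk1 : allTree chkName 10 271360 = true := by decide +kernel
theorem chk2 : allTree chkName 10 272384 = true := by decide +kernel
theorem chk3 : allTree chkName 10 273408 = true := by decide +kernel
theorem chk4 : allTree chkName 10 274432 = true := by decide +kernel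
theorem chk5 : allTree chkName 10 275456 = true := by decide +kernel
theorem chk6 : allTree chkName 10 276480 = true := by decide +kernel
theorem chk7 : allTree chkName 10 277504 = true := by decide +kernel
theorem chk : allTree chkName 13 270336 = true :=
  (join chkName 12 270336 (join chkName 11 270336 (join chkName 10 270336 chk0 chk1) (join chkName 10 272384 chk2 chk3)) (join chkName 11 274432 (join chkName 10 274432 chk4 chk5) (join chkName 10 276480 chk6 chk7)))

end Cfsg.Agent.Lib.Helper28.T1690UC33
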