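import Cfsg.Agent.Lib.Helper28.T1690UT
import Cfsg.Agent.Lib.Helper28.TCJoin

set_option autoImplicit false
set_option Elab.async false

namespace Cfsg.Agent.Lib.Helper28.T1690UC34

open Cfsg.Agent.Lib.Helper28.TCKernel Cfsg.Agent.Lib.Helper28.TCJoin Cfsg.Agent.Lib.Helper28.T1690UT

theorem chk0 : allTree chkName 10 278528 = true := by decide +kernel
theorem chk1 : allTree chkName 10 279552 = true := by decide +kernel
theorem chk2 : allTree chkName 10 280576 = true := by decide +kernel
theorem chk3 : allTree chkName 10 281600 = true := by decide +kernel
theorem chk4 : allTree chkName 10 282624 = true := by decide +kernel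
theorem chk5 : allTree chkName 10 283648 = true := by decide +kernel
theorem chk6 : allTree chkName 10 284672 = true := by decide +kernel
theorem chk7 : allTree chkName 10 285696 = true := by decide +kernel
theorem chk : allTree chkName 13 278528 = true :=
  (join chkName 12 278528 (join chkName 11 278528 (join chkName 10 278528 chk0 chk1) (join chkName 10 280576 chk2 chk3)) (join chkName 11 282624 (join chkName 10 282624 chk4 chk5) (join chkName 10 284672 chk6 chk7)))

end Cfsg.Agent.Lib.Helper28.T1690UC34
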