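import Cfsg.Agent.Lib.Helper28.T1690UT
import Cfsg.Agent.Lib.Helper28.TCJoin

set_option autoImplicit false
set_option Elab.async false

namespace Cfsg.Agent.Lib.Helper28.T1690UC35

open Cfsg.Agent.Lib.Helper28.TCKernel Cfsg.Agent.Lib.Helper28.TCJoin Cfsg.Agent.Lib.Helper28.T1690UT

theorem chk0 : allTree chkName 10 286720 = true := by decide +kernel
theorem chk1 : allTree chkName 10 287744 = true := by decide +kernel
theorem chk2 : allTree chkName 10 288768 = true := by decide +kernel
theorem chk3 : allTree chkName 10 289792 = true := by decide +kernel
theorem chk4 : allTree chkName 10 290816 = true := by decide +kernel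
theorem chk5 : allTree chkName 10 291840 = true := by decide +kernel
theorem chk6 : allTree chkName 10 292864 = true := by decide +kernel
theorem chk7 : allTree chkName 10 293888 = true := by decide +kernel
theorem chk : allTree chkName 13 286720 = true :=
  (join chkName 12 286720 (join chkName 11 286720 (join chkName 10 286720 chk0 chk1) (join chkName 10 288768 chk2 chk3)) (join chkName 11 290816 (join chkName 10 290816 chk4 chk5) (join chkName 10 292864 chk6 chk7)))

end Cfsg.Agent.Lib.Helper28.T1690UC35
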