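import Cfsg.Agent.Lib.Helper28.T1690UT
import Cfsg.Agent.Lib.Helper28.TCJoin

set_option autoImplicit false
set_option Elab.async false

namespace Cfsg.Agent.Lib.Helper28.T1690UC36

open Cfsg.Agent.Lib.Helper28.TCKernel Cfsg.Agent.Lib.Helper28.TCJoin Cfsg.Agent.Lib.Helper28.T1690UT

theorem chk0 : allTree chkName 10 294912 = true := by decide +kernel
theorem chk1 : allTree chkName 10 295936 = true := by decide +kernel
theorem chk2 : allTree chkName 10 296960 = true := by decide +kernel
theorem chk3 : allTree chkName 10 297984 = true := by decide +kernel
theorem chk4 : allTree chkName 10 299008 = true := by decide +kernel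
theorem chk5 : allTree chkName 10 300032 = true := by decide +kernel
theorem chk6 : allTree chkName 10 301056 = true := by decide +kernel
theorem chk7 : allTree chkName 10 302080 = true := by decide +kernel
theorem chk : allTree chkName 13 294912 = true :=
  (join chkName 12 294912 (join chkName 11 294912 (join chkName 10 294912 chk0 chk1) (join chkName 10 296960 chk2 chk3)) (join chkName 11 299008 (join chkName 10 299008 chk4 chk5) (join chkName 10 301056 chk6 chk7)))

end Cfsg.Agent.Lib.Helper28.T1690UC36
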