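import Cfsg.Agent.Lib.Helper28.T1690UT
import Cfsg.Agent.Lib.Helper28.TCJoin

set_option autoImplicit false
set_option Elab.async false

namespace Cfsg.Agent.Lib.Helper28.T1690UC37

open Cfsg.Agent.Lib.Helper28.TCKernel Cfsg.Agent.Lib.Helper28.TCJoin Cfsg.Agent.Lib.Helper28.T1690UT

theorem chk0 : allTree chkName 10 303104 = true := by decide +kernel
theorem chk1 : allTree chkName 10 304128 = true := by decide +kernel
theorem chk2 : allTree chkName 10 305152 = true := by decide +kernel
theorem chk3 : allTree chkName 10 306176 = true := by decide +kernel
theorem chk4 : allTree chkName 10 307200 = true := by decide +kernel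
theorem chk5 : allTree chkName 10 308224 = true := by decide +kernel
theorem chk6 : allTree chkName 10 309248 = true := by decide +kernel
theorem chk7 : allTree chkName 10 310272 = true := by decide +kernel
theorem chk : allTree chkName 13 303104 = true :=
  (join chkName 12 303104 (join chkName 11 303104 (join chkName 10 303104 chk0 chk1) (join chkName 10 305152 chk2 chk3)) (join chkName 11 307200 (join chkName 10 307200 chk4 chk5) (join chkName 10 309248 chk6 chk7)))

end Cfsg.Agent.Lib.Helper28.T1690UC37
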