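import Cfsg.Agent.Lib.Helper28.T1690UT
import Cfsg.Agent.Lib.Helper28.TCJoin

set_option autoImplicit false
set_option Elab.async false

namespace Cfsg.Agent.Lib.Helper28.T1690UC38

open Cfsg.Agent.Lib.Helper28.TCKernel Cfsg.Agent.Lib.Helper28.TCJoin Cfsg.Agent.Lib.Helper28.T1690UT

theorem chk0 : allTree chkName 10 311296 = true := by decide +kernel
theorem chk1 : allTree chkName 10 312320 = true := by decide +kernel
theorem chk2 : allTree chkName 10 313344 = true := by decide +kernel
theorem chk3 : allTree chkName 10 314368 = true := by decide +kernel
theorem chk4 : allTree chkName 10 315392 = true := by decide +kernel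
theorem chk5 : allTree chkName 10 316416 = true := by decide +kernel
theorem chk6 : allTree chkName 10 317440 = true := by decide +kernel
theorem chk7 : allTree chkName 10 318464 = true := by decide +kernel
theorem chk : allTree chkName 13 311296 = true :=
  (join chkName 12 311296 (join chkName 11 311296 (join chkName 10 311296 chk0 chk1) (join chkName 10 313344 chk2 chk3)) (join chkName 11 315392 (join chkName 10 315392 chk4 chk5) (join chkName 10 317440 chk6 chk7)))

end Cfsg.Agent.Lib.Helper28.T1690UC38
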