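import Cfsg.Agent.Lib.Helper28.T1690UT
import Cfsg.Agent.Lib.Helper28.TCJoin

set_option autoImplicit false
set_option Elab.async false

namespace Cfsg.Agent.Lib.Helper28.T1690UC39

open Cfsg.Agent.Lib.Helper28.TCKernel Cfsg.Agent.Lib.Helper28.TCJoin Cfsg.Agent.Lib.Helper28.T1690UT

theorem chk0 : allTree chkName 10 319488 = true := by decide +kernel
theorem chk1 : allTree chkName 10 320512 = true := by decide +kernel
theorem chk2 : allTree chkName 10 321536 = true := by decide +kernel
theorem chk3 : allTree chkName 10 322560 = true := by decide +kernel
theorem chk4 : allTree chkName 10 323584 = true := by decide +kernel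
theorem chk5 : allTree chkName 10 324608 = true := by decide +kernel
theorem chk6 : allTree chkName 10 325632 = true := by decide +kernel
theorem chk7 : allTree chkName 10 326656 = true := by decide +kernel
theorem chk : allTree chkName 13 319488 = true :=
  (join chkName 12 319488 (join chkName 11 319488 (join chkName 10 319488 chk0 chk1) (join chkName 10 321536 chk2 chk3)) (join chkName 11 323584 (join chkName 10 323584 chk4 chk5) (join chkName 10 325632 chk6 chk7)))

end Cfsg.Agent.Lib.Helper28.T1690UC39
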