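import Cfsg.Agent.Lib.Helper28.T1690UT
import Cfsg.Agent.Lib.Helper28.TCJoin

set_option autoImplicit false
set_option Elab.async false

namespace Cfsg.Agent.Lib.Helper28.T1690UC40

open Cfsg.Agent.Lib.Helper28.TCKernel Cfsg.Agent.Lib.Helper28.TCJoin Cfsg.Agent.Lib.Helper28.T1690UT

theorem chk0 : allTree chkName 10 327680 = true := by decide +kernel
theorem chk1 : allTree chkName 10 328704 = true := by decide +kernel
theorem chk2 : allTree chkName 10 329728 = true := by decide +kernel
theorem chk3 : allTree chkName 10 330752 = true := by decide +kernel
theorem chk4 : allTree chkName 10 331776 = true := by decide +kernel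
theorem chk5 : allTree chkName 10 332800 = true := by decide +kernel
theorem chk6 : allTree chkName 10 333824 = true := by decide +kernel
theorem chk7 : allTree chkName 10 334848 = true := by decide +kernel
theorem chk : allTree chkName 13 327680 = true :=
  (join chkName 12 327680 (join chkName 11 327680 (join chkName 10 327680 chk0 chk1) (join chkName 10 329728 chk2 chk3)) (join chkName 11 331776 (join chkName 10 331776 chk4 chk5) (join chkName 10 333824 chk6 chk7)))

end Cfsg.Agent.Lib.Helper28.T1690UC40
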