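import Cfsg.Agent.Lib.Helper28.T1690UT
import Cfsg.Agent.Lib.Helper28.TCJoin

set_option autoImplicit false
set_option Elab.async false

namespace Cfsg.Agent.Lib.Helper28.T1690UC41

open Cfsg.Agent.Lib.Helper28.TCKernel Cfsg.Agent.Lib.Helper28.TCJoin Cfsg.Agent.Lib.Helper28.T1690UT

theorem chk0 : allTree chkName 10 335872 = true := by decide +kernel
theorem chk1 : allTree chkName 10 336896 = true := by decide +kernel
theorem chk2 : allTree chkName 10 337920 = true := by decide +kernel
theorem chk3 : allTree chkName 10 338944 = true := by decide +kernel
theorem chk4 : allTree chkName 10 339968 = true := by decide +kernel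
theorem chk5 : allTree chkName 10 340992 = true := by decide +kernel
theorem chk6 : allTree chkName 10 342016 = true := by decide +kernel
theorem chk7 : allTree chkName 10 343040 = true := by decide +kernel
theorem chk : allTree chkName 13 335872 = true :=
  (join chkName 12 335872 (join chkName 11 335872 (join chkName 10 335872 chk0 chk1) (join chkName 10 337920 chk2 chk3)) (join chkName 11 339968 (join chkName 10 339968 chk4 chk5) (join chkName 10 342016 chk6 chk7)))

end Cfsg.Agent.Lib.Helper28.T1690UC41
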