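import Cfsg.Agent.Lib.Helper28.T1690UT
import Cfsg.Agent.Lib.Helper28.TCJoin

set_option autoImplicit false
set_option Elab.async false

namespace Cfsg.Agent.Lib.Helper28.T1690UC42

open Cfsg.Agent.Lib.Helper28.TCKernel Cfsg.Agent.Lib.Helper28.TCJoin Cfsg.Agent.Lib.Helper28.T1690UT

theorem chk0 : allTree chkName 10 344064 = true := by decide +kernel
theorem chk1 : allTree chkName 10 345088 = true := by decide +kernel
theorem chk2 : allTree chkName 10 346112 = true := by decide +kernel
theorem chk3 : allTree chkName 10 347136 = true := by decide +kernel
theorem chk4 : allTree chkName 10 348160 = true := by decide +kernel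
theorem chk5 : allTree chkName 10 349184 = true := by decide +kernel
theorem chk6 : allTree chkName 10 350208 = true := by decide +kernel
theorem chk7 : allTree chkName 10 351232 = true := by decide +kernel
theorem chk : allTree chkName 13 344064 = true :=
  (join chkName 12 344064 (join chkName 11 344064 (join chkName 10 344064 chk0 chk1) (join chkName 10 346112 chk2 chk3)) (join chkName 11 348160 (join chkName 10 348160 chk4 chk5) (join chkName 10 350208 chk6 chk7)))

end Cfsg.Agent.Lib.Helper28.T1690UC42
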