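import Cfsg.Agent.Lib.Helper28.T1690UT
import Cfsg.Agent.Lib.Helper28.TCJoin

set_option autoImplicit false
set_option Elab.async false

namespace Cfsg.Agent.Lib.Helper28.T1690UC43

open Cfsg.Agent.Lib.Helper28.TCKernel Cfsg.Agent.Lib.Helper28.TCJoin Cfsg.Agent.Lib.Helper28.T1690UT

theorem chk0 : allTree chkName 10 352256 = true := by decide +kernel
theorem chk1 : allTree chkName 10 353280 = true := by decide +kernel
theorem chk2 : allTree chkName 10 354304 = true := by decide +kernel
theorem chk3 : allTree chkName 10 355328 = true := by decide +kernel
theorem chk4 : allTree chkName 10 356352 = true := by decide +kernel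
theorem chk5 : allTree chkName 10 357376 = true := by decide +kernel
theorem chk6 : allTree chkName 10 358400 = true := by decide +kernel
theorem chk7 : allTree chkName 10 359424 = true := by decide +kernel
theorem chk : allTree chkName 13 352256 = true :=
  (join chkName 12 352256 (join chkName 11 352256 (join chkName 10 352256 chk0 chk1) (join chkName 10 354304 chk2 chk3)) (join chkName 11 356352 (join chkName 10 356352 chk4 chk5) (join chkName 10 358400 chk6 chk7)))

end Cfsg.Agent.Lib.Helper28.T1690UC43
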