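import Cfsg.Agent.Lib.Helper28.T1690UT
import Cfsg.Agent.Lib.Helper28.TCJoin

set_option autoImplicit false
set_option Elab.async false

namespace Cfsg.Agent.Lib.Helper28.T1690UC44

open Cfsg.Agent.Lib.Helper28.TCKernel Cfsg.Agent.Lib.Helper28.TCJoin Cfsg.Agent.Lib.Helper28.T1690UT

theorem chk0 : allTree chkName 10 360448 = true := by decide +kernel
theorem chk1 : allTree chkName 10 361472 = true := by decide +kernel
theorem chk2 : allTree chkName 10 362496 = true := by decide +kernel
theorem chk3 : allTree chkName 10 363520 = true := by decide +kernel
theorem chk4 : allTree chkName 10 364544 = true := by decide +kernel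
theorem chk5 : allTree chkName 10 365568 = true := by decide +kernel
theorem chk6 : allTree chkName 10 366592 = true := by decide +kernel
theorem chk7 : allTree chkName 10 367616 = true := by decide +kernel
theorem chk : allTree chkName 13 360448 = true :=
  (join chkName 12 360448 (join chkName 11 360448 (join chkName 10 360448 chk0 chk1) (join chkName 10 362496 chk2 chk3)) (join chkName 11 364544 (join chkName 10 364544 chk4 chk5) (join chkName 10 366592 chk6 chk7)))

end Cfsg.Agent.Lib.Helper28.T1690UC44
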