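import Cfsg.Agent.Lib.Helper28.T1690UT
import Cfsg.Agent.Lib.Helper28.TCJoin

set_option autoImplicit false
set_option Elab.async false

namespace Cfsg.Agent.Lib.Helper28.T1690UC45

open Cfsg.Agent.Lib.Helper28.TCKernel Cfsg.Agent.Lib.Helper28.TCJoin Cfsg.Agent.Lib.Helper28.T1690UT

theorem chk0 : allTree chkName 10 368640 = true := by decide +kernel
theorem chk1 : allTree chkName 10 369664 = true := by decide +kernel
theorem chk2 : allTree chkName 10 370688 = true := by decide +kernel
theorem chk3 : allTree chkName 10 371712 = true := by decide +kernel
theorem chk4 : allTree chkName 10 372736 = true := by decide +kernel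
theorem chk5 : allTree chkName 10 373760 = true := by decide +kernel
theorem chk6 : allTree chkName 10 374784 = true := by decide +kernel
theorem chk7 : allTree chkName 10 375808 = true := by decide +kernel
theorem chk : allTree chkName 13 368640 = true :=
  (join chkName 12 368640 (join chkName 11 368640 (join chkName 10 368640 chk0 chk1) (join chkName 10 370688 chk2 chk3)) (join chkName 11 372736 (join chkName 10 372736 chk4 chk5) (join chkName 10 374784 chk6 chk7)))

end Cfsg.Agent.Lib.Helper28.T1690UC45
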