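import Cfsg.Agent.Lib.Helper28.T1690UT
import Cfsg.Agent.Lib.Helper28.TCJoin

set_option autoImplicit false
set_option Elab.async false

namespace Cfsg.Agent.Lib.Helper28.T1690UC46

open Cfsg.Agent.Lib.Helper28.TCKernel Cfsg.Agent.Lib.Helper28.TCJoin Cfsg.Agent.Lib.Helper28.T1690UT

theorem chk0 : allTree chkName 10 376832 = true := by decide +kernel
theorem chk1 : allTree chkName 10 377856 = true := by decide +kernel
theorem chk2 : allTree chkName 10 378880 = true := by decide +kernel
theorem chk3 : allTree chkName 10 379904 = true := by decide +kernel
theorem chk4 : allTree chkName 10 380928 = true := by decide +kernel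
theorem chk5 : allTree chkName 10 381952 = true := by decide +kernel
theorem chk6 : allTree chkName 10 382976 = true := by decide +kernel
theorem chk7 : allTree chkName 10 384000 = true := by decide +kernel
theorem chk : allTree chkName 13 376832 = true :=
  (join chkName 12 376832 (join chkName 11 376832 (join chkName 10 376832 chk0 chk1) (join chkName 10 378880 chk2 chk3)) (join chkName 11 380928 (join chkName 10 380928 chk4 chk5) (join chkName 10 382976 chk6 chk7)))

end Cfsg.Agent.Lib.Helper28.T1690UC46
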