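import Cfsg.Agent.Lib.Helper28.T1690UT
import Cfsg.Agent.Lib.Helper28.TCJoin

set_option autoImplicit false
set_option Elab.async false

namespace Cfsg.Agent.Lib.Helper28.T1690UC47

open Cfsg.Agent.Lib.Helper28.TCKernel Cfsg.Agent.Lib.Helper28.TCJoin Cfsg.Agent.Lib.Helper28.T1690UT

theorem chk0 : allTree chkName 10 385024 = true := by decide +kernel
theorem chk1 : allTree chkName 10 386048 = true := by decide +kernel
theorem chk2 : allTree chkName 10 387072 = true := by decide +kernel
theorem chk3 : allTree chkName 10 388096 = true := by decide +kernel
theorem chk4 : allTree chkName 10 389120 = true := by decide +kernel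
theorem chk5 : allTree chkName 10 390144 = true := by decide +kernel
theorem chk6 : allTree chkName 10 391168 = true := by decide +kernel
theorem chk7 : allTree chkName 10 392192 = true := by decide +kernel
theorem chk : allTree chkName 13 385024 = true :=
  (join chkName 12 385024 (join chkName 11 385024 (join chkName 10 385024 chk0 chk1) (join chkName 10 387072 chk2 chk3)) (join chkName 11 389120 (join chkName 10 389120 chk4 chk5) (join chkName 10 391168 chk6 chk7)))

end Cfsg.Agent.Lib.Helper28.T1690UC47
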