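import Cfsg.Agent.Lib.Helper28.T1690UT
import Cfsg.Agent.Lib.Helper28.TCJoin

set_option autoImplicit false
set_option Elab.async false

namespace Cfsg.Agent.Lib.Helper28.T1690UC48

open Cfsg.Agent.Lib.Helper28.TCKernel Cfsg.Agent.Lib.Helper28.TCJoin Cfsg.Agent.Lib.Helper28.T1690UT

theorem chk0 : allTree chkName 10 393216 = true := by decide +kernel
theorem chk1 : allTree chkName 10 394240 = true := by decide +kernel
theorem chk2 : allTree chkName 10 395264 = true := by decide +kernel
theorem chk3 : allTree chkName 10 396288 = true := by decide +kernel
theorem chk4 : allTree chkName 10 397312 = true := by decide +kernel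
theorem chk5 : allTree chkName 10 398336 = true := by decide +kernel
theorem chk6 : allTree chkName 10 399360 = true := by decide +kernel
theorem chk7 : allTree chkName 10 400384 = true := by decide +kernel
theorem chk : allTree chkName 13 393216 = true :=
  (join chkName 12 393216 (join chkName 11 393216 (join chkName 10 393216 chk0 chk1) (join chkName 10 395264 chk2 chk3)) (join chkName 11 397312 (join chkName 10 397312 chk4 chk5) (join chkName 10 399360 chk6 chk7)))

end Cfsg.Agent.Lib.Helper28.T1690UC48
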