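import Cfsg.Agent.Lib.Helper28.T1690UT
import Cfsg.Agent.Lib.Helper28.TCJoin

set_option autoImplicit false
set_option Elab.async false

namespace Cfsg.Agent.Lib.Helper28.T1690UC49

open Cfsg.Agent.Lib.Helper28.TCKernel Cfsg.Agent.Lib.Helper28.TCJoin Cfsg.Agent.Lib.Helper28.T1690UT

theorem chk0 : allTree chkName 10 401408 = true := by decide +kernel
theorem chk1 : allTree chkName 10 402432 = true := by decide +kernel
theorem chk2 : allTree chkName 10 403456 = true := by decide +kernel
theorem chk3 : allTree chkName 10 404480 = true := by decide +kernel
theorem chk4 : allTree chkName 10 405504 = true := by decide +kernel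
theorem chk5 : allTree chkName 10 406528 = true := by decide +kernel
theorem chk6 : allTree chkName 10 407552 = true := by decide +kernel
theorem chk7 : allTree chkName 10 408576 = true := by decide +kernel
theorem chk : allTree chkName 13 401408 = true :=
  (join chkName 12 401408 (join chkName 11 401408 (join chkName 10 401408 chk0 chk1) (join chkName 10 403456 chk2 chk3)) (join chkName 11 405504 (join chkName 10 405504 chk4 chk5) (join chkName 10 407552 chk6 chk7)))

end Cfsg.Agent.Lib.Helper28.T1690UC49
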