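import Cfsg.Agent.Lib.Helper28.T1690UT
import Cfsg.Agent.Lib.Helper28.TCJoin

set_option autoImplicit false
set_option Elab.async false

namespace Cfsg.Agent.Lib.Helper28.T1690UC50

open Cfsg.Agent.Lib.Helper28.TCKernel Cfsg.Agent.Lib.Helper28.TCJoin Cfsg.Agent.Lib.Helper28.T1690UT

theorem chk0 : allTree chkName 10 409600 = true := by decide +kernel
theorem chk1 : allTree chkName 10 410624 = true := by decide +kernel
theorem chk2 : allTree chkName 10 411648 = true := by decide +kernel
theorem chk3 : allTree chkName 10 412672 = true := by decide +kernel
theorem chk4 : allTree chkName 10 413696 = true := by decide +kernel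
theorem chk5 : allTree chkName 10 414720 = true := by decide +kernel
theorem chk6 : allTree chkName 10 415744 = true := by decide +kernel
theorem chk7 : allTree chkName 10 416768 = true := by decide +kernel
theorem chk : allTree chkName 13 409600 = true :=
  (join chkName 12 409600 (join chkName 11 409600 (join chkName 10 409600 chk0 chk1) (join chkName 10 411648 chk2 chk3)) (join chkName 11 413696 (join chkName 10 413696 chk4 chk5) (join chkName 10 415744 chk6 chk7)))

end Cfsg.Agent.Lib.Helper28.T1690UC50
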