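import Cfsg.Agent.Lib.Helper28.T1690UT
import Cfsg.Agent.Lib.Helper28.TCJoin

set_option autoImplicit false
set_option Elab.async false

namespace Cfsg.Agent.Lib.Helper28.T1690UC51

open Cfsg.Agent.Lib.Helper28.TCKernel Cfsg.Agent.Lib.Helper28.TCJoin Cfsg.Agent.Lib.Helper28.T1690UT

theorem chk0 : allTree chkName 10 417792 = true := by decide +kernel
theorem chk1 : allTree chkName 10 418816 = true := by decide +kernel
theorem chk2 : allTree chkName 10 419840 = true := by decide +kernel
theorem chk3 : allTree chkName 10 420864 = true := by decide +kernel
theorem chk4 : allTree chkName 10 421888 = true := by decide +kernel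
theorem chk5 : allTree chkName 10 422912 = true := by decide +kernel
theorem chk6 : allTree chkName 10 423936 = true := by decide +kernel
theorem chk7 : allTree chkName 10 424960 = true := by decide +kernel
theorem chk : allTree chkName 13 417792 = true :=
  (join chkName 12 417792 (join chkName 11 417792 (join chkName 10 417792 chk0 chk1) (join chkName 10 419840 chk2 chk3)) (join chkName 11 421888 (join chkName 10 421888 chk4 chk5) (join chkName 10 423936 chk6 chk7)))

end Cfsg.Agent.Lib.Helper28.T1690UC51
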