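import Cfsg.Agent.Lib.Helper28.T1690UT
import Cfsg.Agent.Lib.Helper28.TCJoin

set_option autoImplicit false
set_option Elab.async false

namespace Cfsg.Agent.Lib.Helper28.T1690UC52

open Cfsg.Agent.Lib.Helper28.TCKernel Cfsg.Agent.Lib.Helper28.TCJoin Cfsg.Agent.Lib.Helper28.T1690UT

theorem chk0 : allTree chkName 10 425984 = true := by decide +kernel
theorem chk1 : allTree chkName 10 427008 = true := by decide +kernel
theorem chk2 : allTree chkName 10 428032 = true := by decide +kernel
theorem chk3 : allTree chkName 10 429056 = true := by decide +kernel
theorem chk4 : allTree chkName 10 430080 = true := by decide +kernel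
theorem chk5 : allTree chkName 10 431104 = true := by decide +kernel
theorem chk6 : allTree chkName 10 432128 = true := by decide +kernel
theorem chk7 : allTree chkName 10 433152 = true := by decide +kernel
theorem chk : allTree chkName 13 425984 = true :=
  (join chkName 12 425984 (join chkName 11 425984 (join chkName 10 425984 chk0 chk1) (join chkName 10 428032 chk2 chk3)) (join chkName 11 430080 (join chkName 10 430080 chk4 chk5) (join chkName 10 432128 chk6 chk7)))

end Cfsg.Agent.Lib.Helper28.T1690UC52
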