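import Cfsg.Agent.Lib.Helper28.T1690UT
import Cfsg.Agent.Lib.Helper28.TCJoin

set_option autoImplicit false
set_option Elab.async false

namespace Cfsg.Agent.Lib.Helper28.T1690UC53

open Cfsg.Agent.Lib.Helper28.TCKernel Cfsg.Agent.Lib.Helper28.TCJoin Cfsg.Agent.Lib.Helper28.T1690UT

theorem chk0 : allTree chkName 10 434176 = true := by decide +kernel
theorem chk1 : allTree chkName 10 435200 = true := by decide +kernel
theorem chk2 : allTree chkName 10 436224 = true := by decide +kernel
theorem chk3 : allTree chkName 10 437248 = true := by decide +kernel
theorem chk4 : allTree chkName 10 438272 = true := by decide +kernel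
theorem chk5 : allTree chkName 10 439296 = true := by decide +kernel
theorem chk6 : allTree chkName 10 440320 = true := by decide +kernel
theorem chk7 : allTree chkName 10 441344 = true := by decide +kernel
theorem chk : allTree chkName 13 434176 = true :=
  (join chkName 12 434176 (join chkName 11 434176 (join chkName 10 434176 chk0 chk1) (join chkName 10 436224 chk2 chk3)) (join chkName 11 438272 (join chkName 10 438272 chk4 chk5) (join chkName 10 440320 chk6 chk7)))

end Cfsg.Agent.Lib.Helper28.T1690UC53
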