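import Cfsg.Agent.Lib.Helper28.T1690UT
import Cfsg.Agent.Lib.Helper28.TCJoin

set_option autoImplicit false
set_option Elab.async false

namespace Cfsg.Agent.Lib.Helper28.T1690UC54

open Cfsg.Agent.Lib.Helper28.TCKernel Cfsg.Agent.Lib.Helper28.TCJoin Cfsg.Agent.Lib.Helper28.T1690UT

theorem chk0 : allTree chkName 10 442368 = true := by decide +kernel
theorem chk1 : allTree chkName 10 443392 = true := by decide +kernel
theorem chk2 : allTree chkName 10 444416 = true := by decide +kernel
theorem chk3 : allTree chkName 10 445440 = true := by decide +kernel
theorem chk4 : allTree chkName 10 446464 = true := by decide +kernel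
theorem chk5 : allTree chkName 10 447488 = true := by decide +kernel
theorem chk6 : allTree chkName 10 448512 = true := by decide +kernel
theorem chk7 : allTree chkName 10 449536 = true := by decide +kernel
theorem chk : allTree chkName 13 442368 = true :=
  (join chkName 12 442368 (join chkName 11 442368 (join chkName 10 442368 chk0 chk1) (join chkName 10 444416 chk2 chk3)) (join chkName 11 446464 (join chkName 10 446464 chk4 chk5) (join chkName 10 448512 chk6 chk7)))

end Cfsg.Agent.Lib.Helper28.T1690UC54
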