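import Cfsg.Agent.Lib.Helper28.T1690UT
import Cfsg.Agent.Lib.Helper28.TCJoin

set_option autoImplicit false
set_option Elab.async false

namespace Cfsg.Agent.Lib.Helper28.T1690UC55

open Cfsg.Agent.Lib.Helper28.TCKernel Cfsg.Agent.Lib.Helper28.TCJoin Cfsg.Agent.Lib.Helper28.T1690UT

theorem chk0 : allTree chkName 10 450560 = true := by decide +kernel
theorem chk1 : allTree chkName 10 451584 = true := by decide +kernel
theorem chk2 : allTree chkName 10 452608 = true := by decide +kernel
theorem chk3 : allTree chkName 10 453632 = true := by decide +kernel
theorem chk4 : allTree chkName 10 454656 = true := by decide +kernel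
theorem chk5 : allTree chkName 10 455680 = true := by decide +kernel
theorem chk6 : allTree chkName 10 456704 = true := by decide +kernel
theorem chk7 : allTree chkName 10 457728 = true := by decide +kernel
theorem chk : allTree chkName 13 450560 = true :=
  (join chkName 12 450560 (join chkName 11 450560 (join chkName 10 450560 chk0 chk1) (join chkName 10 452608 chk2 chk3)) (join chkName 11 454656 (join chkName 10 454656 chk4 chk5) (join chkName 10 456704 chk6 chk7)))

end Cfsg.Agent.Lib.Helper28.T1690UC55
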