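import Cfsg.Agent.Lib.Helper28.T1690UT
import Cfsg.Agent.Lib.Helper28.TCJoin

set_option autoImplicit false
set_option Elab.async false

namespace Cfsg.Agent.Lib.Helper28.T1690UC56

open Cfsg.Agent.Lib.Helper28.TCKernel Cfsg.Agent.Lib.Helper28.TCJoin Cfsg.Agent.Lib.Helper28.T1690UT

theorem chk0 : allTree chkName 10 458752 = true := by decide +kernel
theorem chk1 : allTree chkName 10 459776 = true := by decide +kernel
theorem chk2 : allTree chkName 10 460800 = true := by decide +kernel
theorem chk3 : allTree chkName 10 461824 = true := by decide +kernel
theorem chk4 : allTree chkName 10 462848 = true := by decide +kernel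
theorem chk5 : allTree chkName 10 463872 = true := by decide +kernel
theorem chk6 : allTree chkName 10 464896 = true := by decide +kernel
theorem chk7 : allTree chkName 10 465920 = true := by decide +kernel
theorem chk : allTree chkName 13 458752 = true :=
  (join chkName 12 458752 (join chkName 11 458752 (join chkName 10 458752 chk0 chk1) (join chkName 10 460800 chk2 chk3)) (join chkName 11 462848 (join chkName 10 462848 chk4 chk5) (join chkName 10 464896 chk6 chk7)))

end Cfsg.Agent.Lib.Helper28.T1690UC56
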