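import Cfsg.Agent.Lib.Helper28.T1690UT
import Cfsg.Agent.Lib.Helper28.TCJoin

set_option autoImplicit false
set_option Elab.async false

namespace Cfsg.Agent.Lib.Helper28.T1690UC57

open Cfsg.Agent.Lib.Helper28.TCKernel Cfsg.Agent.Lib.Helper28.TCJoin Cfsg.Agent.Lib.Helper28.T1690UT

theorem chk0 : allTree chkName 10 466944 = true := by decide +kernel
theorem chk1 : allTree chkName 10 467968 = true := by decide +kernel
theorem chk2 : allTree chkName 10 468992 = true := by decide +kernel
theorem chk3 : allTree chkName 10 470016 = true := by decide +kernel
theorem chk4 : allTree chkName 10 471040 = true := by decide +kernel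
theorem chk5 : allTree chkName 10 472064 = true := by decide +kernel
theorem chk6 : allTree chkName 10 473088 = true := by decide +kernel
theorem chk7 : allTree chkName 10 474112 = true := by decide +kernel
theorem chk : allTree chkName 13 466944 = true :=
  (join chkName 12 466944 (join chkName 11 466944 (join chkName 10 466944 chk0 chk1) (join chkName 10 468992 chk2 chk3)) (join chkName 11 471040 (join chkName 10 471040 chk4 chk5) (join chkName 10 473088 chk6 chk7)))

end Cfsg.Agent.Lib.Helper28.T1690UC57
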