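import Cfsg.Agent.Lib.Helper28.T1690UT
import Cfsg.Agent.Lib.Helper28.TCJoin

set_option autoImplicit false
set_option Elab.async false

namespace Cfsg.Agent.Lib.Helper28.T1690UC58

open Cfsg.Agent.Lib.Helper28.TCKernel Cfsg.Agent.Lib.Helper28.TCJoin Cfsg.Agent.Lib.Helper28.T1690UT

theorem chk0 : allTree chkName 10 475136 = true := by decide +kernel
theorem chk1 : allTree chkName 10 476160 = true := by decide +kernel
theorem chk2 : allTree chkName 10 477184 = true := by decide +kernel
theorem chk3 : allTree chkName 10 478208 = true := by decide +kernel
theorem chk4 : allTree chkName 10 479232 = true := by decide +kernel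
theorem chk5 : allTree chkName 10 480256 = true := by decide +kernel
theorem chk6 : allTree chkName 10 481280 = true := by decide +kernel
theorem chk7 : allTree chkName 10 482304 = true := by decide +kernel
theorem chk : allTree chkName 13 475136 = true :=
  (join chkName 12 475136 (join chkName 11 475136 (join chkName 10 475136 chk0 chk1) (join chkName 10 477184 chk2 chk3)) (join chkName 11 479232 (join chkName 10 479232 chk4 chk5) (join chkName 10 481280 chk6 chk7)))

end Cfsg.Agent.Lib.Helper28.T1690UC58
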