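import Cfsg.Agent.Lib.Helper28.T1690UT
import Cfsg.Agent.Lib.Helper28.TCJoin

set_option autoImplicit false
set_option Elab.async false

namespace Cfsg.Agent.Lib.Helper28.T1690UC59

open Cfsg.Agent.Lib.Helper28.TCKernel Cfsg.Agent.Lib.Helper28.TCJoin Cfsg.Agent.Lib.Helper28.T1690UT

theorem chk0 : allTree chkName 10 483328 = true := by decide +kernel
theorem chk1 : allTree chkName 10 484352 = true := by decide +kernel
theorem chk2 : allTree chkName 10 485376 = true := by decide +kernel
theorem chk3 : allTree chkName 10 486400 = true := by decide +kernel
theorem chk4 : allTree chkName 10 487424 = true := by decide +kernel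
theorem chk5 : allTree chkName 10 488448 = true := by decide +kernel
theorem chk6 : allTree chkName 10 489472 = true := by decide +kernel
theorem chk7 : allTree chkName 10 490496 = true := by decide +kernel
theorem chk : allTree chkName 13 483328 = true :=
  (join chkName 12 483328 (join chkName 11 483328 (join chkName 10 483328 chk0 chk1) (join chkName 10 485376 chk2 chk3)) (join chkName 11 487424 (join chkName 10 487424 chk4 chk5) (join chkName 10 489472 chk6 chk7)))

end Cfsg.Agent.Lib.Helper28.T1690UC59
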