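import Cfsg.Agent.Lib.Helper28.T1690UT
import Cfsg.Agent.Lib.Helper28.TCJoin

set_option autoImplicit false
set_option Elab.async false

namespace Cfsg.Agent.Lib.Helper28.T1690UC60

open Cfsg.Agent.Lib.Helper28.TCKernel Cfsg.Agent.Lib.Helper28.TCJoin Cfsg.Agent.Lib.Helper28.T1690UT

theorem chk0 : allTree chkName 10 491520 = true := by decide +kernel
theorem chk1 : allTree chkName 10 492544 = true := by decide +kernel
theorem chk2 : allTree chkName 10 493568 = true := by decide +kernel
theorem chk3 : allTree chkName 10 494592 = true := by decide +kernel
theorem chk4 : allTree chkName 10 495616 = true := by decide +kernel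
theorem chk5 : allTree chkName 10 496640 = true := by decide +kernel
theorem chk6 : allTree chkName 10 497664 = true := by decide +kernel
theorem chk7 : allTree chkName 10 498688 = true := by decide +kernel
theorem chk : allTree chkName 13 491520 = true :=
  (join chkName 12 491520 (join chkName 11 491520 (join chkName 10 491520 chk0 chk1) (join chkName 10 493568 chk2 chk3)) (join chkName 11 495616 (join chkName 10 495616 chk4 chk5) (join chkName 10 497664 chk6 chk7)))

end Cfsg.Agent.Lib.Helper28.T1690UC60
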