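import Cfsg.Agent.Lib.Helper28.T1690UT
import Cfsg.Agent.Lib.Helper28.TCJoin

set_option autoImplicit false
set_option Elab.async false

namespace Cfsg.Agent.Lib.Helper28.T1690UC61

open Cfsg.Agent.Lib.Helper28.TCKernel Cfsg.Agent.Lib.Helper28.TCJoin Cfsg.Agent.Lib.Helper28.T1690UT

theorem chk0 : allTree chkName 10 499712 = true := by decide +kernel
theorem chk1 : allTree chkName 10 500736 = true := by decide +kernel
theorem chk2 : allTree chkName 10 501760 = true := by decide +kernel
theorem chk3 : allTree chkName 10 502784 = true := by decide +kernel
theorem chk4 : allTree chkName 10 503808 = true := by decide +kernel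
theorem chk5 : allTree chkName 10 504832 = true := by decide +kernel
theorem chk6 : allTree chkName 10 505856 = true := by decide +kernel
theorem chk7 : allTree chkName 10 506880 = true := by decide +kernel
theorem chk : allTree chkName 13 499712 = true :=
  (join chkName 12 499712 (join chkName 11 499712 (join chkName 10 499712 chk0 chk1) (join chkName 10 501760 chk2 chk3)) (join chkName 11 503808 (join chkName 10 503808 chk4 chk5) (join chkName 10 505856 chk6 chk7)))

end Cfsg.Agent.Lib.Helper28.T1690UC61
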