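import Cfsg.Agent.Lib.Helper28.T1690UT
import Cfsg.Agent.Lib.Helper28.TCJoin

set_option autoImplicit false
set_option Elab.async false

namespace Cfsg.Agent.Lib.Helper28.T1690UC62

open Cfsg.Agent.Lib.Helper28.TCKernel Cfsg.Agent.Lib.Helper28.TCJoin Cfsg.Agent.Lib.Helper28.T1690UT

theorem chk0 : allTree chkName 10 507904 = true := by decide +kernel
theorem chk1 : allTree chkName 10 508928 = true := by decide +kernel
theorem chk2 : allTree chkName 10 509952 = true := by decide +kernel
theorem chk3 : allTree chkName 10 510976 = true := by decide +kernel
theorem chk4 : allTree chkName 10 512000 = true := by decide +kernel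
theorem chk5 : allTree chkName 10 513024 = true := by decide +kernel
theorem chk6 : allTree chkName 10 514048 = true := by decide +kernel
theorem chk7 : allTree chkName 10 515072 = true := by decide +kernel
theorem chk : allTree chkName 13 507904 = true :=
  (join chkName 12 507904 (join chkName 11 507904 (join chkName 10 507904 chk0 chk1) (join chkName 10 509952 chk2 chk3)) (join chkName 11 512000 (join chkName 10 512000 chk4 chk5) (join chkName 10 514048 chk6 chk7)))

end Cfsg.Agent.Lib.Helper28.T1690UC62
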