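import Cfsg.Agent.Lib.Helper28.T1690UT
import Cfsg.Agent.Lib.Helper28.TCJoin

set_option autoImplicit false
set_option Elab.async false

namespace Cfsg.Agent.Lib.Helper28.T1690UC63

open Cfsg.Agent.Lib.Helper28.TCKernel Cfsg.Agent.Lib.Helper28.TCJoin Cfsg.Agent.Lib.Helper28.T1690UT

theorem chk0 : allTree chkName 10 516096 = true := by decide +kernel
theorem chk1 : allTree chkName 10 517120 = true := by decide +kernel
theorem chk2 : allTree chkName 10 518144 = true := by decide +kernel
theorem chk3 : allTree chkName 10 519168 = true := by decide +kernel
theorem chk4 : allTree chkName 10 520192 = true := by decide +kernel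
theorem chk5 : allTree chkName 10 521216 = true := by decide +kernel
theorem chk6 : allTree chkName 10 522240 = true := by decide +kernel
theorem chk7 : allTree chkName 10 523264 = true := by decide +kernel
theorem chk : allTree chkName 13 516096 = true :=
  (join chkName 12 516096 (join chkName 11 516096 (join chkName 10 516096 chk0 chk1) (join chkName 10 518144 chk2 chk3)) (join chkName 11 520192 (join chkName 10 520192 chk4 chk5) (join chkName 10 522240 chk6 chk7)))

end Cfsg.Agent.Lib.Helper28.T1690UC63
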