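import Cfsg.Agent.Lib.Helper28.T1692LT
import Cfsg.Agent.Lib.Helper28.TCJoin

set_option autoImplicit false
set_option Elab.async false

namespace Cfsg.Agent.Lib.Helper28.T1692LC11

open Cfsg.Agent.Lib.Helper28.TCKernel Cfsg.Agent.Lib.Helper28.TCJoin Cfsg.Agent.Lib.Helper28.T1692LT

theorem chk0 : allTree chkPoint 9 45056 = true := by decide +kernel
theorem chk1 : allTree chkPoint 9 45568 = true := by decide +kernel
theorem chk2 : allTree chkPoint 9 46080 = true := by decide +kernel
theorem chk3 : allTree chkPoint 9 46592 = true := by decide +kernel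
theorem chk4 : allTree chkPoint 9 47104 = true := by decide +kernel
theorem chk5 : allTree chkPoint 9 47616 = true := by decide +kernel
theorem chk6 : allTree chkPoint 9 48128 = true := by decide +kernel
theorem chk7 : allTree chkPoint 9 48640 = true := by decide +kernel
theorem chk : allTree chkPoint 12 45056 = true :=
  (join chkPoint 11 45056 (join chkPoint 10 45056 (join chkPoint 9 45056 chk0 chk1) (join chkPoint 9 46080 chk2 chk3)) (join chkPoint 10 47104 (join chkPoint 9 47104 chk4 chk5) (join chkPoint 9 48128 chk6 chk7)))

end Cfsg.Agent.Lib.Helper28.T1692LC11
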