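import Cfsg.Agent.Lib.Helper28.T1692UT
import Cfsg.Agent.Lib.Helper28.TCJoin

set_option autoImplicit false
set_option Elab.async false

namespace Cfsg.Agent.Lib.Helper28.T1692UC1

open Cfsg.Agent.Lib.Helper28.TCKernel Cfsg.Agent.Lib.Helper28.TCJoin Cfsg.Agent.Lib.Helper28.T1692UT

theorem chk0 : allTree chkName 10 8192 = true := by decide +kernel
theorem chk1 : allTree chkName 10 9216 = true := by decide +kernel
theorem chk2 : allTree chkName 10 10240 = true := by decide +kernel
theorem chk3 : allTree chkName 10 11264 = true := by decide +kernel
theorem chk4 : allTree chkName 10 12288 = true := by decide +kernel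
theorem chk5 : allTree chkName 10 13312 = true := by decide +kernel
theorem chk6 : allTree chkName 10 14336 = true := by decide +kernel
theorem chk7 : allTree chkName 10 15360 = true := by decide +kernel
theorem chk : allTree chkName 13 8192 = true :=
  (join chkName 12 8192 (join chkName 11 8192 (join chkName 10 8192 chk0 chk1) (join chkName 10 10240 chk2 chk3)) (join chkName 11 12288 (join chkName 10 12288 chk4 chk5) (join chkName 10 14336 chk6 chk7)))

end Cfsg.Agent.Lib.Helper28.T1692UC1
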