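import Cfsg.Agent.Lib.Helper28.T1692UT
import Cfsg.Agent.Lib.Helper28.TCJoin

set_option autoImplicit false
set_option Elab.async false

namespace Cfsg.Agent.Lib.Helper28.T1692UC12

open Cfsg.Agent.Lib.Helper28.TCKernel Cfsg.Agent.Lib.Helper28.TCJoin Cfsg.Agent.Lib.Helper28.T1692UT

theorem chk0 : allTree chkName 10 98304 = true := by decide +kernel
theorem chk1 : allTree chkName 10 99328 = true := by decide +kernel
theorem chk2 : allTree chkName 10 100352 = true := by decide +kernel
theorem chk3 : allTree chkName 10 101376 = true := by decide +kernel
theorem chk4 : allTree chkName 10 102400 = true := by decide +kernel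
theorem chk5 : allTree chkName 10 103424 = true := by decide +kernel
theorem chk6 : allTree chkName 10 104448 = true := by decide +kernel
theorem chk7 : allTree chkName 10 105472 = true := by decide +kernel
theorem chk : allTree chkName 13 98304 = true :=
  (join chkName 12 98304 (join chkName 11 98304 (join chkName 10 98304 chk0 chk1) (join chkName 10 100352 chk2 chk3)) (join chkName 11 102400 (join chkName 10 102400 chk4 chk5) (join chkName 10 104448 chk6 chk7)))

end Cfsg.Agent.Lib.Helper28.T1692UC12
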