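import Cfsg.Agent.Lib.Helper28.T1692UT
import Cfsg.Agent.Lib.Helper28.TCJoin

set_option autoImplicit false
set_option Elab.async false

namespace Cfsg.Agent.Lib.Helper28.T1692UC15

open Cfsg.Agent.Lib.Helper28.TCKernel Cfsg.Agent.Lib.Helper28.TCJoin Cfsg.Agent.Lib.Helper28.T1692UT

theorem chk0 : allTree chkName 10 122880 = true := by decide +kernel
theorem chk1 : allTree chkName 10 123904 = true := by decide +kernel
theorem chk2 : allTree chkName 10 124928 = true := by decide +kernel
theorem chk3 : allTree chkName 10 125952 = true := by decide +kernel
theorem chk4 : allTree chkName 10 126976 = true := by decide +kernel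
theorem chk5 : allTree chkName 10 128000 = true := by decide +kernel
theorem chk6 : allTree chkName 10 129024 = true := by decide +kernel
theorem chk7 : allTree chkName 10 130048 = true := by decide +kernel
theorem chk : allTree chkName 13 122880 = true :=
  (join chkName 12 122880 (join chkName 11 122880 (join chkName 10 122880 chk0 chk1) (join chkName 10 124928 chk2 chk3)) (join chkName 11 126976 (join chkName 10 126976 chk4 chk5) (join chkName 10 129024 chk6 chk7)))

end Cfsg.Agent.Lib.Helper28.T1692UC15
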