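import Cfsg.Agent.Lib.Helper28.T1692UT
import Cfsg.Agent.Lib.Helper28.TCJoin

set_option autoImplicit false
set_option Elab.async false

namespace Cfsg.Agent.Lib.Helper28.T1692UC16

open Cfsg.Agent.Lib.Helper28.TCKernel Cfsg.Agent.Lib.Helper28.TCJoin Cfsg.Agent.Lib.Helper28.T1692UT

theorem chk0 : allTree chkName 10 131072 = true := by decide +kernel
theorem chk1 : allTree chkName 10 132096 = true := by decide +kernel
theorem chk2 : allTree chkName 10 133120 = true := by decide +kernel
theorem chk3 : allTree chkName 10 134144 = true := by decide +kernel
theorem chk4 : allTree chkName 10 135168 = true := by decide +kernel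
theorem chk5 : allTree chkName 10 136192 = true := by decide +kernel
theorem chk6 : allTree chkName 10 137216 = true := by decide +kernel
theorem chk7 : allTree chkName 10 138240 = true := by decide +kernel
theorem chk : allTree chkName 13 131072 = true :=
  (join chkName 12 131072 (join chkName 11 131072 (join chkName 10 131072 chk0 chk1) (join chkName 10 133120 chk2 chk3)) (join chkName 11 135168 (join chkName 10 135168 chk4 chk5) (join chkName 10 137216 chk6 chk7)))

end Cfsg.Agent.Lib.Helper28.T1692UC16
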