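import Cfsg.Agent.Lib.Helper28.T1692UT
import Cfsg.Agent.Lib.Helper28.TCJoin

set_option autoImplicit false
set_option Elab.async false

namespace Cfsg.Agent.Lib.Helper28.T1692UC20

open Cfsg.Agent.Lib.Helper28.TCKernel Cfsg.Agent.Lib.Helper28.TCJoin Cfsg.Agent.Lib.Helper28.T1692UT

theorem chk0 : allTree chkName 10 163840 = true := by decide +kernel
theorem chk1 : allTree chkName 10 164864 = true := by decide +kernel
theorem chk2 : allTree chkName 10 165888 = true := by decide +kernel
theorem chk3 : allTree chkName 10 166912 = true := by decide +kernel
theorem chk4 : allTree chkName 10 167936 = true := by decide +kernel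
theorem chk5 : allTree chkName 10 168960 = true := by decide +kernel
theorem chk6 : allTree chkName 10 169984 = true := by decide +kernel
theorem chk7 : allTree chkName 10 171008 = true := by decide +kernel
theorem chk : allTree chkName 13 163840 = true :=
  (join chkName 12 163840 (join chkName 11 163840 (join chkName 10 163840 chk0 chk1) (join chkName 10 165888 chk2 chk3)) (join chkName 11 167936 (join chkName 10 167936 chk4 chk5) (join chkName 10 169984 chk6 chk7)))

end Cfsg.Agent.Lib.Helper28.T1692UC20
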