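import Cfsg.Agent.Lib.Helper28.T1692UT
import Cfsg.Agent.Lib.Helper28.TCJoin

set_option autoImplicit false
set_option Elab.async false

namespace Cfsg.Agent.Lib.Helper28.T1692UC21

open Cfsg.Agent.Lib.Helper28.TCKernel Cfsg.Agent.Lib.Helper28.TCJoin Cfsg.Agent.Lib.Helper28.T1692UT

theorem chk0 : allTree chkName 10 172032 = true := by decide +kernel
theorem chk1 : allTree chkName 10 173056 = true := by decide +kernel
theorem chk2 : allTree chkName 10 174080 = true := by decide +kernel
theorem chk3 : allTree chkName 10 175104 = true := by decide +kernel
theorem chk4 : allTree chkName 10 176128 = true := by decide +kernel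
theorem chk5 : allTree chkName 10 177152 = true := by decide +kernel
theorem chk6 : allTree chkName 10 178176 = true := by decide +kernel
theorem chk7 : allTree chkName 10 179200 = true := by decide +kernel
theorem chk : allTree chkName 13 172032 = true :=
  (join chkName 12 172032 (join chkName 11 172032 (join chkName 10 172032 chk0 chk1) (join chkName 10 174080 chk2 chk3)) (join chkName 11 176128 (join chkName 10 176128 chk4 chk5) (join chkName 10 178176 chk6 chk7)))

end Cfsg.Agent.Lib.Helper28.T1692UC21
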