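import Cfsg.Agent.Lib.Helper28.T1692UT
import Cfsg.Agent.Lib.Helper28.TCJoin

set_option autoImplicit false
set_option Elab.async false

namespace Cfsg.Agent.Lib.Helper28.T1692UC22

open Cfsg.Agent.Lib.Helper28.TCKernel Cfsg.Agent.Lib.Helper28.TCJoin Cfsg.Agent.Lib.Helper28.T1692UT

theorem chk0 : allTree chkName 10 180224 = true := by decide +kernel
theorem chk1 : allTree chkName 10 181248 = true := by decide +kernel
theorem chk2 : allTree chkName 10 182272 = true := by decide +kernel
theorem chk3 : allTree chkName 10 183296 = true := by decide +kernel
theorem chk4 : allTree chkName 10 184320 = true := by decide +kernel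
theorem chk5 : allTree chkName 10 185344 = true := by decide +kernel
theorem chk6 : allTree chkName 10 186368 = true := by decide +kernel
theorem chk7 : allTree chkName 10 187392 = true := by decide +kernel
theorem chk : allTree chkName 13 180224 = true :=
  (join chkName 12 180224 (join chkName 11 180224 (join chkName 10 180224 chk0 chk1) (join chkName 10 182272 chk2 chk3)) (join chkName 11 184320 (join chkName 10 184320 chk4 chk5) (join chkName 10 186368 chk6 chk7)))

end Cfsg.Agent.Lib.Helper28.T1692UC22
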