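import Cfsg.Agent.Lib.Helper28.T1692UT
import Cfsg.Agent.Lib.Helper28.TCJoin

set_option autoImplicit false
set_option Elab.async false

namespace Cfsg.Agent.Lib.Helper28.T1692UC26

open Cfsg.Agent.Lib.Helper28.TCKernel Cfsg.Agent.Lib.Helper28.TCJoin Cfsg.Agent.Lib.Helper28.T1692UT

theorem chk0 : allTree chkName 10 212992 = true := by decide +kernel
theorem chk1 : allTree chkName 10 214016 = true := by decide +kernel
theorem chk2 : allTree chkName 10 215040 = true := by decide +kernel
theorem chk3 : allTree chkName 10 216064 = true := by decide +kernel
theorem chk4 : allTree chkName 10 217088 = true := by decide +kernel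
theorem chk5 : allTree chkName 10 218112 = true := by decide +kernel
theorem chk6 : allTree chkName 10 219136 = true := by decide +kernel
theorem chk7 : allTree chkName 10 220160 = true := by decide +kernel
theorem chk : allTree chkName 13 212992 = true :=
  (join chkName 12 212992 (join chkName 11 212992 (join chkName 10 212992 chk0 chk1) (join chkName 10 215040 chk2 chk3)) (join chkName 11 217088 (join chkName 10 217088 chk4 chk5) (join chkName 10 219136 chk6 chk7)))

end Cfsg.Agent.Lib.Helper28.T1692UC26
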