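import Cfsg.Agent.Lib.Helper28.T1692UT
import Cfsg.Agent.Lib.Helper28.TCJoin

set_option autoImplicit false
set_option Elab.async false

namespace Cfsg.Agent.Lib.Helper28.T1692UC3

open Cfsg.Agent.Lib.Helper28.TCKernel Cfsg.Agent.Lib.Helper28.TCJoin Cfsg.Agent.Lib.Helper28.T1692UT

theorem chk0 : allTree chkName 10 24576 = true := by decide +kernel
theorem chk1 : allTree chkName 10 25600 = true := by decide +kernel
theorem chk2 : allTree chkName 10 26624 = true := by decide +kernel
theorem chk3 : allTree chkName 10 27648 = true := by decide +kernel
theorem chk4 : allTree chkName 10 28672 = true := by decide +kernel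
theorem chk5 : allTree chkName 10 29696 = true := by decide +kernel
theorem chk6 : allTree chkName 10 30720 = true := by decide +kernel
theorem chk7 : allTree chkName 10 31744 = true := by decide +kernel
theorem chk : allTree chkName 13 24576 = true :=
  (join chkName 12 24576 (join chkName 11 24576 (join chkName 10 24576 chk0 chk1) (join chkName 10 26624 chk2 chk3)) (join chkName 11 28672 (join chkName 10 28672 chk4 chk5) (join chkName 10 30720 chk6 chk7)))

end Cfsg.Agent.Lib.Helper28.T1692UC3
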