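import Cfsg.Agent.Lib.Helper28.T1692UT
import Cfsg.Agent.Lib.Helper28.TCJoin

set_option autoImplicit false
set_option Elab.async false

namespace Cfsg.Agent.Lib.Helper28.T1692UC30

open Cfsg.Agent.Lib.Helper28.TCKernel Cfsg.Agent.Lib.Helper28.TCJoin Cfsg.Agent.Lib.Helper28.T1692UT

theorem chk0 : allTree chkName 10 245760 = true := by decide +kernel
theorem chk1 : allTree chkName 10 246784 = true := by decide +kernel
theorem chk2 : allTree chkName 10 247808 = true := by decide +kernel
theorem chk3 : allTree chkName 10 248832 = true := by decide +kernel
theorem chk4 : allTree chkName 10 249856 = true := by decide +kernel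
theorem chk5 : allTree chkName 10 250880 = true := by decide +kernel
theorem chk6 : allTree chkName 10 251904 = true := by decide +kernel
theorem chk7 : allTree chkName 10 252928 = true := by decide +kernel
theorem chk : allTree chkName 13 245760 = true :=
  (join chkName 12 245760 (join chkName 11 245760 (join chkName 10 245760 chk0 chk1) (join chkName 10 247808 chk2 chk3)) (join chkName 11 249856 (join chkName 10 249856 chk4 chk5) (join chkName 10 251904 chk6 chk7)))

end Cfsg.Agent.Lib.Helper28.T1692UC30
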