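import Cfsg.Agent.Lib.Helper28.T1692UT
import Cfsg.Agent.Lib.Helper28.TCJoin

set_option autoImplicit false
set_option Elab.async false

namespace Cfsg.Agent.Lib.Helper28.T1692UC4

open Cfsg.Agent.Lib.Helper28.TCKernel Cfsg.Agent.Lib.Helper28.TCJoin Cfsg.Agent.Lib.Helper28.T1692UT

theorem chk0 : allTree chkName 10 32768 = true := by decide +kernel
theorem chk1 : allTree chkName 10 33792 = true := by decide +kernel
theorem chk2 : allTree chkName 10 34816 = true := by decide +kernel
theorem chk3 : allTree chkName 10 35840 = true := by decide +kernel
theorem chk4 : allTree chkName 10 36864 = true := by decide +kernel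
theorem chk5 : allTree chkName 10 37888 = true := by decide +kernel
theorem chk6 : allTree chkName 10 38912 = true := by decide +kernel
theorem chk7 : allTree chkName 10 39936 = true := by decide +kernel
theorem chk : allTree chkName 13 32768 = true :=
  (join chkName 12 32768 (join chkName 11 32768 (join chkName 10 32768 chk0 chk1) (join chkName 10 34816 chk2 chk3)) (join chkName 11 36864 (join chkName 10 36864 chk4 chk5) (join chkName 10 38912 chk6 chk7)))

end Cfsg.Agent.Lib.Helper28.T1692UC4
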