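import Cfsg.Agent.Lib.Helper28.T1692UT
import Cfsg.Agent.Lib.Helper28.TCJoin

set_option autoImplicit false
set_option Elab.async false

namespace Cfsg.Agent.Lib.Helper28.T1692UC7

open Cfsg.Agent.Lib.Helper28.TCKernel Cfsg.Agent.Lib.Helper28.TCJoin Cfsg.Agent.Lib.Helper28.T1692UT

theorem chk0 : allTree chkName 10 57344 = true := by decide +kernel
theorem chk1 : allTree chkName 10 58368 = true := by decide +kernel
theorem chk2 : allTree chkName 10 59392 = true := by decide +kernel
theorem chk3 : allTree chkName 10 60416 = true := by decide +kernel
theorem chk4 : allTree chkName 10 61440 = true := by decide +kernel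
theorem chk5 : allTree chkName 10 62464 = true := by decide +kernel
theorem chk6 : allTree chkName 10 63488 = true := by decide +kernel
theorem chk7 : allTree chkName 10 64512 = true := by decide +kernel
theorem chk : allTree chkName 13 57344 = true :=
  (join chkName 12 57344 (join chkName 11 57344 (join chkName 10 57344 chk0 chk1) (join chkName 10 59392 chk2 chk3)) (join chkName 11 61440 (join chkName 10 61440 chk4 chk5) (join chkName 10 63488 chk6 chk7)))

end Cfsg.Agent.Lib.Helper28.T1692UC7
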