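import Cfsg.Agent.Lib.Helper28.T1692UT
import Cfsg.Agent.Lib.Helper28.TCJoin

set_option autoImplicit false
set_option Elab.async false

namespace Cfsg.Agent.Lib.Helper28.T1692UC8

open Cfsg.Agent.Lib.Helper28.TCKernel Cfsg.Agent.Lib.Helper28.TCJoin Cfsg.Agent.Lib.Helper28.T1692UT

theorem chk0 : allTree chkName 10 65536 = true := by decide +kernel
theorem chk1 : allTree chkName 10 66560 = true := by decide +kernel
theorem chk2 : allTree chkName 10 67584 = true := by decide +kernel
theorem chk3 : allTree chkName 10 68608 = true := by decide +kernel
theorem chk4 : allTree chkName 10 69632 = true := by decide +kernel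
theorem chk5 : allTree chkName 10 70656 = true := by decide +kernel
theorem chk6 : allTree chkName 10 71680 = true := by decide +kernel
theorem chk7 : allTree chkName 10 72704 = true := by decide +kernel
theorem chk : allTree chkName 13 65536 = true :=
  (join chkName 12 65536 (join chkName 11 65536 (join chkName 10 65536 chk0 chk1) (join chkName 10 67584 chk2 chk3)) (join chkName 11 69632 (join chkName 10 69632 chk4 chk5) (join chkName 10 71680 chk6 chk7)))

end Cfsg.Agent.Lib.Helper28.T1692UC8
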