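import Cfsg.Agent.Lib.Helper28.T1692UT
import Cfsg.Agent.Lib.Helper28.TCJoin

set_option autoImplicit false
set_option Elab.async false

namespace Cfsg.Agent.Lib.Helper28.T1692UC9

open Cfsg.Agent.Lib.Helper28.TCKernel Cfsg.Agent.Lib.Helper28.TCJoin Cfsg.Agent.Lib.Helper28.T1692UT

theorem chk0 : allTree chkName 10 73728 = true := by decide +kernel
theorem chk1 : allTree chkName 10 74752 = true := by decide +kernel
theorem chk2 : allTree chkName 10 75776 = true := by decide +kernel
theorem chk3 : allTree chkName 10 76800 = true := by decide +kernel
theorem chk4 : allTree chkName 10 77824 = true := by decide +kernel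
theorem chk5 : allTree chkName 10 78848 = true := by decide +kernel
theorem chk6 : allTree chkName 10 79872 = true := by decide +kernel
theorem chk7 : allTree chkName 10 80896 = true := by decide +kernel
theorem chk : allTree chkName 13 73728 = true :=
  (join chkName 12 73728 (join chkName 11 73728 (join chkName 10 73728 chk0 chk1) (join chkName 10 75776 chk2 chk3)) (join chkName 11 77824 (join chkName 10 77824 chk4 chk5) (join chkName 10 79872 chk6 chk7)))

end Cfsg.Agent.Lib.Helper28.T1692UC9
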