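import Cfsg.Agent.Lib.Helper28.TF24pLT
import Cfsg.Agent.Lib.Helper28.TCJoin

set_option autoImplicit false
set_option Elab.async false

namespace Cfsg.Agent.Lib.Helper28.TF24pLC11

open Cfsg.Agent.Lib.Helper28.TCKernel Cfsg.Agent.Lib.Helper28.TCJoin Cfsg.Agent.Lib.Helper28.TF24pLT

theorem chk0 : allTree chkPoint 8 22528 = true := by decide +kernel
theorem chk1 : allTree chkPoint 8 22784 = true := by decide +kernel
theorem chk2 : allTree chkPoint 8 23040 = true := by decide +kernel
theorem chk3 : allTree chkPoint 8 23296 = true := by decide +kernel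
theorem chk4 : allTree chkPoint 8 23552 = true := by decide +kernel
theorem chk5 : allTree chkPoint 8 23808 = true := by decide +kernel
theorem chk6 : allTree chkPoint 8 24064 = true := by decide +kernel
theorem chk7 : allTree chkPoint 8 24320 = true := by decide +kernel
theorem chk : allTree chkPoint 11 22528 = true :=
  (join chkPoint 10 22528 (join chkPoint 9 22528 (join chkPoint 8 22528 chk0 chk1) (join chkPoint 8 23040 chk2 chk3)) (join chkPoint 9 23552 (join chkPoint 8 23552 chk4 chk5) (join chkPoint 8 24064 chk6 chk7)))

end Cfsg.Agent.Lib.Helper28.TF24pLC11
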