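import Cfsg.Agent.Lib.Helper28.TCKernel
import Cfsg.Agent.Lib.Helper28.TF24pLD0

set_option autoImplicit false

namespace Cfsg.Agent.Lib.Helper28.TF24pLT

open Cfsg.Agent.Lib.Helper28.TCKernel

def p0top : List (List Nat) := [TF24pLD0.p0g0]
def p1top : List (List Nat) := [TF24pLD0.p1g0]
def p2top : List (List Nat) := [TF24pLD0.p2g0]
def p3top : List (List Nat) := [TF24pLD0.p3g0]
def p4top : List (List Nat) := [TF24pLD0.p4g0]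
def p5top : List (List Nat) := [TF24pLD0.p5g0]
def p6top : List (List Nat) := [TF24pLD0.p6g0]
def p7top : List (List Nat) := [TF24pLD0.p7g0]
def p8top : List (List Nat) := [TF24pLD0.p8g0]
def p9top : List (List Nat) := [TF24pLD0.p9g0]
def ptops : List (List (List Nat)) := [p0top, p1top, p2top, p3top, p4top, p5top, p6top, p7top, p8top, p9top]
def ttop : List (List Nat) := [TF24pLD0.tg0, TF24pLD0.tg1]
def tp : Nat → Nat → Nat := fld3z ptops 10 5 31 1023 15 32767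
def pa : Nat → Nat := fld1 ttop 9 5 31 511 20 0 32767
def pl : Nat → Nat := fld1 ttop 9 5 31 511 20 15 31
def relW : List (List Nat) := [[0, 1, 0, 1, 0, 1],
  [0, 2, 0, 2],
  [0, 3, 0, 3],
  [0, 4, 0, 4],
  [0, 5, 0, 5],
  [0, 6, 0, 6],
  [0, 7, 0, 7],
  [0, 8, 0, 8],
  [0, 9, 0, 9],
  [1, 2, 1, 2, 1, 2],
  [1, 3, 1, 3],
  [1, 4, 1, 4],
  [1, 5, 1, 5],
  [1, 6, 1, 6],
  [1, 7, 1, 7],
  [1, 8, 1, 8],
  [1, 9, 1, 9],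
  [2, 3, 2, 3, 2, 3],
  [2, 4, 2, 4],
  [2, 5, 2, 5],
  [2, 6, 2, 6],
  [2, 7, 2, 7],
  [2, 8, 2, 8],
  [2, 9, 2, 9],
  [3, 4, 3, 4, 3, 4],
  [3, 5, 3, 5],
  [3, 6, 3, 6],
  [3, 7, 3, 7],
  [3, 8, 3, 8],
  [3, 9, 3, 9],
  [4, 5, 4, 5, 4, 5],
  [4, 6, 4, 6],
  [4, 7, 4, 7],
  [4, 8, 4, 8],
  [4, 9, 4, 9],
  [5, 6, 5, 6, 5, 6],
  [5, 7, 5, 7],
  [5, 8, 5, 8, 5, 8],
  [5, 9, 5, 9],
  [6, 7, 6, 7, 6, 7],
  [6, 8, 6, 8],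
  [6, 9, 6, 9],
  [7, 8, 7, 8],
  [7, 9, 7, 9],
  [8, 9, 8, 9, 8, 9],
  [0, 8, 7, 6, 5, 4, 3, 2, 8, 7, 6, 5, 4, 3, 2, 8, 7, 6, 5, 4, 3, 2, 8, 7, 6, 5, 4, 3, 2, 8, 7, 6, 5, 4, 3, 2, 8, 7, 6, 5, 4, 3, 2, 8, 7, 6, 5, 4, 3, 2, 8, 7, 6, 5, 4, 3, 2, 8, 7, 6, 5, 4, 3, 2]]
def sgW : List (List Nat) := [[0],
  [1],
  [2],
  [3],
  [4],
  [5],
  [6],
  [7],
  [8]]
def tw : List (List Nat) := [[0],
  [1],
  [2],
  [3],
  [4],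
  [5],
  [6],
  [7],
  [8],
  [0],
  [1],
  [2],
  [3],
  [4],
  [5],
  [6],
  [7],
  [8],
  [0],
  [1],
  [2],
  [3],
  [4],
  [5],
  [6],
  [7],
  [8],
  [9]]
def invL : List Nat := [0, 1, 2, 3, 4, 5, 6, 7, 8, 9]
def inv : Nat → Nat := nthD 0 invL
def roots : List Nat := [1, 961, 4111, 26511]
def nK : Nat := 18
def nL : Nat := 10
def nn : Nat := 28431
def nD : Nat := 15
/-- the per-point check -/
def chkPoint (a : Nat) : Bool :=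
  pointOK tp inv pa pl relW sgW tw 18 roots 10 28431 a

end Cfsg.Agent.Lib.Helper28.TF24pLT
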