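import Cfsg.Agent.Lib.Helper28.TF24pUT
import Cfsg.Agent.Lib.Helper28.TCJoin

set_option autoImplicit false
set_option Elab.async false

namespace Cfsg.Agent.Lib.Helper28.TF24pUC5

open Cfsg.Agent.Lib.Helper28.TCKernel Cfsg.Agent.Lib.Helper28.TCJoin Cfsg.Agent.Lib.Helper28.TF24pUT

theorem chk0 : allTree chkName 10 40960 = true := by decide +kernel
theorem chk1 : allTree chkName 10 41984 = true := by decide +kernel
theorem chk2 : allTree chkName 10 43008 = true := by decide +kernel
theorem chk3 : allTree chkName 10 44032 = true := by decide +kernel
theorem chk4 : allTree chkName 10 45056 = true := by decide +kernel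
theorem chk5 : allTree chkName 10 46080 = true := by decide +kernel
theorem chk6 : allTree chkName 10 47104 = true := by decide +kernel
theorem chk7 : allTree chkName 10 48128 = true := by decide +kernel
theorem chk : allTree chkName 13 40960 = true :=
  (join chkName 12 40960 (join chkName 11 40960 (join chkName 10 40960 chk0 chk1) (join chkName 10 43008 chk2 chk3)) (join chkName 11 45056 (join chkName 10 45056 chk4 chk5) (join chkName 10 47104 chk6 chk7)))

end Cfsg.Agent.Lib.Helper28.TF24pUC5
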