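import Cfsg.Agent.Lib.Helper28.TCKernel
import Cfsg.Agent.Lib.Helper28.TF24qLD0

set_option autoImplicit false

namespace Cfsg.Agent.Lib.Helper28.TF24qLT

open Cfsg.Agent.Lib.Helper28.TCKernel

def p0top : List (List Nat) := [TF24qLD0.p0g0]
def p1top : List (List Nat) := [TF24qLD0.p1g0]
def p2top : List (List Nat) := [TF24qLD0.p2g0]
def p3top : List (List Nat) := [TF24qLD0.p3g0]
def p4top : List (List Nat) := [TF24qLD0.p4g0]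
def p5top : List (List Nat) := [TF24qLD0.p5g0]
def p6top : List (List Nat) := [TF24qLD0.p6g0]
def p7top : List (List Nat) := [TF24qLD0.p7g0]
def p8top : List (List Nat) := [TF24qLD0.p8g0]
def ptops : List (List (List Nat)) := [p0top, p1top, p2top, p3top, p4top, p5top, p6top, p7top, p8top]
def ttop : List (List Nat) := [TF24qLD0.tg0]
def tp : Nat → Nat → Nat := fld3z ptops 10 4 15 1023 14 16383
def pa : Nat → Nat := fld1 ttop 9 5 31 511 19 0 16383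
def pl : Nat → Nat := fld1 ttop 9 5 31 511 19 14 31
def relW : List (List Nat) := [[0, 1, 0, 1, 0, 1],
  [0, 2, 0, 2],
  [0, 3, 0, 3],
  [0, 4, 0, 4],
  [0, 5, 0, 5],
  [0, 6, 0, 6],
  [0, 7, 0, 7],
  [0, 8, 0, 8],
  [1, 2, 1, 2, 1, 2],
  [1, 3, 1, 3],
  [1, 4, 1, 4],
  [1, 5, 1, 5],
  [1, 6, 1, 6],
  [1, 7, 1, 7],
  [1, 8, 1, 8],
  [2, 3, 2, 3, 2, 3],
  [2, 4, 2, 4],
  [2, 5, 2, 5],
  [2, 6, 2, 6],
  [2, 7, 2, 7],
  [2, 8, 2, 8],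
  [3, 4, 3, 4, 3, 4],
  [3, 5, 3, 5],
  [3, 6, 3, 6],
  [3, 7, 3, 7],
  [3, 8, 3, 8],
  [4, 5, 4, 5, 4, 5],
  [4, 6, 4, 6],
  [4, 7, 4, 7],
  [4, 8, 4, 8],
  [5, 6, 5, 6, 5, 6],
  [5, 7, 5, 7],
  [5, 8, 5, 8, 5, 8],
  [6, 7, 6, 7, 6, 7],
  [6, 8, 6, 8],
  [7, 8, 7, 8],
  [0, 8, 7, 6, 5, 4, 3, 2, 8, 7, 6, 5, 4, 3, 2, 8, 7, 6, 5, 4, 3, 2, 8, 7, 6, 5, 4, 3, 2, 8, 7, 6, 5, 4, 3, 2, 8, 7, 6, 5, 4, 3, 2, 8, 7, 6, 5, 4, 3, 2, 8, 7, 6, 5, 4, 3, 2, 8, 7, 6, 5, 4, 3, 2]]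
def sgW : List (List Nat) := [[1],
  [2],
  [3],
  [4],
  [5],
  [6],
  [7]]
def tw : List (List Nat) := [[1],
  [2],
  [3],
  [4],
  [5],
  [6],
  [7],
  [1],
  [2],
  [3],
  [4],
  [5],
  [6],
  [7],
  [0],
  [1],
  [2],
  [3],
  [4],
  [5],
  [6],
  [7],
  [8]]
def invL : List Nat := [0, 1, 2, 3, 4, 5, 6, 7, 8]
def inv : Nat → Nat := nthD 0 invL
def roots : List Nat := [1, 9, 65, 345, 513, 793, 961, 1521, 2361, 3481, 4601, 6281, 6309, 6365, 6645, 8325, 8605]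
def nK : Nat := 14
def nL : Nat := 9
def nn : Nat := 8640
def nD : Nat := 14
/-- the per-point check -/
def chkPoint (a : Nat) : Bool :=
  pointOK tp inv pa pl relW sgW tw 14 roots 9 8640 a

end Cfsg.Agent.Lib.Helper28.TF24qLT
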