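import Cfsg.Agent.Lib.Helper28.TF24qUT
import Cfsg.Agent.Lib.Helper28.TCJoin

set_option autoImplicit false
set_option Elab.async false

namespace Cfsg.Agent.Lib.Helper28.TF24qUC0

open Cfsg.Agent.Lib.Helper28.TCKernel Cfsg.Agent.Lib.Helper28.TCJoin Cfsg.Agent.Lib.Helper28.TF24qUT

theorem chk0 : allTree chkName 11 0 = true := by decide +kernel
theorem chk1 : allTree chkName 11 2048 = true := by decide +kernel
theorem chk2 : allTree chkName 11 4096 = true := by decide +kernel
theorem chk3 : allTree chkName 11 6144 = true := by decide +kernel
theorem chk4 : allTree chkName 11 8192 = true := by decide +kernel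
theorem chk5 : allTree chkName 11 10240 = true := by decide +kernel
theorem chk6 : allTree chkName 11 12288 = true := by decide +kernel
theorem chk7 : allTree chkName 11 14336 = true := by decide +kernel
theorem chk : allTree chkName 14 0 = true :=
  (join chkName 13 0 (join chkName 12 0 (join chkName 11 0 chk0 chk1) (join chkName 11 4096 chk2 chk3)) (join chkName 12 8192 (join chkName 11 8192 chk4 chk5) (join chkName 11 12288 chk6 chk7)))
theorem cnt : cntTree (aliveB dsig 9562) 14 0 = 8640 := by decide +kernel

end Cfsg.Agent.Lib.Helper28.TF24qUC0
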