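import Cfsg.Agent.Lib.Helper28.TCKernel
import Cfsg.Agent.Lib.Helper28.TF24rLD0

set_option autoImplicit false

namespace Cfsg.Agent.Lib.Helper28.TF24rLT

open Cfsg.Agent.Lib.Helper28.TCKernel

def p0top : List (List Nat) := [TF24rLD0.p0g0]
def p1top : List (List Nat) := [TF24rLD0.p1g0]
def p2top : List (List Nat) := [TF24rLD0.p2g0]
def p3top : List (List Nat) := [TF24rLD0.p3g0]
def p4top : List (List Nat) := [TF24rLD0.p4g0]
def p5top : List (List Nat) := [TF24rLD0.p5g0]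
def p6top : List (List Nat) := [TF24rLD0.p6g0]
def ptops : List (List (List Nat)) := [p0top, p1top, p2top, p3top, p4top, p5top, p6top]
def ttop : List (List Nat) := [TF24rLD0.tg0]
def tp : Nat → Nat → Nat := fld3z ptops 9 0 0 511 9 511
def pa : Nat → Nat := fld1 ttop 9 0 0 511 13 0 511
def pl : Nat → Nat := fld1 ttop 9 0 0 511 13 9 15
def relW : List (List Nat) := [[0, 1, 0, 1, 0, 1],
  [0, 2, 0, 2],
  [0, 3, 0, 3],
  [0, 4, 0, 4],
  [0, 5, 0, 5],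
  [0, 6, 0, 6],
  [1, 2, 1, 2, 1, 2],
  [1, 3, 1, 3],
  [1, 4, 1, 4],
  [1, 5, 1, 5],
  [1, 6, 1, 6],
  [2, 3, 2, 3, 2, 3],
  [2, 4, 2, 4],
  [2, 5, 2, 5],
  [2, 6, 2, 6],
  [3, 4, 3, 4, 3, 4],
  [3, 5, 3, 5],
  [3, 6, 3, 6],
  [4, 5, 4, 5, 4, 5],
  [4, 6, 4, 6],
  [5, 6, 5, 6, 5, 6]]
def sgW : List (List Nat) := [[0],
  [1],
  [2],
  [3]]
def tw : List (List Nat) := [[0],
  [1],
  [2],
  [3],
  [0],
  [1],
  [2],
  [3],
  [0],
  [1],
  [2],
  [3],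
  [4],
  [5],
  [6]]
def invL : List Nat := [0, 1, 2, 3, 4, 5, 6]
def inv : Nat → Nat := nthD 0 invL
def roots : List Nat := [1, 6, 7, 8, 13, 18, 23, 24, 25, 30, 35, 55, 60, 65, 66, 71, 76, 81, 101, 106, 126, 131, 136, 141, 146, 166, 186, 191, 211, 216, 236, 256, 276]
def nK : Nat := 8
def nL : Nat := 7
def nn : Nat := 336
def nD : Nat := 9
/-- the per-point check -/
def chkPoint (a : Nat) : Bool :=
  pointOK tp inv pa pl relW sgW tw 8 roots 7 336 a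

end Cfsg.Agent.Lib.Helper28.TF24rLT
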