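import Mathlib

set_option autoImplicit false

namespace Cfsg.Agent.Lib.Helper28.TF24sLD0

def p0c0 : Nat := 0xebbe39db7d35cb3c31bafb2daaba299a79258a382179f71d69b6195d559351148f40d38c2c92872051840c1080
def p0g0 : List Nat := [p0c0]

def p1c0 : Nat := 0xe6feeed69de8c65ce4eb8addb5cdb49d7cb08548d36d0b2a7cf64c9962e280e19e69215854a0c8111347242001
def p1g0 : List Nat := [p1c0]

def p2c0 : Nat := 0xdf6b6cefaaeacf29e67dee78d746dac705958e2658bee40fa688602e59081d245d70a2445ce3544c204c006143
def p2g0 : List Nat := [p2c0]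

def p3c0 : Nat := 0xefae78cf2c70df6d74bee8e2860964658a68b6caea49151338d9e630a25d71f78615b6970d65420503c02c81c4
def p3g0 : List Nat := [p3c0]

def tc0 : Nat := 0x1d3bc712c1b3a468e81939460e41747858dd15370511a1335c49151135040d30f340390f0d53430cc858569213838458c0fa28358b04a18258607a08160340800058000
def tg0 : List Nat := [tc0]

end Cfsg.Agent.Lib.Helper28.TF24sLD0
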