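import Cfsg.Agent.Lib.Helper28.TCKernel
import Cfsg.Agent.Lib.Helper28.TF24sLD0

set_option autoImplicit false

namespace Cfsg.Agent.Lib.Helper28.TF24sLT

open Cfsg.Agent.Lib.Helper28.TCKernel

def p0top : List (List Nat) := [TF24sLD0.p0g0]
def p1top : List (List Nat) := [TF24sLD0.p1g0]
def p2top : List (List Nat) := [TF24sLD0.p2g0]
def p3top : List (List Nat) := [TF24sLD0.p3g0]
def ptops : List (List (List Nat)) := [p0top, p1top, p2top, p3top]
def ttop : List (List Nat) := [TF24sLD0.tg0]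
def tp : Nat → Nat → Nat := fld3z ptops 6 0 0 63 6 63
def pa : Nat → Nat := fld1 ttop 6 0 0 63 9 0 63
def pl : Nat → Nat := fld1 ttop 6 0 0 63 9 6 7
def relW : List (List Nat) := [[0, 1, 0, 1, 0, 1],
  [0, 2, 0, 2],
  [0, 3, 0, 3],
  [1, 2, 1, 2, 1, 2],
  [1, 3, 1, 3],
  [2, 3, 2, 3, 2, 3]]
def sgW : List (List Nat) := [[0]]
def tw : List (List Nat) := [[0],
  [0],
  [0],
  [1],
  [2],
  [3]]
def invL : List Nat := [0, 1, 2, 3]
def inv : Nat → Nat := nthD 0 invL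
def roots : List Nat := [1, 3, 4, 5, 7, 9, 11, 12, 13, 15, 17, 19, 21, 23, 24, 26, 28, 30, 32, 34, 36, 38, 40, 42, 44, 46, 48, 50, 52, 54, 56, 58]
def nK : Nat := 2
def nL : Nat := 4
def nn : Nat := 60
def nD : Nat := 6
/-- the per-point check -/
def chkPoint (a : Nat) : Bool :=
  pointOK tp inv pa pl relW sgW tw 2 roots 4 60 a

end Cfsg.Agent.Lib.Helper28.TF24sLT
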