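import Cfsg.Agent.Lib.Helper28.TCKernel
import Cfsg.Agent.Lib.Helper28.TF24sUD0

set_option autoImplicit false

namespace Cfsg.Agent.Lib.Helper28.TF24sUT

open Cfsg.Agent.Lib.Helper28.TCKernel

def e0top : List (List Nat) := [TF24sUD0.e0g0]
def e1top : List (List Nat) := [TF24sUD0.e1g0]
def e2top : List (List Nat) := [TF24sUD0.e2g0]
def e3top : List (List Nat) := [TF24sUD0.e3g0]
def etops : List (List (List Nat)) := [e0top, e1top, e2top, e3top]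
def dtop : List (List Nat) := [TF24sUD0.dg0]
def tgt : Nat → Nat → Nat := fld3z etops 6 0 0 63 26 63
def hnt : Nat → Nat → Nat := fld3 etops 6 0 0 63 26 6 255
def crt : Nat → Nat → Nat := fld3 etops 6 0 0 63 26 14 15
def sig : Nat → Nat → Nat := fld3 etops 6 0 0 63 26 18 255
def par : Nat → Nat := fld1 dtop 6 0 0 63 34 0 63
def plet : Nat → Nat := fld1 dtop 6 0 0 63 34 6 15
def mu : Nat → Nat := fld1 dtop 6 0 0 63 34 10 63
def dst : Nat → Nat := fld1 dtop 6 0 0 63 34 16 63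
def dcrt : Nat → Nat := fld1 dtop 6 0 0 63 34 22 15
def dsig : Nat → Nat := fld1 dtop 6 0 0 63 34 26 255
def nGE : Nat := 1
def certs0 : List Cert := [Cert.mk 1 0 [] [],
  Cert.mk 0 1 [] [1],
  Cert.mk 0 2 [] [2],
  Cert.mk 0 0 [] [2, 0, 2],
  Cert.mk 0 3 [] [3],
  Cert.mk 0 0 [] [3, 0, 3],
  Cert.mk 0 0 [] [0],
  Cert.mk 0 1 [] [0, 1, 0, 1, 0],
  Cert.mk 0 1 [] [3, 1, 3],
  Cert.mk 0 2 [] [1, 2, 1, 2, 1],
  Cert.mk 0 3 [] [2, 3, 2, 3, 2],
  Cert.mk 0 2 [] [0, 2, 0],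
  Cert.mk 0 3 [] [1, 3, 1],
  Cert.mk 0 3 [] [0, 3, 0]]
def certs : List Cert := certs0
def hints : List (Nat × Nat) := [(0, 0), (13, 0), (14, 0), (1, 0), (15, 0), (2, 0), (12, 0), (0, 1), (4, 0), (3, 1), (5, 1), (1, 1), (4, 1), (2, 1)]
def relW : List (List Nat) := [[0, 1, 0, 1, 0, 1],
  [0, 2, 0, 2],
  [0, 3, 0, 3],
  [1, 2, 1, 2, 1, 2],
  [1, 3, 1, 3],
  [2, 3, 2, 3, 2, 3]]
def sgW : List (List Nat) := [[0]]
def invL : List Nat := [0, 1, 2, 3]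
def nL : Nat := 4
def nN : Nat := 60
def nF : Nat := 0
def nAlive : Nat := 60
def nD : Nat := 6
def nB : Nat := 255
/-- the per-name check -/
def chkName (v : Nat) : Bool :=
  andK (nameOK tgt sig crt hnt dsig mu dcrt dst par plet certs 0 4 v) (finOK tgt sig hnt dsig mu 0 4 60 v)

end Cfsg.Agent.Lib.Helper28.TF24sUT
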