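import Cfsg.Agent.Lib.Helper28.TCMainLe
import Cfsg.Agent.Lib.Helper28.PresJ1p
import Cfsg.Agent.Lib.Helper28.TJ1cUC0

set_option autoImplicit false

namespace Cfsg.Agent.Lib.Helper28.TJ1cX

open Cfsg.Spor Cfsg.Agent.Lib.Helper28.TCKernel Cfsg.Agent.Lib.Helper28.TCSound Cfsg.Agent.Lib.Helper28.TCPres Cfsg.Agent.Lib.Helper28.TCMainLe

/-- the subgroup generators -/
def sgSrc : List (FreeGroup J1p.Gen) := [J1p.a * J1p.b]

theorem chunkU : ∀ k, k < 1 → allTree TJ1cUT.chkName 15 (k * 2 ^ 15) = true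
  | 0, _ => TJ1cUC0.chk
  | (k + 1), h => absurd h (by omega)

theorem chkU (v : Nat) : TJ1cUT.chkName v = true := by
  rcases Nat.lt_or_ge v (2 ^ 15) with h | h
  · exact allTree_chunks TJ1cUT.chkName 15 1 chunkU v h
  · exact chk_of_zero _ _ _ _ _ _ _ _ _ _ _ _ _ _ v
      (fun y => fld3_eq_zero _ _ _ _ _ _ _ _ y v 4 (by decide)
        (le_trans (by decide : 4 * 2 ^ (8 + 5) ≤ 2 ^ 15) h))
      (fld1_eq_zero _ _ _ _ _ _ _ _ v
        (le_trans (by decide : TJ1cUT.dtop.length * 2 ^ (7 + 5) ≤ 2 ^ 15) h))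
      (le_trans (by decide : 26426 ≤ 2 ^ 15) h)

/-- the index of the subgroup is positive and at most 25080 -/
theorem final_le : ((Subgroup.closure {s | s ∈ sgSrc}).map (PresentedGroup.mk (coxRelators J1p.edges ∪ {r | r ∈ J1p.extra}))).index ≠ 0 ∧ ((Subgroup.closure {s | s ∈ sgSrc}).map (PresentedGroup.mk (coxRelators J1p.edges ∪ {r | r ∈ J1p.extra}))).index ≤ 25080 :=
  main_le PresJ1p.ok {s | s ∈ sgSrc} sgSrc rfl TJ1cUT.sgW (by decide +kernel) (by decide +kernel)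
    26426 25080 15 2 131071 TJ1cUT.tgt TJ1cUT.sig TJ1cUT.crt TJ1cUT.hnt TJ1cUT.dsig TJ1cUT.mu TJ1cUT.dcrt TJ1cUT.dst
    TJ1cUT.par TJ1cUT.plet TJ1cUT.certs TJ1cUT.hints (by decide +kernel)
    (fun y v => fld3_le _ _ _ _ _ _ _ _ y v) (fun v => fld1_le _ _ _ _ _ _ _ _ v) chkU
    (by decide +kernel) (by decide) TJ1cUC0.cnt

end Cfsg.Agent.Lib.Helper28.TJ1cX
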