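import Mathlib

set_option autoImplicit false

namespace Cfsg.Agent.Lib.Helper28.TM11NLD0

def p0c0 : Nat := 0xa7392548601
def p0g0 : List Nat := [p0c0]

def p1c0 : Nat := 0x79a46381520
def p1g0 : List Nat := [p1c0]

def p2c0 : Nat := 0x894a6275130
def p2g0 : List Nat := [p2c0]

def tc0 : Nat := 0x9da8426481314206000
def tg0 : List Nat := [tc0]

end Cfsg.Agent.Lib.Helper28.TM11NLD0
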