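import Mathlib

set_option autoImplicit false

namespace Cfsg.Agent.Lib.Helper28.TM11NUD0

def e0c0 : Nat := 0x930dc5980d00000140244c0020a980a5e805ac0131c300ef480874004800002b3989604e5bcc0160000f33001a0001
def e0g0 : List Nat := [e0c0]

def e1c0 : Nat := 0x8b0203609135026000001280168006e61004a80035b0015040078d000d293940000000000b826244002320005b0800
def e1g0 : List Nat := [e1c0]

def e2c0 : Nat := 0x5202039091000001e4131320147002f44806b4402590017090027c804000002a0a0d6900394801e240064000fa9000
def e2g0 : List Nat := [e2c0]

def dc0 : Nat := 0x4d8c01c000000d079e92606ee68b00000054173140a0000024800000a4000000e00000220000020d0a109167628809339062300000010000008400000000000000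
def dg0 : List Nat := [dc0]

end Cfsg.Agent.Lib.Helper28.TM11NUD0
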