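import Mathlib
import Cfsg.Agent.Lib.Helper41.TMStmt

/-!
# S5987 piece BADB (helper41's call; minus-form port of my S5973 piece TPBADB)
-/

set_option autoImplicit false

namespace Cfsg.Agent.Lib.Helper28.TMBADB

universe u

open Cfsg.Agent.Lib.Helper41.TMStmt
open Cfsg.Agent.Lib.Helper37.HypStmt (cc IPos)
open Cfsg.Agent.Lib.Helper44.TSStmt (Fac NumTypes)
open Cfsg.Agent.Lib.Helper45.OMiStmt (M Aniso FxM NDegM StabM)
open Cfsg.Agent.Lib.Helper41.TMTwoStmt (TSubM PlusM FixTSM)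

theorem arith (i b s d m f c : ℕ) (hc : Even c) (hsum : i * s + f = m)
    (h1 : 2 * f ≤ 2 * d - b * c) (h2 : 2 * f ≠ 2 * d - b * c)
    (h3 : 2 * d - b * c < 2 * (m - i * s) + 2) : False := by
  obtain ⟨k, rfl⟩ := hc
  have e : b * (k + k) = 2 * (b * k) := by ring
  rw [e] at h1 h2 h3
  have e2 : m - i * s = f := by omega
  rw [e2] at h3
  omega

theorem cc_even (i : ℕ) : Even (cc i) := by
  unfold cc
  split_ifs with h
  · exact h
  · exact even_two_mul i

theorem main : IPos.{u} → EltDim.{u} → FixND.{u} → FxType.{u} → TsHalf.{u} → RImg.{u} →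
    InvDim.{u} → BadB.{u} := by
  intro hIPos hElt hFixND hFxType hTsHalf hRImg hInvDim
  intro F _ _ a₀ b₀ hab p _ _ d m hd r _ hr2 hrp b hb hor hlt hbad
  have hipos := hIPos F p r hrp
  obtain ⟨x, hxO, hxr, hfin⟩ := hElt F a₀ b₀ hab p d hd r hr2 hrp b hb hlt.le
    (by intro h; omega)
  refine ⟨x, hxO, hxr, ?_⟩
  rintro ⟨W, hWm, hWts, hWst⟩
  have hiso : x ∈ Cfsg.isometryGroup F (Cfsg.quadFormMinus (d - 1) F a₀ b₀) := by
    obtain ⟨y, _, hy⟩ := hxO
    rw [← hy]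
    exact y.2
  obtain ⟨R, hRW, hRst, hRfx, hsum, _⟩ := hRImg F a₀ b₀ hab p d r hrp x hxr W hWst
  obtain ⟨s, hs⟩ := hInvDim F a₀ b₀ hab p d r hrp x hxr R hRst hRfx
  rw [hs, hWm] at hsum
  have hle : orderOf ((Fintype.card F : ℕ) : ZMod r) * s ≤ m := by
    rw [← hsum]; exact Nat.le_add_right _ _
  have hND := hFixND F a₀ b₀ hab p d r hrp x hiso hxr
  have hhalf := hTsHalf F a₀ b₀ hab d (FxM (x : Matrix (M d) (M d) F))
    (W ⊓ FxM (x : Matrix (M d) (M d) F)) hND inf_le_right (fun w hw => hWts w hw.1)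
  rw [hfin] at hhalf
  have htype := hFxType F a₀ b₀ hab p d r (by omega) hr2 hrp x hiso hxr
  have hnotplus : ¬ PlusM d F a₀ b₀ (FxM (x : Matrix (M d) (M d) F)) := by
    rw [htype, hfin]
    rintro ⟨hev, hodd⟩
    rcases hor with hiodd | hbev
    · exact (Nat.not_even_iff_odd.2 hiodd) hev
    · have hcc : cc (orderOf ((Fintype.card F : ℕ) : ZMod r)) =
          orderOf ((Fintype.card F : ℕ) : ZMod r) := by
        unfold cc
        rw [if_pos hev]
      rw [hcc] at hlt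
      rw [hcc, Nat.sub_sub_self hlt.le, Nat.mul_div_cancel b hipos] at hodd
      exact (Nat.not_odd_iff_even.2 hbev) hodd
  have hne : 2 * Module.finrank F ↥(W ⊓ FxM (x : Matrix (M d) (M d) F)) ≠
      2 * d - b * cc (orderOf ((Fintype.card F : ℕ) : ZMod r)) := by
    intro h
    apply hnotplus
    exact ⟨W ⊓ FxM (x : Matrix (M d) (M d) F), inf_le_right, fun w hw => hWts w hw.1,
      by rw [hfin, h]⟩
  exact arith _ b s d m _ _ (cc_even _) hsum hhalf hne (hbad s hle)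

end Cfsg.Agent.Lib.Helper28.TMBADB
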