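import Mathlib
import Cfsg.Agent.Lib.Helper41.TMStmt

/-!
# S5987 piece BADD (helper41's call; minus-form port of my S5973 piece TPBADD)
-/

set_option autoImplicit false

namespace Cfsg.Agent.Lib.Helper28.TMBADD

universe u

open Cfsg.Agent.Lib.Helper41.TMStmt
open Cfsg.Agent.Lib.Helper37.HypStmt (cc IPos)
open Cfsg.Agent.Lib.Helper44.TSStmt (Fac NumTypes)
open Cfsg.Agent.Lib.Helper45.OMiStmt (M Aniso FxM NDegM StabM)
open Cfsg.Agent.Lib.Helper41.TMTwoStmt (TSubM PlusM FixTSM)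

theorem arith (i u d m : ℕ) (hev : Even i) (h1 : 2 * m ≤ 2 * d - i * u)
    (h2 : 2 * m ≠ 2 * d - i * u) (h3 : 2 * d - i * u < 2 * m + 2) : False := by
  obtain ⟨k, rfl⟩ := hev
  have e : (k + k) * u = 2 * (k * u) := by ring
  rw [e] at h1 h2 h3
  omega

theorem main : IPos.{u} → MultElt.{u} → FixND.{u} → FxType.{u} → TsHalf.{u} → RImg.{u} →
    BadD.{u} := by
  intro hIPos hMult hFixND hFxType hTsHalf hRImg
  intro F _ _ a₀ b₀ hab p _ _ d m hd r _ hr2 hrp hieven u hueven hu hule hlt hbad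
  have hipos := hIPos F p r hrp
  obtain ⟨x, hxO, hxr, hfin, hnoR⟩ := hMult F a₀ b₀ hab p d hd r hr2 hrp hieven u hu hule hlt
  refine ⟨x, hxO, hxr, ?_⟩
  rintro ⟨W, hWm, hWts, hWst⟩
  have hiso : x ∈ Cfsg.isometryGroup F (Cfsg.quadFormMinus (d - 1) F a₀ b₀) := by
    obtain ⟨y, _, hy⟩ := hxO
    rw [← hy]
    exact y.2
  obtain ⟨R, hRW, hRst, hRfx, hsum, _⟩ := hRImg F a₀ b₀ hab p d r hrp x hxr W hWst
  have hR0 : R = ⊥ := hnoR R hRst hRfx (fun w hw => hWts w (hRW hw))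
  rw [hR0, finrank_bot, zero_add, hWm] at hsum
  have hND := hFixND F a₀ b₀ hab p d r hrp x hiso hxr
  have hhalf := hTsHalf F a₀ b₀ hab d (FxM (x : Matrix (M d) (M d) F))
    (W ⊓ FxM (x : Matrix (M d) (M d) F)) hND inf_le_right (fun w hw => hWts w hw.1)
  rw [hsum, hfin] at hhalf
  have htype := hFxType F a₀ b₀ hab p d r (by omega) hr2 hrp x hiso hxr
  have hnotplus : ¬ PlusM d F a₀ b₀ (FxM (x : Matrix (M d) (M d) F)) := by
    rw [htype, hfin]
    rintro ⟨_, hodd⟩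
    rw [Nat.sub_sub_self hlt.le, Nat.mul_div_cancel_left u hipos] at hodd
    exact (Nat.not_odd_iff_even.2 hueven) hodd
  have hne : 2 * m ≠ 2 * d - orderOf ((Fintype.card F : ℕ) : ZMod r) * u := by
    intro h
    apply hnotplus
    exact ⟨W ⊓ FxM (x : Matrix (M d) (M d) F), inf_le_right, fun w hw => hWts w hw.1,
      by rw [hsum, hfin, h]⟩
  exact arith _ u d m hieven hhalf hne hbad

end Cfsg.Agent.Lib.Helper28.TMBADD
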